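import Cfsg.Agent.Helper24.TISyl4
import Cfsg.Agent.Helper24.Coh2
import Cfsg.Agent.Helper24.CharGagola

/-!
# Brauer–Leonard engine, part 1: actions on the irreducible characters of a subgroup

`C` is a subgroup of the finite group `G`, `blN C` its normalizer.  The normalizer acts on
`IrrCharacter C` by conjugation, and the linear characters `C →* ℂˣ` act by multiplication.
We prove the inner product formula for functions induced from `C` (`bl_ti`, `bl_D`).
-/

set_option autoImplicit false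

namespace Cfsg.Agent.Helper24

open Cfsg Cfsg.Agent.Helper22
open scoped Classical

universe u

section BL
variable {G : Type u} [Group G]

/-- The normalizer of a subgroup. -/
abbrev blN (C : Subgroup G) : Subgroup G := Subgroup.normalizer (C : Set G)

/-- Conjugation by elements of the normalizer as automorphisms of the subgroup. -/
def blAut (C : Subgroup G) : ↥(blN C) →* MulAut ↥C where
  toFun g :=
    { toFun := fun v => ⟨(g : G) * v * (g : G)⁻¹, (Subgroup.mem_normalizer_iff.1 g.2 v).1 v.2⟩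
      invFun := fun v => ⟨(g : G)⁻¹ * v * (g : G), by
        have h := (Subgroup.mem_normalizer_iff.1 (inv_mem g.2) (v : G)).1 v.2
        rwa [inv_inv] at h⟩
      left_inv := fun v => by
        apply Subtype.ext
        show (g : G)⁻¹ * ((g : G) * v * (g : G)⁻¹) * (g : G) = v
        group
      right_inv := fun v => by
        apply Subtype.ext
        show (g : G) * ((g : G)⁻¹ * v * (g : G)) * (g : G)⁻¹ = v
        group
      map_mul' := fun v w => by
        apply Subtype.ext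
        show (g : G) * ((v : G) * w) * (g : G)⁻¹ = ((g : G) * v * (g : G)⁻¹) * ((g : G) * w * (g : G)⁻¹)
        group }
  map_one' := by
    apply MulEquiv.ext
    intro v
    apply Subtype.ext
    show ((1 : ↥(blN C)) : G) * v * ((1 : ↥(blN C)) : G)⁻¹ = v
    rw [Subgroup.coe_one]; group
  map_mul' g h := by
    apply MulEquiv.ext
    intro v
    apply Subtype.ext
    show ((g * h : ↥(blN C)) : G) * v * ((g * h : ↥(blN C)) : G)⁻¹ =
      (g : G) * ((h : G) * v * (h : G)⁻¹) * (g : G)⁻¹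
    rw [Subgroup.coe_mul]; group

theorem blAut_apply (C : Subgroup G) (g : ↥(blN C)) (v : ↥C) :
    ((blAut C g v : ↥C) : G) = (g : G) * v * (g : G)⁻¹ := rfl

theorem blAut_inv_apply (C : Subgroup G) (g : ↥(blN C)) (v : ↥C) :
    ((blAut C g⁻¹ v : ↥C) : G) = (g : G)⁻¹ * v * (g : G) := by
  rw [blAut_apply, Subgroup.coe_inv, inv_inv]

variable [Fintype G] (C : Subgroup G)

/-- The normalizer acts on the irreducible characters by conjugation. -/
noncomputable instance blConjAct : MulAction ↥(blN C) (IrrCharacter ↥C) where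
  smul x ω := ⟨fun c => ω.1 (blAut C x⁻¹ c), ti_irr_comp (blAut C x⁻¹) ω.1 ω.2⟩
  one_smul ω := by
    apply Subtype.ext
    funext c
    show ω.1 (blAut C (1 : ↥(blN C))⁻¹ c) = ω.1 c
    rw [inv_one, map_one]; rfl
  mul_smul x y ω := by
    apply Subtype.ext
    funext c
    show ω.1 (blAut C (x * y)⁻¹ c) = ω.1 (blAut C y⁻¹ (blAut C x⁻¹ c))
    rw [mul_inv_rev, map_mul]; rfl

theorem blSmul_apply (x : ↥(blN C)) (ω : IrrCharacter ↥C) (c : ↥C) :
    (x • ω).1 c = ω.1 (blAut C x⁻¹ c) := rfl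

/-- The linear characters act on the irreducible characters by multiplication. -/
noncomputable instance blTwAct : MulAction (↥C →* ℂˣ) (IrrCharacter ↥C) where
  smul κ ω := ⟨fun c => ((κ c : ℂˣ) : ℂ) * ω.1 c,
    linear_mul_irr (fun c => ((κ c : ℂˣ) : ℂ)) ω.1 (isIrrCharacter_of_hom κ) (by simp) ω.2⟩
  one_smul ω := by
    apply Subtype.ext
    funext c
    show (((1 : ↥C →* ℂˣ) c : ℂˣ) : ℂ) * ω.1 c = ω.1 c
    simp
  mul_smul κ κ' ω := by
    apply Subtype.ext
    funext c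
    show (((κ * κ') c : ℂˣ) : ℂ) * ω.1 c = ((κ c : ℂˣ) : ℂ) * (((κ' c : ℂˣ) : ℂ) * ω.1 c)
    rw [MonoidHom.mul_apply, Units.val_mul, mul_assoc]

theorem blTw_apply (κ : ↥C →* ℂˣ) (ω : IrrCharacter ↥C) (c : ↥C) :
    (κ • ω).1 c = ((κ c : ℂˣ) : ℂ) * ω.1 c := rfl

theorem bl_smul_comm (x : ↥(blN C)) (κ : ↥C →* ℂˣ) (ω : IrrCharacter ↥C) :
    x • (κ • ω) = (κ.comp (blAut C x⁻¹ : ↥C ≃* ↥C).toMonoidHom) • (x • ω) := by
  apply Subtype.ext
  funext c
  rfl

/-- The trivial character of `C`. -/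
noncomputable def blOne : IrrCharacter ↥C := ⟨fun _ => 1, isIrrCharacter_one⟩

theorem blOne_smul (x : ↥(blN C)) : x • blOne C = blOne C := by
  apply Subtype.ext
  funext c
  rfl

/-- `ω` is fixed by no element of the normalizer outside `C`. -/
def blFree (ω : IrrCharacter ↥C) : Prop := ∀ x : ↥(blN C), x • ω = ω → (x : G) ∈ C

theorem bl_le : C ≤ blN C := Subgroup.le_normalizer

theorem blFree_smul {ω : IrrCharacter ↥C} (h : blFree C ω) (y : ↥(blN C)) :
    blFree C (y • ω) := by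
  intro x hx
  have h1 : (y⁻¹ * x * y) • ω = ω := by
    rw [mul_smul, mul_smul, hx, inv_smul_smul]
  have h2 := h _ h1
  have h3 := (Subgroup.mem_normalizer_iff.1 y.2 _).1 h2
  have h4 : (y : G) * ((y⁻¹ * x * y : ↥(blN C)) : G) * (y : G)⁻¹ = x := by
    rw [Subgroup.coe_mul, Subgroup.coe_mul, Subgroup.coe_inv]; group
  rwa [h4] at h3

theorem bl_smul_of_mem (ω : IrrCharacter ↥C) (x : ↥(blN C)) (hx : (x : G) ∈ C) : x • ω = ω := by
  apply Subtype.ext
  funext c
  show ω.1 (blAut C x⁻¹ c) = ω.1 c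
  have e : blAut C x⁻¹ c = (⟨(x : G), hx⟩ : ↥C)⁻¹ * c * ((⟨(x : G), hx⟩ : ↥C)⁻¹)⁻¹ := by
    apply Subtype.ext
    rw [blAut_inv_apply]
    simp
  rw [e]
  exact irr_conj ω c _

theorem bl_stab {ω : IrrCharacter ↥C} (h : blFree C ω) :
    MulAction.stabilizer ↥(blN C) ω = C.subgroupOf (blN C) := by
  ext x
  rw [MulAction.mem_stabilizer_iff, Subgroup.mem_subgroupOf]
  exact ⟨h x, bl_smul_of_mem C ω x⟩

theorem bl_card_subgroupOf : Nat.card ↥(C.subgroupOf (blN C)) = Nat.card ↥C :=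
  Nat.card_congr (Subgroup.subgroupOfEquivOfLe (bl_le C)).toEquiv

/-- The orbit of `ω` under the normalizer, as a finset. -/
noncomputable def blOrb (ω : IrrCharacter ↥C) : Finset (IrrCharacter ↥C) :=
  Finset.univ.filter (fun ω' => ∃ x : ↥(blN C), x • ω = ω')

theorem mem_blOrb {ω ω' : IrrCharacter ↥C} : ω' ∈ blOrb C ω ↔ ∃ x : ↥(blN C), x • ω = ω' := by
  simp [blOrb]

theorem blOrb_self (ω : IrrCharacter ↥C) : ω ∈ blOrb C ω :=
  (mem_blOrb C).mpr ⟨1, one_smul _ _⟩

theorem blOrb_card {e : ℕ} (he : Nat.card ↥(blN C) = e * Nat.card ↥C) {ω : IrrCharacter ↥C}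
    (h : blFree C ω) : (blOrb C ω).card = e := by
  have h1 : (MulAction.orbit ↥(blN C) ω) = ↑(blOrb C ω) := by
    ext ω'
    rw [Finset.mem_coe, mem_blOrb, MulAction.mem_orbit_iff]
  have h2 := MulAction.index_stabilizer (G := ↥(blN C)) (x := ω)
  rw [h1, Set.ncard_coe_finset, bl_stab C h] at h2
  have h3 := Subgroup.card_mul_index (C.subgroupOf (blN C))
  rw [bl_card_subgroupOf, he, h2, mul_comm] at h3
  exact Nat.eq_of_mul_eq_mul_right Nat.card_pos h3

/-- The conjugacy form. -/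
noncomputable def blj (ω ω' : IrrCharacter ↥C) : ℂ :=
  (Nat.card ↥C : ℂ)⁻¹ * ∑ x : ↥(blN C), classInner ω.1 (x • ω').1

theorem blj_of_not_conj {ω ω' : IrrCharacter ↥C} (h : ∀ x : ↥(blN C), x • ω' ≠ ω) :
    blj C ω ω' = 0 := by
  unfold blj
  rw [Finset.sum_eq_zero, mul_zero]
  intro x _
  rw [irr_orthonormal, if_neg (fun hh => h x hh.symm)]

theorem blj_free {ω : IrrCharacter ↥C} (h : blFree C ω) : blj C ω ω = 1 := by
  unfold blj
  have hC : (Nat.card ↥C : ℂ) ≠ 0 := Nat.cast_ne_zero.mpr Nat.card_pos.ne'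
  have h1 : ∀ x : ↥(blN C), classInner ω.1 (x • ω).1 = if x ∈ C.subgroupOf (blN C) then 1 else 0 := by
    intro x
    rw [irr_orthonormal]
    by_cases hx : x ∈ C.subgroupOf (blN C)
    · rw [if_pos hx, if_pos (bl_smul_of_mem C ω x (Subgroup.mem_subgroupOf.mp hx)).symm]
    · rw [if_neg hx, if_neg]
      intro hh
      exact hx (Subgroup.mem_subgroupOf.mpr (h x hh.symm))
  rw [Finset.sum_congr rfl (fun x _ => h1 x), Finset.sum_boole]
  have h2 : (Finset.univ.filter (fun x : ↥(blN C) => x ∈ C.subgroupOf (blN C))).card =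
      Nat.card ↥C := by
    rw [← bl_card_subgroupOf C, Nat.card_eq_fintype_card, Fintype.card_subtype]
  rw [h2, inv_mul_cancel₀ hC]

theorem blj_one {e : ℕ} (he : Nat.card ↥(blN C) = e * Nat.card ↥C) :
    blj C (blOne C) (blOne C) = e := by
  unfold blj
  have hC : (Nat.card ↥C : ℂ) ≠ 0 := Nat.cast_ne_zero.mpr Nat.card_pos.ne'
  have h1 : ∀ x : ↥(blN C), classInner (blOne C).1 (x • blOne C).1 = 1 := by
    intro x
    rw [blOne_smul, irr_inner_self]
  rw [Finset.sum_congr rfl (fun x _ => h1 x), Finset.sum_const, Finset.card_univ,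
    ← Nat.card_eq_fintype_card, he, nsmul_eq_mul, mul_one]
  push_cast
  field_simp

/-- The common kernel of a family of linear characters. -/
def blV (L : Subgroup (↥C →* ℂˣ)) : Set ↥C := {c | ∀ κ ∈ L, κ c = 1}

theorem bl_van (L : Subgroup (↥C →* ℂˣ)) {κ : ↥C →* ℂˣ} (hκ : κ ∈ L) (ω : IrrCharacter ↥C) :
    ∀ c ∈ blV C L, ω.1 c = (κ • ω).1 c := by
  intro c hc
  rw [blTw_apply, hc κ hκ, Units.val_one, one_mul]

/-- The inner product formula for induced functions vanishing on `blV`. -/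
theorem bl_ti (L : Subgroup (↥C →* ℂˣ))
    (hTI : ∀ g : G, ∀ a : ↥C, a ∉ blV C L → g * a * g⁻¹ ∈ C → g ∈ blN C)
    (f f' : ↥C → ℂ) (hf : ∀ c ∈ blV C L, f c = 0) :
    classInner (indFun C f) (indFun C f') =
      (Nat.card ↥C : ℂ)⁻¹ * ∑ x : ↥(blN C), classInner f (fun c => f' (blAut C x⁻¹ c)) := by
  rw [classInner_indFun C f (indFun C f') (indFun_isClassFunction C f')]
  have key : ∀ c : ↥C, f c * starRingEnd ℂ (indFun C f' (c : G)) =
      f c * starRingEnd ℂ ((Nat.card ↥C : ℂ)⁻¹ * ∑ x : ↥(blN C), f' (blAut C x⁻¹ c)) := by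
    intro c
    by_cases hc : c ∈ blV C L
    · rw [hf c hc, zero_mul, zero_mul]
    · congr 2
      show (Nat.card ↥C : ℂ)⁻¹ * ∑ x : G, extendByZero C f' (x⁻¹ * (c : G) * x) = _
      congr 1
      have h1 : ∑ x : G, extendByZero C f' (x⁻¹ * (c : G) * x) =
          ∑ x ∈ Finset.univ.filter (fun x : G => x ∈ blN C),
            extendByZero C f' (x⁻¹ * (c : G) * x) := by
        symm
        apply Finset.sum_subset (Finset.filter_subset _ _)
        intro x _ hx
        have hxN : x ∉ blN C := by simpa using hx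
        apply extendByZero_apply_not_mem
        intro hmem
        apply hxN
        have h := hTI x⁻¹ c hc (by simpa using hmem)
        simpa using inv_mem h
      have h2 : ∑ x ∈ Finset.univ.filter (fun x : G => x ∈ blN C),
            extendByZero C f' (x⁻¹ * (c : G) * x) =
          ∑ x : ↥(blN C), extendByZero C f' ((x : G)⁻¹ * (c : G) * (x : G)) :=
        Finset.sum_subtype _ (by simp) _
      have h3 : ∀ x : ↥(blN C), extendByZero C f' ((x : G)⁻¹ * (c : G) * (x : G)) =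
          f' (blAut C x⁻¹ c) := by
        intro x
        rw [← blAut_inv_apply, extendByZero_apply_mem C f' (blAut C x⁻¹ c).2]
      rw [h1, h2]
      exact Finset.sum_congr rfl (fun x _ => h3 x)
  simp only [classInner_def']
  rw [Finset.sum_congr rfl (fun c _ => key c)]
  simp only [map_mul, map_sum, map_inv₀, Complex.conj_natCast, Finset.mul_sum]
  rw [Finset.sum_comm]
  refine Finset.sum_congr rfl fun x _ => Finset.sum_congr rfl fun c _ => ?_
  ring

theorem bl_D (L : Subgroup (↥C →* ℂˣ))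
    (hTI : ∀ g : G, ∀ a : ↥C, a ∉ blV C L → g * a * g⁻¹ ∈ C → g ∈ blN C)
    (ω₁ ω₁' ω₂ ω₂' : IrrCharacter ↥C) (h1 : ∀ c ∈ blV C L, ω₁.1 c = ω₁'.1 c) :
    classInner (indFun C (ω₁.1 - ω₁'.1)) (indFun C (ω₂.1 - ω₂'.1)) =
      blj C ω₁ ω₂ - blj C ω₁ ω₂' - blj C ω₁' ω₂ + blj C ω₁' ω₂' := by
  rw [bl_ti C L hTI _ _ (fun c hc => by rw [Pi.sub_apply, h1 c hc, sub_self])]
  have h2 : ∀ x : ↥(blN C), classInner (ω₁.1 - ω₁'.1)
      (fun c => (ω₂.1 - ω₂'.1) (blAut C x⁻¹ c)) =
      classInner ω₁.1 (x • ω₂).1 - classInner ω₁.1 (x • ω₂').1 -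
        classInner ω₁'.1 (x • ω₂).1 + classInner ω₁'.1 (x • ω₂').1 := by
    intro x
    have e : (fun c => (ω₂.1 - ω₂'.1) (blAut C x⁻¹ c)) = (x • ω₂).1 - (x • ω₂').1 := rfl
    rw [e, classInner_sub_left, classInner_sub_right, classInner_sub_right]
    ring
  rw [Finset.sum_congr rfl (fun x _ => h2 x)]
  unfold blj
  simp only [Finset.sum_add_distrib, Finset.sum_sub_distrib]
  ring

/-- The multiplicity of `ω` in the restriction of `θ` to `C`. -/
noncomputable def blm (θ : G → ℂ) (ω : IrrCharacter ↥C) : ℕ :=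
  ⌊(classInner (fun c : ↥C => θ c) ω.1).re⌋₊

theorem blm_spec {θ : G → ℂ} (hθ : IsCharacter G θ) (ω : IrrCharacter ↥C) :
    classInner (fun c : ↥C => θ c) ω.1 = (blm C θ ω : ℂ) := by
  obtain ⟨k, hk⟩ := isCharacter_inner_irr (isCharacter_restrict C hθ) ω
  unfold blm
  rw [hk, Complex.natCast_re, Nat.floor_natCast]

theorem blm_spec' {θ : G → ℂ} (hθ : IsCharacter G θ) (ω : IrrCharacter ↥C) :
    classInner ω.1 (fun c : ↥C => θ c) = (blm C θ ω : ℂ) := by
  rw [classInner_conj_symm, blm_spec C hθ, Complex.conj_natCast]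

theorem blm_smul {θ : G → ℂ} (hθ : IsClassFunction G θ) (x : ↥(blN C)) (ω : IrrCharacter ↥C) :
    blm C θ (x • ω) = blm C θ ω := by
  have h := ti_classInner_comp (blAut C x⁻¹) (fun c : ↥C => θ c) ω.1
  have e : (fun u : ↥C => θ ((blAut C x⁻¹ u : ↥C) : G)) = fun c : ↥C => θ c := by
    funext u
    rw [blAut_apply]
    exact hθ _ _
  rw [e] at h
  unfold blm
  rw [← h]
  rfl

theorem bl_D_theta (ω ω' : IrrCharacter ↥C) {θ : G → ℂ} (hθ : IsCharacter G θ) :
    classInner (indFun C (ω.1 - ω'.1)) θ = (blm C θ ω : ℂ) - (blm C θ ω' : ℂ) := by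
  rw [classInner_indFun C _ θ (isCharacter_isClassFunction hθ), classInner_sub_left,
    blm_spec' C hθ, blm_spec' C hθ]

theorem bl_theta_D (ω ω' : IrrCharacter ↥C) {θ : G → ℂ} (hθ : IsCharacter G θ) :
    classInner θ (indFun C (ω.1 - ω'.1)) = (blm C θ ω : ℂ) - (blm C θ ω' : ℂ) := by
  rw [classInner_conj_symm, bl_D_theta C ω ω' hθ, map_sub, Complex.conj_natCast,
    Complex.conj_natCast]

theorem bl_deg_sum {θ : G → ℂ} (hθ : IsCharacter G θ) :
    θ 1 = ∑ ω : IrrCharacter ↥C, (blm C θ ω : ℂ) * ω.1 1 := by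
  have h := classFunction_eq_sum_irr (fun c : ↥C => θ c)
    (isCharacter_isClassFunction (isCharacter_restrict C hθ))
  have h1 := congrFun h 1
  simp only [Finset.sum_apply, Pi.smul_apply, smul_eq_mul, blm_spec C hθ] at h1
  rw [← h1]
  rfl

theorem bl_deg_sum_nat (θ : IrrCharacter G) :
    charDegree θ.1 = ∑ ω : IrrCharacter ↥C, blm C θ.1 ω * charDegree ω.1 := by
  have h := bl_deg_sum C (isCharacter_of_isIrrCharacter θ.2)
  rw [(irr_charDegree_spec θ).1] at h
  have h2 : ∀ ω : IrrCharacter ↥C, (blm C θ.1 ω : ℂ) * ω.1 1 =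
      ((blm C θ.1 ω * charDegree ω.1 : ℕ) : ℂ) := by
    intro ω
    rw [(irr_charDegree_spec ω).1]
    push_cast
    rfl
  rw [Finset.sum_congr rfl (fun ω _ => h2 ω), ← Nat.cast_sum] at h
  exact_mod_cast h

theorem bl_card_le_deg (θ : IrrCharacter G) (T : Finset (IrrCharacter ↥C))
    (hT : ∀ ω ∈ T, blm C θ.1 ω ≠ 0) : T.card ≤ charDegree θ.1 := by
  rw [bl_deg_sum_nat C θ, Finset.card_eq_sum_ones]
  refine le_trans (Finset.sum_le_sum fun ω hω => ?_)
    (Finset.sum_le_sum_of_subset (Finset.subset_univ T))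
  have h1 := Nat.pos_of_ne_zero (hT ω hω)
  have h2 := Nat.pos_of_ne_zero (irr_charDegree_spec ω).2.1
  exact Nat.mul_pos h1 h2

theorem bl_pos (F : G → ℂ) (h : F 1 ≠ 0) : 0 < (classInner F F).re := by
  have e : classInner F F =
      (((Nat.card G : ℝ)⁻¹ * ∑ g : G, Complex.normSq (F g) : ℝ) : ℂ) := by
    rw [classInner_def']
    push_cast
    congr 1
    exact Finset.sum_congr rfl fun g _ => Complex.mul_conj _
  rw [e, Complex.ofReal_re]
  apply mul_pos (inv_pos.mpr (Nat.cast_pos.mpr Nat.card_pos))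
  exact lt_of_lt_of_le (Complex.normSq_pos.mpr h)
    (Finset.single_le_sum (f := fun g => Complex.normSq (F g))
      (fun g _ => Complex.normSq_nonneg _) (Finset.mem_univ 1))

theorem bl_nonneg (F : G → ℂ) : 0 ≤ (classInner F F).re := by
  have e : classInner F F =
      (((Nat.card G : ℝ)⁻¹ * ∑ g : G, Complex.normSq (F g) : ℝ) : ℂ) := by
    rw [classInner_def']
    push_cast
    congr 1
    exact Finset.sum_congr rfl fun g _ => Complex.mul_conj _
  rw [e, Complex.ofReal_re]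
  exact mul_nonneg (inv_nonneg.mpr (Nat.cast_nonneg _))
    (Finset.sum_nonneg fun g _ => Complex.normSq_nonneg _)

theorem bl_ind_one (f : ↥C → ℂ) (h : f 1 = 0) : indFun C f 1 = 0 := by
  rw [indFun_one, h, mul_zero]

end BL

end Cfsg.Agent.Helper24
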