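import Cfsg.Agent.Helper24.BL1

/-!
# Brauer–Leonard engine, part 2: the basic inequalities
-/

set_option autoImplicit false

namespace Cfsg.Agent.Helper24

open Cfsg Cfsg.Agent.Helper22
open scoped Classical

universe u

section BL
variable {G : Type u} [Group G] [Fintype G] (C : Subgroup G) (L : Subgroup (↥C →* ℂˣ))

/-- The hypotheses of the engine. -/
structure BLHyp (e : ℕ) : Prop where
  ti : ∀ g : G, ∀ a : ↥C, a ∉ blV C L → g * a * g⁻¹ ∈ C → g ∈ blN C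
  card : Nat.card ↥(blN C) = e * Nat.card ↥C
  stab : ∀ x : ↥(blN C), ∀ κ ∈ L, κ.comp (blAut C x : ↥C ≃* ↥C).toMonoidHom ∈ L
  tw : ∀ κ ∈ L, ∀ ω : IrrCharacter ↥C, κ • ω = ω → κ = 1
  nf : ∀ ω : IrrCharacter ↥C, ∀ κ ∈ L, ∀ κ' ∈ L, ¬ blFree C (κ • ω) → ¬ blFree C (κ' • ω) → κ = κ'
  lin : ∀ κ ∈ L, κ ≠ 1 → blFree C (κ • blOne C)

theorem bl_nc_symm {ω ω' : IrrCharacter ↥C} (h : ∀ x : ↥(blN C), x • ω ≠ ω') :
    ∀ x : ↥(blN C), x • ω' ≠ ω :=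
  fun x hx => h x⁻¹ (by rw [← hx, inv_smul_smul])

theorem bl_nc_of_m {θ : G → ℂ} (hθ : IsClassFunction G θ) {ω ω' : IrrCharacter ↥C}
    (h0 : blm C θ ω = 0) (h1 : blm C θ ω' ≠ 0) : ∀ x : ↥(blN C), x • ω ≠ ω' := by
  intro x hx
  apply h1
  rw [← hx, blm_smul C hθ, h0]

theorem bl_one_mem_V : (1 : ↥C) ∈ blV C L := fun κ _ => map_one κ

theorem bl_E1 (hTI : ∀ g : G, ∀ a : ↥C, a ∉ blV C L → g * a * g⁻¹ ∈ C → g ∈ blN C)
    (θ : IrrCharacter G) (ω₁ ω₃ : IrrCharacter ↥C)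
    (hv : ∀ c ∈ blV C L, ω₁.1 c = ω₃.1 c) (hf1 : blFree C ω₁) (hf3 : blFree C ω₃)
    (hm3 : blm C θ.1 ω₃ = 0) (hm1 : blm C θ.1 ω₁ ≠ 0) : blm C θ.1 ω₁ = 1 := by
  have hθc := isCharacter_of_isIrrCharacter θ.2
  have hcf := isCharacter_isClassFunction hθc
  have hnc31 : ∀ x : ↥(blN C), x • ω₃ ≠ ω₁ := bl_nc_of_m C hcf hm3 hm1
  have hnc13 : ∀ x : ↥(blN C), x • ω₁ ≠ ω₃ := bl_nc_symm C hnc31
  have hDD : classInner (indFun C (ω₁.1 - ω₃.1)) (indFun C (ω₁.1 - ω₃.1)) = 2 := by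
    rw [bl_D C L hTI ω₁ ω₃ ω₁ ω₃ hv, blj_free C hf1, blj_free C hf3,
      blj_of_not_conj C hnc31, blj_of_not_conj C hnc13]
    norm_num
  have hDθ := bl_D_theta C ω₁ ω₃ hθc
  have hθD := bl_theta_D C ω₁ ω₃ hθc
  rw [hm3, Nat.cast_zero, sub_zero] at hDθ hθD
  obtain ⟨D, hD⟩ : ∃ D, D = indFun C (ω₁.1 - ω₃.1) := ⟨_, rfl⟩
  rw [← hD] at hDD hDθ hθD
  have hFF : classInner (D - θ.1) (D - θ.1) = 3 - 2 * (blm C θ.1 ω₁ : ℂ) := by
    rw [classInner_sub_left, classInner_sub_right, classInner_sub_right, hDD, hDθ, hθD,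
      irr_inner_self]
    ring
  have hF1 : (D - θ.1) 1 ≠ 0 := by
    rw [Pi.sub_apply, hD, bl_ind_one C _ (by rw [Pi.sub_apply, hv 1 (bl_one_mem_V C L), sub_self]),
      zero_sub]
    exact neg_ne_zero.mpr (irr_one_ne_zero θ)
  have hpos := bl_pos _ hF1
  rw [hFF] at hpos
  have hre : ((3 : ℂ) - 2 * (blm C θ.1 ω₁ : ℂ)).re = 3 - 2 * (blm C θ.1 ω₁ : ℝ) := by simp
  rw [hre] at hpos
  have h2 : (blm C θ.1 ω₁ : ℝ) < 2 := by linarith
  have h3 : blm C θ.1 ω₁ < 2 := by exact_mod_cast h2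
  omega

theorem bl_E2 (hTI : ∀ g : G, ∀ a : ↥C, a ∉ blV C L → g * a * g⁻¹ ∈ C → g ∈ blN C)
    (θ : IrrCharacter G) (ω₁ ω₂ ω₃ ω₄ : IrrCharacter ↥C)
    (hv13 : ∀ c ∈ blV C L, ω₁.1 c = ω₃.1 c) (hv24 : ∀ c ∈ blV C L, ω₂.1 c = ω₄.1 c)
    (hf1 : blFree C ω₁) (hf2 : blFree C ω₂) (hf3 : blFree C ω₃) (hf4 : blFree C ω₄)
    (hm1 : blm C θ.1 ω₁ ≠ 0) (hm2 : blm C θ.1 ω₂ ≠ 0)
    (hm3 : blm C θ.1 ω₃ = 0) (hm4 : blm C θ.1 ω₄ = 0)
    (h12 : ∀ x : ↥(blN C), x • ω₁ ≠ ω₂) (h34 : ∀ x : ↥(blN C), x • ω₃ ≠ ω₄) : False := by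
  have hθc := isCharacter_of_isIrrCharacter θ.2
  have hcf := isCharacter_isClassFunction hθc
  have h21 := bl_nc_symm C h12
  have h43 := bl_nc_symm C h34
  have h31 : ∀ x : ↥(blN C), x • ω₃ ≠ ω₁ := bl_nc_of_m C hcf hm3 hm1
  have h13 := bl_nc_symm C h31
  have h32 : ∀ x : ↥(blN C), x • ω₃ ≠ ω₂ := bl_nc_of_m C hcf hm3 hm2
  have h23 := bl_nc_symm C h32
  have h41 : ∀ x : ↥(blN C), x • ω₄ ≠ ω₁ := bl_nc_of_m C hcf hm4 hm1
  have h14 := bl_nc_symm C h41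
  have h42 : ∀ x : ↥(blN C), x • ω₄ ≠ ω₂ := bl_nc_of_m C hcf hm4 hm2
  have h24 := bl_nc_symm C h42
  have hD11 : classInner (indFun C (ω₁.1 - ω₃.1)) (indFun C (ω₁.1 - ω₃.1)) = 2 := by
    rw [bl_D C L hTI ω₁ ω₃ ω₁ ω₃ hv13, blj_free C hf1, blj_free C hf3,
      blj_of_not_conj C h31, blj_of_not_conj C h13]
    norm_num
  have hD22 : classInner (indFun C (ω₂.1 - ω₄.1)) (indFun C (ω₂.1 - ω₄.1)) = 2 := by
    rw [bl_D C L hTI ω₂ ω₄ ω₂ ω₄ hv24, blj_free C hf2, blj_free C hf4,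
      blj_of_not_conj C h42, blj_of_not_conj C h24]
    norm_num
  have hD12 : classInner (indFun C (ω₁.1 - ω₃.1)) (indFun C (ω₂.1 - ω₄.1)) = 0 := by
    rw [bl_D C L hTI ω₁ ω₃ ω₂ ω₄ hv13, blj_of_not_conj C h21, blj_of_not_conj C h41,
      blj_of_not_conj C h23, blj_of_not_conj C h43]
    norm_num
  have hD21 : classInner (indFun C (ω₂.1 - ω₄.1)) (indFun C (ω₁.1 - ω₃.1)) = 0 := by
    rw [bl_D C L hTI ω₂ ω₄ ω₁ ω₃ hv24, blj_of_not_conj C h12, blj_of_not_conj C h32,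
      blj_of_not_conj C h14, blj_of_not_conj C h34]
    norm_num
  have hD1θ := bl_D_theta C ω₁ ω₃ hθc
  have hθD1 := bl_theta_D C ω₁ ω₃ hθc
  have hD2θ := bl_D_theta C ω₂ ω₄ hθc
  have hθD2 := bl_theta_D C ω₂ ω₄ hθc
  rw [hm3, Nat.cast_zero, sub_zero] at hD1θ hθD1
  rw [hm4, Nat.cast_zero, sub_zero] at hD2θ hθD2
  have h1 : indFun C (ω₁.1 - ω₃.1) 1 = 0 :=
    bl_ind_one C _ (by rw [Pi.sub_apply, hv13 1 (bl_one_mem_V C L), sub_self])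
  have h2 : indFun C (ω₂.1 - ω₄.1) 1 = 0 :=
    bl_ind_one C _ (by rw [Pi.sub_apply, hv24 1 (bl_one_mem_V C L), sub_self])
  obtain ⟨D₁, hD₁⟩ : ∃ D, D = indFun C (ω₁.1 - ω₃.1) := ⟨_, rfl⟩
  obtain ⟨D₂, hD₂⟩ : ∃ D, D = indFun C (ω₂.1 - ω₄.1) := ⟨_, rfl⟩
  rw [← hD₁] at hD11 hD12 hD21 hD1θ hθD1 h1
  rw [← hD₂] at hD22 hD12 hD21 hD2θ hθD2 h2
  have hFF : classInner (D₁ + D₂ - θ.1 - θ.1) (D₁ + D₂ - θ.1 - θ.1) =
      8 - 4 * (blm C θ.1 ω₁ : ℂ) - 4 * (blm C θ.1 ω₂ : ℂ) := by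
    simp only [classInner_sub_left, classInner_add_left, classInner_sub_right,
      classInner_add_right, hD11, hD12, hD21, hD22, hD1θ, hθD1, hD2θ, hθD2, irr_inner_self]
    ring
  have hF1 : (D₁ + D₂ - θ.1 - θ.1) 1 ≠ 0 := by
    simp only [Pi.sub_apply, Pi.add_apply, h1, h2]
    have := irr_one_ne_zero θ
    intro h0
    apply this
    linear_combination (-1 / 2 : ℂ) * h0
  have hpos := bl_pos _ hF1
  rw [hFF] at hpos
  have hre : ((8 : ℂ) - 4 * (blm C θ.1 ω₁ : ℂ) - 4 * (blm C θ.1 ω₂ : ℂ)).re =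
      8 - 4 * (blm C θ.1 ω₁ : ℝ) - 4 * (blm C θ.1 ω₂ : ℝ) := by simp
  rw [hre] at hpos
  have h3 : (blm C θ.1 ω₁ : ℝ) + (blm C θ.1 ω₂ : ℝ) < 2 := by linarith
  have h4 : blm C θ.1 ω₁ + blm C θ.1 ω₂ < 2 := by exact_mod_cast h3
  omega

variable [Fintype ↥L]

theorem bl_orth (c : ↥C) :
    ∑ κ : ↥L, (((κ : ↥C →* ℂˣ) c : ℂˣ) : ℂ) =
      if c ∈ blV C L then (Fintype.card ↥L : ℂ) else 0 := by
  by_cases hc : c ∈ blV C L
  · rw [if_pos hc, Finset.sum_congr rfl (fun κ _ => by rw [hc κ.1 κ.2, Units.val_one]),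
      Finset.sum_const, Finset.card_univ, nsmul_eq_mul, mul_one]
  · rw [if_neg hc]
    have hex : ∃ κ₀ ∈ L, κ₀ c ≠ 1 := by
      by_contra hno
      push Not at hno
      exact hc hno
    obtain ⟨κ₀, hκ₀, hne⟩ := hex
    have h1 : ∑ κ : ↥L, ((κ₀ c : ℂˣ) : ℂ) * (((κ : ↥C →* ℂˣ) c : ℂˣ) : ℂ) =
        ∑ κ : ↥L, (((κ : ↥C →* ℂˣ) c : ℂˣ) : ℂ) :=
      Fintype.sum_equiv (Equiv.mulLeft (⟨κ₀, hκ₀⟩ : ↥L)) _ _ (fun κ => by
        simp [Subgroup.coe_mul])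
    rw [← Finset.mul_sum] at h1
    have h2 : (((κ₀ c : ℂˣ) : ℂ) - 1) * ∑ κ : ↥L, (((κ : ↥C →* ℂˣ) c : ℂˣ) : ℂ) = 0 := by
      rw [sub_mul, one_mul, h1, sub_self]
    rcases mul_eq_zero.mp h2 with h | h
    · exact absurd (Units.val_eq_one.mp (sub_eq_zero.mp h)) hne
    · exact h

/-- The number of zeros of the multiplicity function in the slice of `ω`. -/
noncomputable def blz (θ : G → ℂ) (ω : IrrCharacter ↥C) : ℕ :=
  (Finset.univ.filter (fun κ : ↥L => blm C θ ((κ : ↥C →* ℂˣ) • ω) = 0)).card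

theorem bl_comb (m : IrrCharacter ↥C → ℕ) :
    (∑ ω : IrrCharacter ↥C, (m ω : ℤ) ^ 2 *
        ((Finset.univ.filter (fun κ : ↥L => m ((κ : ↥C →* ℂˣ) • ω) = 0)).card : ℤ)) ≤
      ∑ κ : ↥L, ∑ ω : IrrCharacter ↥C, (m ω : ℤ) * ((m ω : ℤ) - (m ((κ : ↥C →* ℂˣ) • ω) : ℤ)) := by
  have hperm : ∀ κ : ↥L, ∑ ω : IrrCharacter ↥C, (m ((κ : ↥C →* ℂˣ) • ω) : ℤ) ^ 2 =
      ∑ ω : IrrCharacter ↥C, (m ω : ℤ) ^ 2 :=
    fun κ => Equiv.sum_comp (MulAction.toPerm (κ : ↥C →* ℂˣ)) (fun ω => (m ω : ℤ) ^ 2)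
  have h1 : ∀ κ : ↥L, 2 * ∑ ω : IrrCharacter ↥C,
      (m ω : ℤ) * ((m ω : ℤ) - (m ((κ : ↥C →* ℂˣ) • ω) : ℤ)) =
      ∑ ω : IrrCharacter ↥C, ((m ω : ℤ) - (m ((κ : ↥C →* ℂˣ) • ω) : ℤ)) ^ 2 := by
    intro κ
    calc 2 * ∑ ω : IrrCharacter ↥C, (m ω : ℤ) * ((m ω : ℤ) - (m ((κ : ↥C →* ℂˣ) • ω) : ℤ))
        = ∑ ω : IrrCharacter ↥C, (((m ω : ℤ) - (m ((κ : ↥C →* ℂˣ) • ω) : ℤ)) ^ 2 +
            ((m ω : ℤ) ^ 2 - (m ((κ : ↥C →* ℂˣ) • ω) : ℤ) ^ 2)) := by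
          rw [Finset.mul_sum]
          exact Finset.sum_congr rfl (fun ω _ => by ring)
      _ = ∑ ω : IrrCharacter ↥C, ((m ω : ℤ) - (m ((κ : ↥C →* ℂˣ) • ω) : ℤ)) ^ 2 := by
          rw [Finset.sum_add_distrib, Finset.sum_sub_distrib, hperm κ, sub_self, add_zero]
  have hpt : ∀ (κ : ↥L) (ω : IrrCharacter ↥C),
      (m ω : ℤ) ^ 2 * (if m ((κ : ↥C →* ℂˣ) • ω) = 0 then 1 else 0) +
        (m ((κ : ↥C →* ℂˣ) • ω) : ℤ) ^ 2 * (if m ω = 0 then 1 else 0) ≤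
      ((m ω : ℤ) - (m ((κ : ↥C →* ℂˣ) • ω) : ℤ)) ^ 2 := by
    intro κ ω
    by_cases h1 : m ((κ : ↥C →* ℂˣ) • ω) = 0
    · rw [if_pos h1, h1]
      simp
    · by_cases h2 : m ω = 0
      · rw [if_neg h1, if_pos h2, h2]
        simp
      · rw [if_neg h1, if_neg h2]
        simp only [mul_zero, add_zero]
        exact sq_nonneg _
  have h3 : ∑ κ : ↥L, ∑ ω : IrrCharacter ↥C,
      (m ω : ℤ) ^ 2 * (if m ((κ : ↥C →* ℂˣ) • ω) = 0 then 1 else 0) =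
      ∑ ω : IrrCharacter ↥C, (m ω : ℤ) ^ 2 *
        ((Finset.univ.filter (fun κ : ↥L => m ((κ : ↥C →* ℂˣ) • ω) = 0)).card : ℤ) := by
    rw [Finset.sum_comm]
    refine Finset.sum_congr rfl fun ω _ => ?_
    rw [← Finset.mul_sum, Finset.sum_boole]
  have h4 : ∑ κ : ↥L, ∑ ω : IrrCharacter ↥C,
      (m ((κ : ↥C →* ℂˣ) • ω) : ℤ) ^ 2 * (if m ω = 0 then 1 else 0) =
      ∑ ω : IrrCharacter ↥C, (m ω : ℤ) ^ 2 *
        ((Finset.univ.filter (fun κ : ↥L => m ((κ : ↥C →* ℂˣ) • ω) = 0)).card : ℤ) := by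
    have h5 : ∀ κ : ↥L, ∑ ω : IrrCharacter ↥C,
        (m ((κ : ↥C →* ℂˣ) • ω) : ℤ) ^ 2 * (if m ω = 0 then 1 else 0) =
        ∑ ω : IrrCharacter ↥C, (m ω : ℤ) ^ 2 *
          (if m (((κ⁻¹ : ↥L) : ↥C →* ℂˣ) • ω) = 0 then 1 else 0) := by
      intro κ
      rw [← Equiv.sum_comp (MulAction.toPerm (κ : ↥C →* ℂˣ))
        (fun ω => (m ω : ℤ) ^ 2 * (if m (((κ⁻¹ : ↥L) : ↥C →* ℂˣ) • ω) = 0 then 1 else 0))]
      refine Finset.sum_congr rfl fun ω _ => ?_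
      rw [MulAction.toPerm_apply, Subgroup.coe_inv, inv_smul_smul]
    rw [Finset.sum_congr rfl (fun κ _ => h5 κ), Finset.sum_comm]
    refine Finset.sum_congr rfl fun ω _ => ?_
    rw [← Finset.mul_sum]
    congr 1
    rw [← Finset.sum_boole]
    exact Equiv.sum_comp (Equiv.inv ↥L)
      (fun κ : ↥L => if m ((κ : ↥C →* ℂˣ) • ω) = 0 then (1 : ℤ) else 0)
  have h6 : 2 * ∑ ω : IrrCharacter ↥C, (m ω : ℤ) ^ 2 *
        ((Finset.univ.filter (fun κ : ↥L => m ((κ : ↥C →* ℂˣ) • ω) = 0)).card : ℤ) ≤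
      2 * ∑ κ : ↥L, ∑ ω : IrrCharacter ↥C,
        (m ω : ℤ) * ((m ω : ℤ) - (m ((κ : ↥C →* ℂˣ) • ω) : ℤ)) := by
    rw [Finset.mul_sum (a := (2 : ℤ)) (s := (Finset.univ : Finset ↥L)),
      Finset.sum_congr rfl (fun κ _ => h1 κ), two_mul]
    nth_rewrite 1 [← h3]
    rw [← h4, ← Finset.sum_add_distrib]
    refine Finset.sum_le_sum fun κ _ => ?_
    rw [← Finset.sum_add_distrib]
    exact Finset.sum_le_sum fun ω _ => hpt κ ω
  linarith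

theorem bl_star {e : ℕ} (H : BLHyp C L e) (θ : IrrCharacter G) :
    ∑ ω : IrrCharacter ↥C, blm C θ.1 ω ^ 2 * blz C L θ.1 ω ≤ Fintype.card ↥L * e := by
  have hθc := isCharacter_of_isIrrCharacter θ.2
  have hcf := isCharacter_isClassFunction hθc
  have hC : (Nat.card ↥C : ℂ) ≠ 0 := Nat.cast_ne_zero.mpr Nat.card_pos.ne'
  -- (A) inner products of twisted restrictions
  have hA : ∀ κ : ↥C →* ℂˣ,
      classInner (fun c : ↥C => ((κ c : ℂˣ) : ℂ) * θ.1 c) (fun c : ↥C => θ.1 c) =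
        ∑ ω : IrrCharacter ↥C, (blm C θ.1 ω : ℂ) * (blm C θ.1 (κ • ω) : ℂ) := by
    intro κ
    have h := classFunction_eq_sum_irr (fun c : ↥C => θ.1 c)
      (isCharacter_isClassFunction (isCharacter_restrict C hθc))
    have e1 : (fun c : ↥C => ((κ c : ℂˣ) : ℂ) * θ.1 c) =
        ∑ ω : IrrCharacter ↥C, (blm C θ.1 ω : ℂ) • (κ • ω).1 := by
      funext c
      have h1 := congrFun h c
      simp only [Finset.sum_apply, Pi.smul_apply, smul_eq_mul, blm_spec C hθc] at h1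
      rw [Finset.sum_apply]
      simp only [Pi.smul_apply, smul_eq_mul, blTw_apply]
      rw [h1, Finset.mul_sum]
      exact Finset.sum_congr rfl fun ω _ => by ring
    rw [e1, classInner_sum_left]
    refine Finset.sum_congr rfl fun ω _ => ?_
    rw [classInner_smul_left, blm_spec' C hθc]
  have hA1 : classInner (fun c : ↥C => θ.1 c) (fun c : ↥C => θ.1 c) =
      ∑ ω : IrrCharacter ↥C, (blm C θ.1 ω : ℂ) * (blm C θ.1 ω : ℂ) := by
    have h := hA 1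
    have e1 : (fun c : ↥C => (((1 : ↥C →* ℂˣ) c : ℂˣ) : ℂ) * θ.1 c) = fun c : ↥C => θ.1 c := by
      funext c
      simp
    rw [e1] at h
    rw [h]
    exact Finset.sum_congr rfl fun ω _ => by rw [one_smul (↥C →* ℂˣ) ω]
  -- (B) the truncated restriction
  obtain ⟨f, hf⟩ : ∃ f : ↥C → ℂ, f = fun c => if c ∈ blV C L then 0 else θ.1 c := ⟨_, rfl⟩
  have hfV : ∀ c ∈ blV C L, f c = 0 := by
    intro c hc
    rw [hf]
    exact if_pos hc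
  obtain ⟨X, hX⟩ : ∃ X : ℝ, X = (Nat.card ↥C : ℝ)⁻¹ *
      ∑ c : ↥C, (if c ∈ blV C L then 0 else Complex.normSq (θ.1 c)) := ⟨_, rfl⟩
  have hX0 : 0 ≤ X := by
    rw [hX]
    refine mul_nonneg (inv_nonneg.mpr (Nat.cast_nonneg _)) (Finset.sum_nonneg fun c _ => ?_)
    split_ifs
    · exact le_rfl
    · exact Complex.normSq_nonneg _
  have hfθ : classInner f (fun c : ↥C => θ.1 c) = (X : ℂ) := by
    rw [classInner_def', hX, Complex.ofReal_mul, Complex.ofReal_inv, Complex.ofReal_natCast,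
      Complex.ofReal_sum]
    congr 1
    refine Finset.sum_congr rfl fun c _ => ?_
    by_cases hc : c ∈ blV C L
    · simp [hf, hc]
    · simp only [hf, if_neg hc]
      exact Complex.mul_conj _
  have hff : classInner f f = (X : ℂ) := by
    rw [classInner_def', hX, Complex.ofReal_mul, Complex.ofReal_inv, Complex.ofReal_natCast,
      Complex.ofReal_sum]
    congr 1
    refine Finset.sum_congr rfl fun c _ => ?_
    by_cases hc : c ∈ blV C L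
    · simp [hf, hc]
    · simp only [hf, if_neg hc]
      exact Complex.mul_conj _
  have hIθ : classInner (indFun C f) θ.1 = (X : ℂ) := by
    rw [classInner_indFun C f θ.1 hcf, hfθ]
  have hθI : classInner θ.1 (indFun C f) = (X : ℂ) := by
    rw [classInner_conj_symm, hIθ, Complex.conj_ofReal]
  have hII : classInner (indFun C f) (indFun C f) = (e : ℂ) * (X : ℂ) := by
    rw [bl_ti C L H.ti f f hfV]
    have hinv : ∀ x : ↥(blN C), (fun c => f (blAut C x⁻¹ c)) = f := by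
      intro x
      funext c
      have hV : blAut C x⁻¹ c ∈ blV C L ↔ c ∈ blV C L := by
        constructor
        · intro h κ hκ
          have h1 := h _ (H.stab x κ hκ)
          have e2 : blAut C x (blAut C x⁻¹ c) = c := by
            rw [← MulAut.mul_apply, ← map_mul, mul_inv_cancel, map_one]
            rfl
          have h2 : (κ.comp (blAut C x : ↥C ≃* ↥C).toMonoidHom) (blAut C x⁻¹ c) =
              κ (blAut C x (blAut C x⁻¹ c)) := rfl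
          rw [h2, e2] at h1
          exact h1
        · intro h κ hκ
          exact h _ (H.stab x⁻¹ κ hκ)
      have hθx : θ.1 ((blAut C x⁻¹ c : ↥C) : G) = θ.1 c := by
        rw [blAut_apply]
        exact hcf _ _
      rw [hf]
      by_cases hc : c ∈ blV C L
      · simp only [if_pos hc, if_pos (hV.mpr hc)]
      · simp only [if_neg hc, if_neg (fun h => hc (hV.mp h)), hθx]
    rw [Finset.sum_congr rfl (fun x _ => by rw [hinv x, hff]), Finset.sum_const, Finset.card_univ,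
      ← Nat.card_eq_fintype_card, H.card, nsmul_eq_mul]
    push_cast
    field_simp
  -- (E) X ≤ e
  have hXe : X ≤ e := by
    have hFF : classInner (indFun C f - (X : ℂ) • θ.1) (indFun C f - (X : ℂ) • θ.1) =
        (((e : ℝ) * X - X * X : ℝ) : ℂ) := by
      rw [classInner_sub_left, classInner_sub_right, classInner_sub_right, classInner_smul_left,
        classInner_smul_right, classInner_smul_right, classInner_smul_left, hII, hIθ, hθI,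
        irr_inner_self, Complex.conj_ofReal]
      push_cast
      ring
    have h0 := bl_nonneg (indFun C f - (X : ℂ) • θ.1)
    rw [hFF, Complex.ofReal_re] at h0
    by_contra hlt
    push Not at hlt
    have hX1 : 0 < X := lt_of_le_of_lt (Nat.cast_nonneg e) hlt
    nlinarith [mul_pos hX1 (sub_pos.mpr hlt)]
  -- (F) q X as a double sum
  have hqX : (Fintype.card ↥L : ℂ) * (X : ℂ) = ∑ κ : ↥L, ∑ ω : IrrCharacter ↥C,
      (blm C θ.1 ω : ℂ) * ((blm C θ.1 ω : ℂ) - (blm C θ.1 ((κ : ↥C →* ℂˣ) • ω) : ℂ)) := by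
    have e2 : ((Fintype.card ↥L : ℂ) • f) = ∑ κ : ↥L, ((fun c : ↥C => θ.1 c) -
        (fun c : ↥C => (((κ : ↥C →* ℂˣ) c : ℂˣ) : ℂ) * θ.1 c)) := by
      funext c
      rw [Finset.sum_apply]
      simp only [Pi.smul_apply, Pi.sub_apply, smul_eq_mul]
      rw [Finset.sum_sub_distrib, ← Finset.sum_mul, bl_orth C L c, Finset.sum_const,
        Finset.card_univ, nsmul_eq_mul, hf]
      by_cases hc : c ∈ blV C L
      · simp [hc]
      · simp [hc]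
    rw [← hfθ, ← classInner_smul_left, e2, classInner_sum_left]
    refine Finset.sum_congr rfl fun κ _ => ?_
    rw [classInner_sub_left, hA κ.1, hA1, ← Finset.sum_sub_distrib]
    exact Finset.sum_congr rfl fun ω _ => by ring
  have hcomb := bl_comb C L (fun ω => blm C θ.1 ω)
  have hreal : ((Fintype.card ↥L : ℝ)) * X = ((∑ κ : ↥L, ∑ ω : IrrCharacter ↥C,
      (blm C θ.1 ω : ℤ) * ((blm C θ.1 ω : ℤ) - (blm C θ.1 ((κ : ↥C →* ℂˣ) • ω) : ℤ)) : ℤ) : ℝ) := by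
    apply Complex.ofReal_injective
    push_cast
    exact hqX
  have h1 : ((∑ ω : IrrCharacter ↥C, blm C θ.1 ω ^ 2 * blz C L θ.1 ω : ℕ) : ℝ) ≤
      (Fintype.card ↥L : ℝ) * X := by
    rw [hreal]
    have h2 : ((∑ ω : IrrCharacter ↥C, blm C θ.1 ω ^ 2 * blz C L θ.1 ω : ℕ) : ℝ) =
        ((∑ ω : IrrCharacter ↥C, (blm C θ.1 ω : ℤ) ^ 2 *
          ((Finset.univ.filter (fun κ : ↥L => blm C θ.1 ((κ : ↥C →* ℂˣ) • ω) = 0)).card : ℤ) : ℤ) : ℝ) := by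
      unfold blz
      push_cast
      rfl
    rw [h2]
    exact_mod_cast hcomb
  have h2 : (Fintype.card ↥L : ℝ) * X ≤ (Fintype.card ↥L : ℝ) * e :=
    mul_le_mul_of_nonneg_left hXe (Nat.cast_nonneg _)
  have h3 : ((∑ ω : IrrCharacter ↥C, blm C θ.1 ω ^ 2 * blz C L θ.1 ω : ℕ) : ℝ) ≤
      ((Fintype.card ↥L * e : ℕ) : ℝ) := by
    push_cast
    push_cast at h1
    linarith
  exact_mod_cast h3

end BL

end Cfsg.Agent.Helper24
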