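import Cfsg.Agent.Helper24.BL2

/-!
# Brauer–Leonard engine, part 3: slices and the structure of a small character
-/

set_option autoImplicit false

namespace Cfsg.Agent.Helper24

open Cfsg Cfsg.Agent.Helper22
open scoped Classical

universe u

section BL
variable {G : Type u} [Group G] [Fintype G] (C : Subgroup G) (L : Subgroup (↥C →* ℂˣ))
  [Fintype ↥L]

theorem bl_tw_inj {e : ℕ} (H : BLHyp C L e) (ω : IrrCharacter ↥C) :
    Function.Injective (fun κ : ↥L => (κ : ↥C →* ℂˣ) • ω) := by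
  intro κ κ' h
  have h' : (κ : ↥C →* ℂˣ) • ω = (κ' : ↥C →* ℂˣ) • ω := h
  have h1 : ((κ' : ↥C →* ℂˣ)⁻¹ * (κ : ↥C →* ℂˣ)) • ω = ω :=
    (mul_smul _ _ _).trans (by rw [h', inv_smul_smul])
  have h2 := H.tw _ (L.mul_mem (L.inv_mem κ'.2) κ.2) ω h1
  exact Subtype.ext (inv_mul_eq_one.mp h2).symm

theorem bl_supp_slice {e : ℕ} (H : BLHyp C L e) (θ : IrrCharacter G) (ω : IrrCharacter ↥C) :
    (Finset.univ.filter (fun κ : ↥L => blm C θ.1 ((κ : ↥C →* ℂˣ) • ω) ≠ 0)).card ≤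
      charDegree θ.1 := by
  rw [← Finset.card_image_of_injective _ (bl_tw_inj C L H ω)]
  apply bl_card_le_deg
  intro ω' hω'
  obtain ⟨κ, hκ, rfl⟩ := Finset.mem_image.mp hω'
  exact (Finset.mem_filter.mp hκ).2

theorem bl_nonfree_slice {e : ℕ} (H : BLHyp C L e) (ω : IrrCharacter ↥C) :
    (Finset.univ.filter (fun κ : ↥L => ¬ blFree C ((κ : ↥C →* ℂˣ) • ω))).card ≤ 1 := by
  rw [Finset.card_le_one]
  intro a ha b hb
  exact Subtype.ext (H.nf ω a.1 a.2 b.1 b.2 (Finset.mem_filter.mp ha).2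
    (Finset.mem_filter.mp hb).2)

theorem bl_orb_slice_card {e : ℕ} (H : BLHyp C L e) (ω₀ ω : IrrCharacter ↥C)
    (hf0 : blFree C ω₀) :
    (Finset.univ.filter (fun κ : ↥L => (κ : ↥C →* ℂˣ) • ω ∈ blOrb C ω₀)).card ≤ e := by
  rw [← blOrb_card C H.card hf0, ← Finset.card_image_of_injective _ (bl_tw_inj C L H ω)]
  apply Finset.card_le_card
  intro ω' hω'
  obtain ⟨κ, hκ, rfl⟩ := Finset.mem_image.mp hω'
  exact (Finset.mem_filter.mp hκ).2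

theorem bl_Zf_card {e : ℕ} (H : BLHyp C L e) (θ : IrrCharacter G)
    (hD : charDegree θ.1 + e + 2 ≤ Fintype.card ↥L) (ω : IrrCharacter ↥C) :
    e + 1 ≤ (Finset.univ.filter (fun κ : ↥L => blFree C ((κ : ↥C →* ℂˣ) • ω) ∧
      blm C θ.1 ((κ : ↥C →* ℂˣ) • ω) = 0)).card := by
  have h1 := bl_supp_slice C L H θ ω
  have h2 := bl_nonfree_slice C L H ω
  obtain ⟨A, hA⟩ : ∃ A : Finset ↥L, A = Finset.univ.filter (fun κ : ↥L =>
    blFree C ((κ : ↥C →* ℂˣ) • ω) ∧ blm C θ.1 ((κ : ↥C →* ℂˣ) • ω) = 0) := ⟨_, rfl⟩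
  obtain ⟨B, hB⟩ : ∃ B : Finset ↥L, B = Finset.univ.filter (fun κ : ↥L =>
    blm C θ.1 ((κ : ↥C →* ℂˣ) • ω) ≠ 0) := ⟨_, rfl⟩
  obtain ⟨E, hE⟩ : ∃ E : Finset ↥L, E = Finset.univ.filter (fun κ : ↥L =>
    ¬ blFree C ((κ : ↥C →* ℂˣ) • ω)) := ⟨_, rfl⟩
  rw [← hA]
  rw [← hB] at h1
  rw [← hE] at h2
  have hsub : (Finset.univ : Finset ↥L) ⊆ A ∪ (B ∪ E) := by
    intro κ _
    rw [hA, hB, hE]
    simp only [Finset.mem_union, Finset.mem_filter, Finset.mem_univ, true_and]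
    by_cases h1 : blm C θ.1 ((κ : ↥C →* ℂˣ) • ω) = 0
    · by_cases h2 : blFree C ((κ : ↥C →* ℂˣ) • ω)
      · exact Or.inl ⟨h2, h1⟩
      · exact Or.inr (Or.inr h2)
    · exact Or.inr (Or.inl h1)
  have h3 := Finset.card_le_card hsub
  have h4 := Finset.card_union_le A (B ∪ E)
  have h5 := Finset.card_union_le B E
  rw [Finset.card_univ] at h3
  omega

theorem bl_G_a {e : ℕ} (H : BLHyp C L e) (θ : IrrCharacter G)
    (hD : charDegree θ.1 + e + 2 ≤ Fintype.card ↥L) (ω : IrrCharacter ↥C) (hf : blFree C ω)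
    (hm : blm C θ.1 ω ≠ 0) : blm C θ.1 ω = 1 := by
  have hcard := bl_Zf_card C L H θ hD ω
  obtain ⟨κ₃, hκ₃⟩ : (Finset.univ.filter (fun κ : ↥L => blFree C ((κ : ↥C →* ℂˣ) • ω) ∧
      blm C θ.1 ((κ : ↥C →* ℂˣ) • ω) = 0)).Nonempty := Finset.card_pos.mp (by omega)
  have h3 := (Finset.mem_filter.mp hκ₃).2
  exact bl_E1 C L H.ti θ ω ((κ₃ : ↥C →* ℂˣ) • ω) (bl_van C L κ₃.2 ω) hf h3.1 h3.2 hm

theorem bl_G_b {e : ℕ} (H : BLHyp C L e) (θ : IrrCharacter G)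
    (hD : charDegree θ.1 + e + 2 ≤ Fintype.card ↥L) (ω : IrrCharacter ↥C) (hf : blFree C ω)
    (hm : blm C θ.1 ω ≠ 0) (κ : ↥L) (hfκ : blFree C ((κ : ↥C →* ℂˣ) • ω))
    (hmκ : blm C θ.1 ((κ : ↥C →* ℂˣ) • ω) ≠ 0) : (κ : ↥C →* ℂˣ) • ω ∈ blOrb C ω := by
  by_contra hno
  have h12 : ∀ x : ↥(blN C), x • ω ≠ (κ : ↥C →* ℂˣ) • ω :=
    fun x hx => hno ((mem_blOrb C).mpr ⟨x, hx⟩)
  have hcard := bl_Zf_card C L H θ hD ω
  obtain ⟨Zf, hZf⟩ : ∃ Zf : Finset ↥L, Zf = Finset.univ.filter (fun κ : ↥L =>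
    blFree C ((κ : ↥C →* ℂˣ) • ω) ∧ blm C θ.1 ((κ : ↥C →* ℂˣ) • ω) = 0) := ⟨_, rfl⟩
  rw [← hZf] at hcard
  obtain ⟨κ₃, hκ₃⟩ : Zf.Nonempty := Finset.card_pos.mp (by omega)
  have hκ₃' := hκ₃
  rw [hZf] at hκ₃'
  have h3 := (Finset.mem_filter.mp hκ₃').2
  have hex : ∃ κ₄ ∈ Zf, (κ₄ : ↥C →* ℂˣ) • ω ∉ blOrb C ((κ₃ : ↥C →* ℂˣ) • ω) := by
    by_contra hall
    push Not at hall
    have hsub : Zf ⊆ Finset.univ.filter (fun κ₄ : ↥L =>
        (κ₄ : ↥C →* ℂˣ) • ω ∈ blOrb C ((κ₃ : ↥C →* ℂˣ) • ω)) :=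
      fun κ₄ hκ₄ => Finset.mem_filter.mpr ⟨Finset.mem_univ _, hall κ₄ hκ₄⟩
    have h5 := Finset.card_le_card hsub
    have h6 := bl_orb_slice_card C L H ((κ₃ : ↥C →* ℂˣ) • ω) ω h3.1
    omega
  obtain ⟨κ₄, hκ₄, hnot⟩ := hex
  rw [hZf] at hκ₄
  have h4 := (Finset.mem_filter.mp hκ₄).2
  exact bl_E2 C L H.ti θ ω ((κ : ↥C →* ℂˣ) • ω) ((κ₃ : ↥C →* ℂˣ) • ω)
    ((κ₄ : ↥C →* ℂˣ) • ω) (bl_van C L κ₃.2 ω)
    (fun c hc => by rw [← bl_van C L κ.2 ω c hc, ← bl_van C L κ₄.2 ω c hc])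
    hf hfκ h3.1 h4.1 hm hmκ h3.2 h4.2 h12 (fun x hx => hnot ((mem_blOrb C).mpr ⟨x, hx⟩))

theorem bl_G_c {e : ℕ} (H : BLHyp C L e) (θ : IrrCharacter G)
    (hD : charDegree θ.1 + e + 2 ≤ Fintype.card ↥L) (ω : IrrCharacter ↥C) (hf : blFree C ω)
    (hm : blm C θ.1 ω ≠ 0) : Fintype.card ↥L ≤ blz C L θ.1 ω + e + 1 := by
  have h1 := bl_orb_slice_card C L H ω ω hf
  have h2 := bl_nonfree_slice C L H ω
  obtain ⟨B, hB⟩ : ∃ B : Finset ↥L, B = Finset.univ.filter (fun κ : ↥L =>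
    (κ : ↥C →* ℂˣ) • ω ∈ blOrb C ω) := ⟨_, rfl⟩
  obtain ⟨E, hE⟩ : ∃ E : Finset ↥L, E = Finset.univ.filter (fun κ : ↥L =>
    ¬ blFree C ((κ : ↥C →* ℂˣ) • ω)) := ⟨_, rfl⟩
  rw [← hB] at h1
  rw [← hE] at h2
  have hsub : (Finset.univ : Finset ↥L) ⊆ (Finset.univ.filter (fun κ : ↥L =>
      blm C θ.1 ((κ : ↥C →* ℂˣ) • ω) = 0)) ∪ (B ∪ E) := by
    intro κ _
    rw [hB, hE]
    simp only [Finset.mem_union, Finset.mem_filter, Finset.mem_univ, true_and]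
    by_cases h1 : blm C θ.1 ((κ : ↥C →* ℂˣ) • ω) = 0
    · exact Or.inl h1
    · by_cases h2 : blFree C ((κ : ↥C →* ℂˣ) • ω)
      · exact Or.inr (Or.inl (bl_G_b C L H θ hD ω hf hm κ h2 h1))
      · exact Or.inr (Or.inr h2)
  have h3 := Finset.card_le_card hsub
  have h4 := Finset.card_union_le (Finset.univ.filter (fun κ : ↥L =>
      blm C θ.1 ((κ : ↥C →* ℂˣ) • ω) = 0)) (B ∪ E)
  have h5 := Finset.card_union_le B E
  rw [Finset.card_univ] at h3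
  unfold blz
  omega

theorem bl_G_c' {e : ℕ} (H : BLHyp C L e) (θ : IrrCharacter G)
    (hD : charDegree θ.1 + e + 2 ≤ Fintype.card ↥L) (ω : IrrCharacter ↥C) (hf : blFree C ω)
    (hm : blm C θ.1 ω ≠ 0)
    (hall : ∀ κ : ↥L, blm C θ.1 ((κ : ↥C →* ℂˣ) • ω) ≠ 0 → blFree C ((κ : ↥C →* ℂˣ) • ω)) :
    Fintype.card ↥L ≤ blz C L θ.1 ω + e := by
  have h1 := bl_orb_slice_card C L H ω ω hf
  obtain ⟨B, hB⟩ : ∃ B : Finset ↥L, B = Finset.univ.filter (fun κ : ↥L =>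
    (κ : ↥C →* ℂˣ) • ω ∈ blOrb C ω) := ⟨_, rfl⟩
  rw [← hB] at h1
  have hsub : (Finset.univ : Finset ↥L) ⊆ (Finset.univ.filter (fun κ : ↥L =>
      blm C θ.1 ((κ : ↥C →* ℂˣ) • ω) = 0)) ∪ B := by
    intro κ _
    rw [hB]
    simp only [Finset.mem_union, Finset.mem_filter, Finset.mem_univ, true_and]
    by_cases h1 : blm C θ.1 ((κ : ↥C →* ℂˣ) • ω) = 0
    · exact Or.inl h1
    · exact Or.inr (bl_G_b C L H θ hD ω hf hm κ (hall κ h1) h1)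
  have h3 := Finset.card_le_card hsub
  have h4 := Finset.card_union_le (Finset.univ.filter (fun κ : ↥L =>
      blm C θ.1 ((κ : ↥C →* ℂˣ) • ω) = 0)) B
  rw [Finset.card_univ] at h3
  unfold blz
  omega

theorem bl_z_ge {e : ℕ} (H : BLHyp C L e) (θ : IrrCharacter G) (ω : IrrCharacter ↥C) :
    Fintype.card ↥L ≤ blz C L θ.1 ω + charDegree θ.1 := by
  have h1 := bl_supp_slice C L H θ ω
  obtain ⟨B, hB⟩ : ∃ B : Finset ↥L, B = Finset.univ.filter (fun κ : ↥L =>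
    blm C θ.1 ((κ : ↥C →* ℂˣ) • ω) ≠ 0) := ⟨_, rfl⟩
  rw [← hB] at h1
  have hsub : (Finset.univ : Finset ↥L) ⊆ (Finset.univ.filter (fun κ : ↥L =>
      blm C θ.1 ((κ : ↥C →* ℂˣ) • ω) = 0)) ∪ B := by
    intro κ _
    rw [hB]
    simp only [Finset.mem_union, Finset.mem_filter, Finset.mem_univ, true_and]
    exact em _
  have h3 := Finset.card_le_card hsub
  have h4 := Finset.card_union_le (Finset.univ.filter (fun κ : ↥L =>
      blm C θ.1 ((κ : ↥C →* ℂˣ) • ω) = 0)) B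
  rw [Finset.card_univ] at h3
  unfold blz
  omega

/-- Sum of the `z`-values over an orbit, given a uniform lower bound. -/
theorem bl_orb_z_sum {e : ℕ} (H : BLHyp C L e) (θ : IrrCharacter G) (ω₁ : IrrCharacter ↥C)
    (hf1 : blFree C ω₁) (k : ℕ)
    (hz : ∀ ω ∈ blOrb C ω₁, Fintype.card ↥L ≤ blz C L θ.1 ω + k) :
    e * Fintype.card ↥L ≤ (∑ ω ∈ blOrb C ω₁, blz C L θ.1 ω) + e * k := by
  have h1 := Finset.sum_le_sum hz
  rw [Finset.sum_const, Finset.sum_add_distrib, Finset.sum_const, blOrb_card C H.card hf1,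
    smul_eq_mul, smul_eq_mul] at h1
  exact h1

theorem bl_orb_props {θ : G → ℂ} (hθ : IsClassFunction G θ) (ω₁ : IrrCharacter ↥C)
    (hf1 : blFree C ω₁) (ω : IrrCharacter ↥C) (hω : ω ∈ blOrb C ω₁) :
    blFree C ω ∧ blm C θ ω = blm C θ ω₁ := by
  obtain ⟨x, rfl⟩ := (mem_blOrb C).mp hω
  exact ⟨blFree_smul C hf1 x, blm_smul C hθ x ω₁⟩

theorem bl_partI {e : ℕ} (H : BLHyp C L e) (he2 : 2 ≤ e) (ψ : IrrCharacter G)
    (hd : charDegree ψ.1 ^ 2 + 1 < Fintype.card ↥L) (ω₁ : IrrCharacter ↥C)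
    (hf1 : blFree C ω₁) (hm1 : blm C ψ.1 ω₁ ≠ 0) :
    ∀ ω : IrrCharacter ↥C, blm C ψ.1 ω = if ω ∈ blOrb C ω₁ then 1 else 0 := by
  have hψc := isCharacter_of_isIrrCharacter ψ.2
  have hcf := isCharacter_isClassFunction hψc
  have hcard : (blOrb C ω₁).card = e := blOrb_card C H.card hf1
  have horb := bl_orb_props C hcf ω₁ hf1
  have hde : e ≤ charDegree ψ.1 := by
    have h := bl_card_le_deg C ψ (blOrb C ω₁) (fun ω hω => by rw [(horb ω hω).2]; exact hm1)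
    rwa [hcard] at h
  have hD : charDegree ψ.1 + e + 2 ≤ Fintype.card ↥L := by
    have h2 : 2 * charDegree ψ.1 ≤ charDegree ψ.1 ^ 2 := by nlinarith
    omega
  have hm11 : blm C ψ.1 ω₁ = 1 := bl_G_a C L H ψ hD ω₁ hf1 hm1
  have hz : ∀ ω ∈ blOrb C ω₁, Fintype.card ↥L ≤ blz C L ψ.1 ω + (e + 1) := by
    intro ω hω
    have h := bl_G_c C L H ψ hD ω (horb ω hω).1 (by rw [(horb ω hω).2]; exact hm1)
    omega
  have hSz := bl_orb_z_sum C L H ψ ω₁ hf1 (e + 1) hz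
  intro ω
  by_cases hω : ω ∈ blOrb C ω₁
  · rw [if_pos hω, (horb ω hω).2, hm11]
  · rw [if_neg hω]
    by_contra hne
    have hd1 : e + 1 ≤ charDegree ψ.1 := by
      have h := bl_card_le_deg C ψ (insert ω (blOrb C ω₁)) (fun ω' hω' => by
        rcases Finset.mem_insert.mp hω' with h | h
        · rw [h]; exact hne
        · rw [(horb ω' h).2]; exact hm1)
      rwa [Finset.card_insert_of_notMem hω, hcard] at h
    have hz' := bl_z_ge C L H ψ ω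
    have hstar := bl_star C L H ψ
    have h1 : ∑ ω' ∈ insert ω (blOrb C ω₁), blm C ψ.1 ω' ^ 2 * blz C L ψ.1 ω' ≤
        ∑ ω' : IrrCharacter ↥C, blm C ψ.1 ω' ^ 2 * blz C L ψ.1 ω' :=
      Finset.sum_le_sum_of_subset (Finset.subset_univ _)
    rw [Finset.sum_insert hω] at h1
    have h2 : ∑ ω' ∈ blOrb C ω₁, blm C ψ.1 ω' ^ 2 * blz C L ψ.1 ω' =
        ∑ ω' ∈ blOrb C ω₁, blz C L ψ.1 ω' :=
      Finset.sum_congr rfl (fun ω' hω' => by rw [(horb ω' hω').2, hm11, one_pow, one_mul])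
    rw [h2] at h1
    have h3 : blz C L ψ.1 ω ≤ blm C ψ.1 ω ^ 2 * blz C L ψ.1 ω :=
      Nat.le_mul_of_pos_left _ (Nat.pos_of_ne_zero (pow_ne_zero 2 hne))
    have h4 := Nat.mul_le_mul_left (charDegree ψ.1) hd1
    have h5 := Nat.mul_le_mul_right e hd1
    nlinarith

end BL

end Cfsg.Agent.Helper24
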