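import Cfsg.Agent.Helper24.BL3

/-!
# Brauer–Leonard engine, part 4: the trivial character is not a constituent
-/

set_option autoImplicit false

namespace Cfsg.Agent.Helper24

open Cfsg Cfsg.Agent.Helper22
open scoped Classical

universe u

section BL
variable {G : Type u} [Group G] [Fintype G] (C : Subgroup G) (L : Subgroup (↥C →* ℂˣ))
  [Fintype ↥L]

theorem blTw_mul_smul (κ κ' : ↥C →* ℂˣ) (ω : IrrCharacter ↥C) :
    (κ * κ') • ω = κ • (κ' • ω) := by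
  apply Subtype.ext
  funext c
  show (((κ * κ') c : ℂˣ) : ℂ) * ω.1 c = ((κ c : ℂˣ) : ℂ) * (((κ' c : ℂˣ) : ℂ) * ω.1 c)
  rw [MonoidHom.mul_apply, Units.val_mul, mul_assoc]

theorem blTw_inv_smul_smul (κ : ↥C →* ℂˣ) (ω : IrrCharacter ↥C) :
    κ⁻¹ • (κ • ω) = ω := by
  apply Subtype.ext
  funext c
  show (((κ⁻¹) c : ℂˣ) : ℂ) * (((κ c : ℂˣ) : ℂ) * ω.1 c) = ω.1 c
  rw [MonoidHom.inv_apply, ← mul_assoc, ← Units.val_mul, inv_mul_cancel, Units.val_one, one_mul]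

theorem bl_partI_sq {e : ℕ} (H : BLHyp C L e) (ψ : IrrCharacter G) (ω₁ : IrrCharacter ↥C)
    (hf1 : blFree C ω₁)
    (hI : ∀ ω : IrrCharacter ↥C, blm C ψ.1 ω = if ω ∈ blOrb C ω₁ then 1 else 0) :
    ∑ ω : IrrCharacter ↥C, blm C ψ.1 ω * blm C ψ.1 ω = e := by
  have hcard : (blOrb C ω₁).card = e := blOrb_card C H.card hf1
  have h1 : ∀ ω : IrrCharacter ↥C, blm C ψ.1 ω * blm C ψ.1 ω =
      if ω ∈ blOrb C ω₁ then 1 else 0 := by
    intro ω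
    rw [hI ω]
    split_ifs <;> simp
  rw [Finset.sum_congr rfl (fun ω _ => h1 ω), Finset.sum_ite_mem, Finset.univ_inter,
    Finset.sum_const, smul_eq_mul, mul_one, hcard]

theorem bl_partI_deg {e : ℕ} (H : BLHyp C L e) (ψ : IrrCharacter G) (ω₁ : IrrCharacter ↥C)
    (hf1 : blFree C ω₁)
    (hI : ∀ ω : IrrCharacter ↥C, blm C ψ.1 ω = if ω ∈ blOrb C ω₁ then 1 else 0) :
    charDegree ψ.1 = e * charDegree ω₁.1 := by
  have hcard : (blOrb C ω₁).card = e := blOrb_card C H.card hf1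
  have h1 : ∀ ω : IrrCharacter ↥C, blm C ψ.1 ω * charDegree ω.1 =
      if ω ∈ blOrb C ω₁ then charDegree ω₁.1 else 0 := by
    intro ω
    rw [hI ω]
    by_cases hω : ω ∈ blOrb C ω₁
    · rw [if_pos hω, if_pos hω, one_mul]
      obtain ⟨x, rfl⟩ := (mem_blOrb C).mp hω
      unfold charDegree
      show ⌊(ω₁.1 (blAut C x⁻¹ 1)).re⌋₊ = _
      rw [map_one]
    · rw [if_neg hω, if_neg hω, zero_mul]
  rw [bl_deg_sum_nat C ψ, Finset.sum_congr rfl (fun ω _ => h1 ω), Finset.sum_ite_mem,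
    Finset.univ_inter, Finset.sum_const, smul_eq_mul, hcard]

theorem blj_sum_stable {e : ℕ} (he : Nat.card ↥(blN C) = e * Nat.card ↥C)
    (T : Finset (IrrCharacter ↥C)) (hst : ∀ x : ↥(blN C), ∀ ω ∈ T, x • ω ∈ T)
    (ω : IrrCharacter ↥C) (hω : ω ∈ T) : ∑ ω' ∈ T, blj C ω ω' = e := by
  unfold blj
  have hC : (Nat.card ↥C : ℂ) ≠ 0 := Nat.cast_ne_zero.mpr Nat.card_pos.ne'
  rw [← Finset.mul_sum, Finset.sum_comm]
  have h1 : ∀ x : ↥(blN C), ∑ ω' ∈ T, classInner ω.1 (x • ω').1 = 1 := by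
    intro x
    have h2 : ∀ ω' ∈ T, classInner ω.1 (x • ω').1 = if ω' = x⁻¹ • ω then 1 else 0 := by
      intro ω' _
      rw [irr_orthonormal]
      by_cases h : ω = x • ω'
      · rw [if_pos h, if_pos (by rw [h, inv_smul_smul])]
      · rw [if_neg h, if_neg (fun h' => h (by rw [h', smul_inv_smul]))]
    rw [Finset.sum_congr rfl h2, Finset.sum_ite_eq', if_pos (hst x⁻¹ ω hω)]
  rw [Finset.sum_congr rfl (fun x _ => h1 x), Finset.sum_const, Finset.card_univ,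
    ← Nat.card_eq_fintype_card, he, nsmul_eq_mul, mul_one]
  push_cast
  field_simp

theorem blOrb_eq_of_mem {ω ω₀ : IrrCharacter ↥C} (h : ω ∈ blOrb C ω₀) :
    blOrb C ω = blOrb C ω₀ := by
  obtain ⟨x, rfl⟩ := (mem_blOrb C).mp h
  ext ω'
  rw [mem_blOrb, mem_blOrb]
  constructor
  · rintro ⟨y, hy⟩
    exact ⟨y * x, by rw [mul_smul]; exact hy⟩
  · rintro ⟨y, hy⟩
    exact ⟨y * x⁻¹, by rw [mul_smul, inv_smul_smul]; exact hy⟩

theorem bl_dvd_card {e : ℕ} (he : Nat.card ↥(blN C) = e * Nat.card ↥C)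
    (T : Finset (IrrCharacter ↥C)) (hst : ∀ x : ↥(blN C), ∀ ω ∈ T, x • ω ∈ T)
    (hfree : ∀ ω ∈ T, blFree C ω) : e ∣ T.card := by
  rw [Finset.card_eq_sum_card_image (fun ω => blOrb C ω) T]
  apply Finset.dvd_sum
  intro o ho
  obtain ⟨ω₀, hω₀, rfl⟩ := Finset.mem_image.mp ho
  have h1 : T.filter (fun a => blOrb C a = blOrb C ω₀) = blOrb C ω₀ := by
    ext ω
    rw [Finset.mem_filter]
    constructor
    · rintro ⟨_, h⟩
      rw [← h]
      exact blOrb_self C ω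
    · intro h
      refine ⟨?_, blOrb_eq_of_mem C h⟩
      obtain ⟨x, rfl⟩ := (mem_blOrb C).mp h
      exact hst x ω₀ hω₀
  rw [h1, blOrb_card C he (hfree ω₀ hω₀)]

/-- The nontrivial members of the slice of the trivial character. -/
noncomputable def blSl : Finset (IrrCharacter ↥C) :=
  (Finset.univ.image (fun κ : ↥L => (κ : ↥C →* ℂˣ) • blOne C)).erase (blOne C)

theorem mem_blSl {e : ℕ} (H : BLHyp C L e) {ω : IrrCharacter ↥C} :
    ω ∈ blSl C L ↔ ∃ κ : ↥L, κ ≠ 1 ∧ (κ : ↥C →* ℂˣ) • blOne C = ω := by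
  unfold blSl
  rw [Finset.mem_erase, Finset.mem_image]
  constructor
  · rintro ⟨hne, κ, _, rfl⟩
    refine ⟨κ, ?_, rfl⟩
    rintro rfl
    apply hne
    exact one_smul _ _
  · rintro ⟨κ, hκ, rfl⟩
    refine ⟨?_, κ, Finset.mem_univ _, rfl⟩
    intro h
    exact hκ (Subtype.ext (H.tw κ.1 κ.2 _ h))

theorem blSl_card {e : ℕ} (H : BLHyp C L e) : (blSl C L).card = Fintype.card ↥L - 1 := by
  unfold blSl
  rw [Finset.card_erase_of_mem, Finset.card_image_of_injective _ (bl_tw_inj C L H (blOne C)),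
    Finset.card_univ]
  exact Finset.mem_image.mpr ⟨1, Finset.mem_univ _, one_smul _ _⟩

theorem blSl_free {e : ℕ} (H : BLHyp C L e) : ∀ ω ∈ blSl C L, blFree C ω := by
  intro ω hω
  obtain ⟨κ, hκ, rfl⟩ := (mem_blSl C L H).mp hω
  exact H.lin κ.1 κ.2 (fun h => hκ (Subtype.ext h))

theorem blSl_stable {e : ℕ} (H : BLHyp C L e) :
    ∀ x : ↥(blN C), ∀ ω ∈ blSl C L, x • ω ∈ blSl C L := by
  intro x ω hω
  obtain ⟨κ, hκ, rfl⟩ := (mem_blSl C L H).mp hω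
  have h1 : x • ((κ : ↥C →* ℂˣ) • blOne C) =
      ((κ : ↥C →* ℂˣ).comp (blAut C x⁻¹ : ↥C ≃* ↥C).toMonoidHom) • blOne C := by
    rw [bl_smul_comm, blOne_smul]
  refine (mem_blSl C L H).mpr
    ⟨⟨(κ : ↥C →* ℂˣ).comp (blAut C x⁻¹ : ↥C ≃* ↥C).toMonoidHom, H.stab x⁻¹ κ.1 κ.2⟩, ?_, h1.symm⟩
  intro h2
  have h3 : ((κ : ↥C →* ℂˣ).comp (blAut C x⁻¹ : ↥C ≃* ↥C).toMonoidHom) = 1 :=
    congrArg Subtype.val h2
  rw [h3] at h1
  have h4 : x • ((κ : ↥C →* ℂˣ) • blOne C) = blOne C :=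
    h1.trans (one_smul (↥C →* ℂˣ) (blOne C))
  have h5 : (κ : ↥C →* ℂˣ) • blOne C = blOne C := by
    rw [← inv_smul_smul x ((κ : ↥C →* ℂˣ) • blOne C), h4, blOne_smul]
  exact hκ (Subtype.ext (H.tw κ.1 κ.2 _ h5))

theorem blz_tw (θ : G → ℂ) (κ₀ : ↥L) (ω : IrrCharacter ↥C) :
    blz C L θ ((κ₀ : ↥C →* ℂˣ) • ω) = blz C L θ ω := by
  unfold blz
  rw [Finset.card_filter, Finset.card_filter]
  rw [← Equiv.sum_comp (Equiv.mulRight κ₀)
    (fun κ : ↥L => if blm C θ ((κ : ↥C →* ℂˣ) • ω) = 0 then 1 else 0)]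
  refine Finset.sum_congr rfl fun κ _ => ?_
  have h1 : ((Equiv.mulRight κ₀ κ : ↥L) : ↥C →* ℂˣ) • ω =
      (κ : ↥C →* ℂˣ) • ((κ₀ : ↥C →* ℂˣ) • ω) := mul_smul _ _ _
  show (if blm C θ ((κ : ↥C →* ℂˣ) • ((κ₀ : ↥C →* ℂˣ) • ω)) = 0 then 1 else 0) =
    if blm C θ (((Equiv.mulRight κ₀ κ : ↥L) : ↥C →* ℂˣ) • ω) = 0 then 1 else 0
  rw [h1]

theorem bl_tw_conj {e : ℕ} (H : BLHyp C L e) (x : ↥(blN C)) (κ : ↥L) (ω : IrrCharacter ↥C) :
    ∃ κ'' : ↥L, (κ : ↥C →* ℂˣ) • (x • ω) = x • ((κ'' : ↥C →* ℂˣ) • ω) := by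
  refine ⟨⟨κ.1.comp (blAut C x : ↥C ≃* ↥C).toMonoidHom, H.stab x κ.1 κ.2⟩, ?_⟩
  rw [bl_smul_comm]
  congr 1
  apply MonoidHom.ext
  intro c
  show κ.1 c = κ.1 (blAut C x (blAut C x⁻¹ c))
  rw [← MulAut.mul_apply, ← map_mul, mul_inv_cancel, map_one]
  rfl

theorem bl_res_inner_self {θ : G → ℂ} (hθ : IsCharacter G θ) :
    classInner (fun c : ↥C => θ c) (fun c : ↥C => θ c) =
      ∑ ω : IrrCharacter ↥C, (blm C θ ω : ℂ) * (blm C θ ω : ℂ) := by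
  have h := classFunction_eq_sum_irr (fun c : ↥C => θ c)
    (isCharacter_isClassFunction (isCharacter_restrict C hθ))
  have h1 : classInner (fun c : ↥C => θ c) (fun c : ↥C => θ c) =
      classInner (∑ ω : IrrCharacter ↥C, classInner (fun c : ↥C => θ c) ω.1 • ω.1)
        (fun c : ↥C => θ c) := by
    rw [← h]
  rw [h1, classInner_sum_left]
  refine Finset.sum_congr rfl fun ω _ => ?_
  rw [classInner_smul_left, blm_spec C hθ, blm_spec' C hθ]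

theorem bl_not_free_one {e : ℕ} (H : BLHyp C L e) (he2 : 2 ≤ e) : ¬ blFree C (blOne C) := by
  intro h
  have hle : blN C ≤ C := fun x hx => h ⟨x, hx⟩ (blOne_smul C _)
  have h1 := Subgroup.card_le_of_le hle
  have h2 := H.card
  have h3 : 0 < Nat.card ↥C := Nat.card_pos
  nlinarith

theorem bl_caseA {e : ℕ} (H : BLHyp C L e) (he2 : 2 ≤ e)
    (hq : e * (e + 1) + 1 ≤ Fintype.card ↥L)
    (θ : IrrCharacter G) (hθ1 : θ.1 ≠ fun _ => 1)
    (hD : charDegree θ.1 + e + 2 ≤ Fintype.card ↥L)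
    (hb : blm C θ.1 (blOne C) ≠ 0) (κ₁ : ↥L) (hκ₁ : κ₁ ≠ 1)
    (hmκ₁ : blm C θ.1 ((κ₁ : ↥C →* ℂˣ) • blOne C) ≠ 0) : False := by
  have hθc := isCharacter_of_isIrrCharacter θ.2
  have hcf := isCharacter_isClassFunction hθc
  have hb1 : 1 ≤ blm C θ.1 (blOne C) := Nat.pos_of_ne_zero hb
  obtain ⟨ωA, hωA⟩ : ∃ ωA, ωA = (κ₁ : ↥C →* ℂˣ) • blOne C := ⟨_, rfl⟩
  have hASl : ωA ∈ blSl C L := (mem_blSl C L H).mpr ⟨κ₁, hκ₁, hωA.symm⟩
  have hfA : blFree C ωA := blSl_free C L H ωA hASl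
  have hmA : blm C θ.1 ωA ≠ 0 := by rw [hωA]; exact hmκ₁
  have hmA1 : blm C θ.1 ωA = 1 := bl_G_a C L H θ hD ωA hfA hmA
  have hGb : ∀ ω ∈ blSl C L, blm C θ.1 ω ≠ 0 → ω ∈ blOrb C ωA := by
    intro ω hω hmω
    obtain ⟨κ', hκ', rfl⟩ := (mem_blSl C L H).mp hω
    have e1' : ((κ' : ↥C →* ℂˣ) * (κ₁ : ↥C →* ℂˣ)⁻¹) • ((κ₁ : ↥C →* ℂˣ) • blOne C) =
        (κ' : ↥C →* ℂˣ) • blOne C := by
      have h1 := blTw_mul_smul C (κ' : ↥C →* ℂˣ) ((κ₁ : ↥C →* ℂˣ)⁻¹) ((κ₁ : ↥C →* ℂˣ) • blOne C)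
      rw [blTw_inv_smul_smul] at h1
      exact h1
    have e1 : ((κ' * κ₁⁻¹ : ↥L) : ↥C →* ℂˣ) • ωA = (κ' : ↥C →* ℂˣ) • blOne C := by
      rw [hωA]
      exact e1'
    have h := bl_G_b C L H θ hD ωA hfA hmA (κ' * κ₁⁻¹)
      (by rw [e1]; exact blSl_free C L H _ hω) (by rw [e1]; exact hmω)
    rwa [e1] at h
  have hone_conj : ∀ (x : ↥(blN C)) (ω : IrrCharacter ↥C), x • ω = blOne C → ω = blOne C := by
    intro x ω h
    rw [← inv_smul_smul x ω, h, blOne_smul]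
  have hSl_ne_one : ∀ ω ∈ blSl C L, ω ≠ blOne C := by
    intro ω hω
    unfold blSl at hω
    exact (Finset.mem_erase.mp hω).1
  have hexK : ∃ ωK ∈ blSl C L, ωK ∉ blOrb C ωA := by
    by_contra hall
    push Not at hall
    have h1 := Finset.card_le_card (show blSl C L ⊆ blOrb C ωA from hall)
    rw [blSl_card C L H, blOrb_card C H.card hfA] at h1
    have h2 := Nat.mul_le_mul_right (e + 1) he2
    omega
  obtain ⟨ωK, hKSl, hKA⟩ := hexK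
  have hfK := blSl_free C L H ωK hKSl
  have hmK : blm C θ.1 ωK = 0 := by
    by_contra h
    exact hKA (hGb ωK hKSl h)
  obtain ⟨T, hT⟩ : ∃ T : Finset (IrrCharacter ↥C),
      T = (blSl C L \ blOrb C ωA) \ blOrb C ωK := ⟨_, rfl⟩
  have hTmem : ∀ ω ∈ T, ω ∈ blSl C L ∧ ω ∉ blOrb C ωA ∧ ω ∉ blOrb C ωK := by
    intro ω hω
    rw [hT, Finset.mem_sdiff, Finset.mem_sdiff] at hω
    exact ⟨hω.1.1, hω.1.2, hω.2⟩
  have hTcard : Fintype.card ↥L ≤ T.card + 1 + 2 * e := by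
    have h1 := Finset.le_card_sdiff (blOrb C ωA) (blSl C L)
    have h2 := Finset.le_card_sdiff (blOrb C ωK) (blSl C L \ blOrb C ωA)
    rw [blOrb_card C H.card hfA, blSl_card C L H] at h1
    rw [blOrb_card C H.card hfK] at h2
    rw [hT]
    omega
  have hTst : ∀ x : ↥(blN C), ∀ ω ∈ T, x • ω ∈ T := by
    intro x ω hω
    obtain ⟨h1, h2, h3⟩ := hTmem ω hω
    rw [hT, Finset.mem_sdiff, Finset.mem_sdiff]
    refine ⟨⟨blSl_stable C L H x ω h1, ?_⟩, ?_⟩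
    · intro h
      apply h2
      obtain ⟨y, hy⟩ := (mem_blOrb C).mp h
      exact (mem_blOrb C).mpr ⟨x⁻¹ * y, by rw [mul_smul, hy, inv_smul_smul]⟩
    · intro h
      apply h3
      obtain ⟨y, hy⟩ := (mem_blOrb C).mp h
      exact (mem_blOrb C).mpr ⟨x⁻¹ * y, by rw [mul_smul, hy, inv_smul_smul]⟩
  obtain ⟨oneG, hoG⟩ : ∃ o : IrrCharacter G, o = ⟨fun _ => 1, isIrrCharacter_one⟩ := ⟨_, rfl⟩
  have hoG1 : oneG.1 = fun _ => 1 := by rw [hoG]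
  have hoGne : oneG ≠ θ := fun h => hθ1 (by rw [← h]; exact hoG1)
  have j_one_Sl : ∀ ω ∈ blSl C L, blj C (blOne C) ω = 0 := fun ω hω =>
    blj_of_not_conj C (fun x hx => hSl_ne_one ω hω (hone_conj x ω hx))
  have j_Sl_one : ∀ ω ∈ blSl C L, blj C ω (blOne C) = 0 := fun ω hω =>
    blj_of_not_conj C (fun x hx => hSl_ne_one ω hω (by rw [← hx, blOne_smul]))
  have j_not : ∀ ω ω' : IrrCharacter ↥C, ω ∉ blOrb C ω' → blj C ω ω' = 0 := fun ω ω' h =>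
    blj_of_not_conj C (fun x hx => h ((mem_blOrb C).mpr ⟨x, hx⟩))
  have j_not' : ∀ ω ω' : IrrCharacter ↥C, ω' ∉ blOrb C ω → blj C ω ω' = 0 := fun ω ω' h =>
    blj_of_not_conj C (bl_nc_symm C (fun x hx => h ((mem_blOrb C).mpr ⟨x, hx⟩)))
  have hvSl : ∀ ω ∈ blSl C L, ∀ c ∈ blV C L, ω.1 c = 1 := by
    intro ω hω c hc
    obtain ⟨κ', _, rfl⟩ := (mem_blSl C L H).mp hω
    rw [← bl_van C L κ'.2 (blOne C) c hc]
    rfl
  have hv1K : ∀ c ∈ blV C L, (blOne C).1 c = ωK.1 c := fun c hc => (hvSl ωK hKSl c hc).symm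
  have hvAT : ∀ ω ∈ T, ∀ c ∈ blV C L, ωA.1 c = ω.1 c := fun ω hω c hc => by
    rw [hvSl ωA hASl c hc, hvSl ω (hTmem ω hω).1 c hc]
  have hmT : ∀ ω ∈ T, blm C θ.1 ω = 0 := fun ω hω => by
    by_contra h
    exact (hTmem ω hω).2.1 (hGb ω (hTmem ω hω).1 h)
  obtain ⟨Φ, hΦ⟩ : ∃ Φ, Φ = indFun C ((blOne C).1 - ωK.1) := ⟨_, rfl⟩
  obtain ⟨S, hS⟩ : ∃ S, S = ∑ ω ∈ T, indFun C (ωA.1 - ω.1) := ⟨_, rfl⟩
  obtain ⟨b, hbb⟩ : ∃ b, b = blm C θ.1 (blOne C) := ⟨_, rfl⟩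
  obtain ⟨r, hr⟩ : ∃ r, r = T.card := ⟨_, rfl⟩
  rw [← hbb] at hb1
  have hΦΦ : classInner Φ Φ = (e : ℂ) + 1 := by
    rw [hΦ, bl_D C L H.ti _ _ _ _ hv1K, blj_one C H.card, j_one_Sl ωK hKSl, j_Sl_one ωK hKSl,
      blj_free C hfK]
    ring
  have hΦ1 : classInner Φ oneG.1 = 1 := by
    rw [hΦ, classInner_indFun C _ _ (irr_isClassFunction oneG), hoG1]
    show classInner ((blOne C).1 - ωK.1) (blOne C).1 = 1
    rw [classInner_sub_left, irr_inner_self, irr_inner_ne (hSl_ne_one ωK hKSl), sub_zero]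
  have h1Φ : classInner oneG.1 Φ = 1 := by rw [classInner_conj_symm, hΦ1, map_one]
  have hΦθ : classInner Φ θ.1 = (b : ℂ) := by
    rw [hΦ, bl_D_theta C _ _ hθc, hmK, Nat.cast_zero, sub_zero, hbb]
  have hθΦ : classInner θ.1 Φ = (b : ℂ) := by
    rw [hΦ, bl_theta_D C _ _ hθc, hmK, Nat.cast_zero, sub_zero, hbb]
  have hΦS : classInner Φ S = 0 := by
    rw [hS, classInner_sum_right]
    apply Finset.sum_eq_zero
    intro ω hω
    obtain ⟨h1, h2, h3⟩ := hTmem ω hω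
    rw [hΦ, bl_D C L H.ti _ _ _ _ hv1K, j_one_Sl ωA hASl, j_one_Sl ω h1, j_not ωK ωA hKA,
      j_not' ωK ω h3]
    ring
  have hSΦ : classInner S Φ = 0 := by rw [classInner_conj_symm, hΦS, map_zero]
  have h1θ : classInner oneG.1 θ.1 = 0 := irr_inner_ne hoGne
  have hθ1' : classInner θ.1 oneG.1 = 0 := irr_inner_ne (Ne.symm hoGne)
  have hS1 : classInner S oneG.1 = 0 := by
    rw [hS, classInner_sum_left]
    apply Finset.sum_eq_zero
    intro ω hω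
    rw [classInner_indFun C _ _ (irr_isClassFunction oneG), hoG1]
    show classInner (ωA.1 - ω.1) (blOne C).1 = 0
    rw [classInner_sub_left, irr_inner_ne (hSl_ne_one ωA hASl),
      irr_inner_ne (hSl_ne_one ω (hTmem ω hω).1), sub_zero]
  have h1S : classInner oneG.1 S = 0 := by rw [classInner_conj_symm, hS1, map_zero]
  have hSθ : classInner S θ.1 = (r : ℂ) := by
    rw [hS, classInner_sum_left, Finset.sum_congr rfl (fun ω hω => by
      rw [bl_D_theta C _ _ hθc, hmA1, hmT ω hω]), Finset.sum_const, nsmul_eq_mul, hr]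
    push_cast
    ring
  have hθS : classInner θ.1 S = (r : ℂ) := by
    rw [classInner_conj_symm, hSθ, Complex.conj_natCast]
  have hSS : classInner S S = (r : ℂ) * r + e * r := by
    rw [hS, classInner_sum_left]
    have h1 : ∀ ω ∈ T, classInner (indFun C (ωA.1 - ω.1))
        (∑ ω' ∈ T, indFun C (ωA.1 - ω'.1)) = (r : ℂ) + e := by
      intro ω hω
      rw [classInner_sum_right]
      have h2 : ∀ ω' ∈ T, classInner (indFun C (ωA.1 - ω.1)) (indFun C (ωA.1 - ω'.1)) =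
          1 + blj C ω ω' := by
        intro ω' hω'
        rw [bl_D C L H.ti _ _ _ _ (hvAT ω hω), blj_free C hfA,
          j_not' ωA ω' (hTmem ω' hω').2.1, j_not ω ωA (hTmem ω hω).2.1]
        ring
      rw [Finset.sum_congr rfl h2, Finset.sum_add_distrib, Finset.sum_const,
        blj_sum_stable C H.card T hTst ω hω, nsmul_eq_mul, mul_one, hr]
    rw [Finset.sum_congr rfl h1, Finset.sum_const, nsmul_eq_mul, hr]
    ring
  have hΦ0 : Φ 1 = 0 := by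
    rw [hΦ]
    exact bl_ind_one C _ (by rw [Pi.sub_apply, hv1K 1 (bl_one_mem_V C L), sub_self])
  have hS0 : S 1 = 0 := by
    rw [hS, Finset.sum_apply]
    exact Finset.sum_eq_zero (fun ω hω => bl_ind_one C _ (by
      rw [Pi.sub_apply, hvAT ω hω 1 (bl_one_mem_V C L), sub_self]))
  obtain ⟨a, ha⟩ : ∃ a : ℕ, a = b * (e + r) := ⟨_, rfl⟩
  have hFF : classInner ((e : ℂ) • Φ - (e : ℂ) • oneG.1 - (a : ℂ) • θ.1 + (b : ℂ) • S)
      ((e : ℂ) • Φ - (e : ℂ) • oneG.1 - (a : ℂ) • θ.1 + (b : ℂ) • S) =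
      (((e : ℝ) ^ 3 - (b : ℝ) ^ 2 * e * (e + r) : ℝ) : ℂ) := by
    simp only [classInner_sub_left, classInner_add_left, classInner_smul_left,
      classInner_sub_right, classInner_add_right, classInner_smul_right, hΦΦ, hΦ1, h1Φ, hΦθ,
      hθΦ, hΦS, hSΦ, h1θ, hθ1', hS1, h1S, hSθ, hθS, hSS, irr_inner_self, Complex.conj_natCast]
    rw [ha]
    push_cast
    ring
  have hF1 : ((e : ℂ) • Φ - (e : ℂ) • oneG.1 - (a : ℂ) • θ.1 + (b : ℂ) • S) 1 ≠ 0 := by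
    have hdeg := (irr_charDegree_spec θ).1
    have e1 : ((e : ℂ) • Φ - (e : ℂ) • oneG.1 - (a : ℂ) • θ.1 + (b : ℂ) • S) 1 =
        -(((e + a * charDegree θ.1 : ℕ)) : ℂ) := by
      simp only [Pi.add_apply, Pi.sub_apply, Pi.smul_apply, smul_eq_mul, hΦ0, hS0, hdeg, hoG1]
      push_cast
      ring
    rw [e1]
    exact neg_ne_zero.mpr (Nat.cast_ne_zero.mpr (by omega))
  have hpos := bl_pos _ hF1
  rw [hFF, Complex.ofReal_re] at hpos
  have hre : e * e ≤ e + r := by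
    have h1 : e * (e + 1) = e * e + e := by ring
    rw [hr]
    omega
  have hnat : e * e * e ≤ b * b * e * (e + r) := by
    calc e * e * e = e * (e * e) := by ring
      _ ≤ e * (e + r) := Nat.mul_le_mul_left e hre
      _ ≤ (b * b) * (e * (e + r)) := Nat.le_mul_of_pos_left _ (Nat.mul_pos hb1 hb1)
      _ = b * b * e * (e + r) := by ring
  have hreal : ((e * e * e : ℕ) : ℝ) ≤ ((b * b * e * (e + r) : ℕ) : ℝ) := by exact_mod_cast hnat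
  push_cast at hreal
  nlinarith

theorem bl_caseB {e : ℕ} (H : BLHyp C L e) (he2 : 2 ≤ e)
    (hq : e * (e + 1) + 1 ≤ Fintype.card ↥L)
    (θ : IrrCharacter G)
    (hD : charDegree θ.1 + e + 2 ≤ Fintype.card ↥L) (ω₁ : IrrCharacter ↥C)
    (hf1 : blFree C ω₁) (hm1 : blm C θ.1 ω₁ ≠ 0)
    (hb : blm C θ.1 (blOne C) ≠ 0)
    (hB : ∀ κ : ↥L, κ ≠ 1 → blm C θ.1 ((κ : ↥C →* ℂˣ) • blOne C) = 0) : False := by
  have hθc := isCharacter_of_isIrrCharacter θ.2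
  have hcf := isCharacter_isClassFunction hθc
  have hnf1 := bl_not_free_one C L H he2
  have horb := bl_orb_props C hcf ω₁ hf1
  have hm11 : blm C θ.1 ω₁ = 1 := bl_G_a C L H θ hD ω₁ hf1 hm1
  have hone_notin : blOne C ∉ blOrb C ω₁ := fun h => hnf1 (horb _ h).1
  have hz1 : Fintype.card ↥L ≤ blz C L θ.1 (blOne C) + 1 := by
    have hsub : (Finset.univ : Finset ↥L) ⊆ (Finset.univ.filter (fun κ : ↥L =>
        blm C θ.1 ((κ : ↥C →* ℂˣ) • blOne C) = 0)) ∪ {1} := by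
      intro κ _
      simp only [Finset.mem_union, Finset.mem_filter, Finset.mem_univ, true_and,
        Finset.mem_singleton]
      by_cases h : κ = 1
      · exact Or.inr h
      · exact Or.inl (hB κ h)
    have h3 := Finset.card_le_card hsub
    have h4 := Finset.card_union_le (Finset.univ.filter (fun κ : ↥L =>
        blm C θ.1 ((κ : ↥C →* ℂˣ) • blOne C) = 0)) {1}
    rw [Finset.card_univ] at h3
    rw [Finset.card_singleton] at h4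
    unfold blz
    omega
  have hstar := bl_star C L H θ
  have hb1 : blz C L θ.1 (blOne C) ≤ blm C θ.1 (blOne C) ^ 2 * blz C L θ.1 (blOne C) :=
    Nat.le_mul_of_pos_left _ (Nat.pos_of_ne_zero (pow_ne_zero 2 hb))
  have hsumorb : ∑ ω' ∈ blOrb C ω₁, blm C θ.1 ω' ^ 2 * blz C L θ.1 ω' =
      ∑ ω' ∈ blOrb C ω₁, blz C L θ.1 ω' :=
    Finset.sum_congr rfl (fun ω' hω' => by rw [(horb ω' hω').2, hm11, one_pow, one_mul])
  by_cases hnf : ∀ κ : ↥L, blm C θ.1 ((κ : ↥C →* ℂˣ) • ω₁) ≠ 0 →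
      blFree C ((κ : ↥C →* ℂˣ) • ω₁)
  · have hz : ∀ ω ∈ blOrb C ω₁, Fintype.card ↥L ≤ blz C L θ.1 ω + e := by
      intro ω hω
      obtain ⟨x, rfl⟩ := (mem_blOrb C).mp hω
      apply bl_G_c' C L H θ hD (x • ω₁) (blFree_smul C hf1 x)
        (by rw [blm_smul C hcf]; exact hm1)
      intro κ hκ
      obtain ⟨κ'', hκ''⟩ := bl_tw_conj C L H x κ ω₁
      rw [hκ''] at hκ ⊢
      rw [blm_smul C hcf] at hκ
      exact blFree_smul C (hnf κ'' hκ) x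
    have hSz := bl_orb_z_sum C L H θ ω₁ hf1 e hz
    have h1 : ∑ ω' ∈ insert (blOne C) (blOrb C ω₁), blm C θ.1 ω' ^ 2 * blz C L θ.1 ω' ≤
        ∑ ω' : IrrCharacter ↥C, blm C θ.1 ω' ^ 2 * blz C L θ.1 ω' :=
      Finset.sum_le_sum_of_subset (Finset.subset_univ _)
    rw [Finset.sum_insert hone_notin, hsumorb] at h1
    nlinarith
  · push Not at hnf
    obtain ⟨κ₀, hmν, hnfν⟩ := hnf
    have hν_notin : (κ₀ : ↥C →* ℂˣ) • ω₁ ∉ blOrb C ω₁ := fun h => hnfν (horb _ h).1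
    have hν_ne : (κ₀ : ↥C →* ℂˣ) • ω₁ ≠ blOne C := by
      intro h
      have h1 : ω₁ = ((κ₀⁻¹ : ↥L) : ↥C →* ℂˣ) • blOne C := by
        rw [← h, Subgroup.coe_inv, inv_smul_smul]
      have h2 : (κ₀⁻¹ : ↥L) ≠ 1 := by
        intro h3
        rw [h3] at h1
        apply hnf1
        have h4 : ω₁ = blOne C := h1.trans (one_smul (↥C →* ℂˣ) (blOne C))
        rw [← h4]
        exact hf1
      apply hm1
      rw [h1]
      exact hB _ h2
    have hzν : Fintype.card ↥L ≤ blz C L θ.1 ((κ₀ : ↥C →* ℂˣ) • ω₁) + e + 1 := by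
      rw [blz_tw]
      exact bl_G_c C L H θ hD ω₁ hf1 hm1
    have hz : ∀ ω ∈ blOrb C ω₁, Fintype.card ↥L ≤ blz C L θ.1 ω + (e + 1) := by
      intro ω hω
      have h := bl_G_c C L H θ hD ω (horb ω hω).1 (by rw [(horb ω hω).2]; exact hm1)
      omega
    have hSz := bl_orb_z_sum C L H θ ω₁ hf1 (e + 1) hz
    have h1 : ∑ ω' ∈ insert (blOne C) (insert ((κ₀ : ↥C →* ℂˣ) • ω₁) (blOrb C ω₁)),
        blm C θ.1 ω' ^ 2 * blz C L θ.1 ω' ≤
        ∑ ω' : IrrCharacter ↥C, blm C θ.1 ω' ^ 2 * blz C L θ.1 ω' :=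
      Finset.sum_le_sum_of_subset (Finset.subset_univ _)
    have hnotin : blOne C ∉ insert ((κ₀ : ↥C →* ℂˣ) • ω₁) (blOrb C ω₁) := by
      rw [Finset.mem_insert]
      push Not
      exact ⟨Ne.symm hν_ne, hone_notin⟩
    rw [Finset.sum_insert hnotin, Finset.sum_insert hν_notin, hsumorb] at h1
    have hν1 : blz C L θ.1 ((κ₀ : ↥C →* ℂˣ) • ω₁) ≤
        blm C θ.1 ((κ₀ : ↥C →* ℂˣ) • ω₁) ^ 2 * blz C L θ.1 ((κ₀ : ↥C →* ℂˣ) • ω₁) :=
      Nat.le_mul_of_pos_left _ (Nat.pos_of_ne_zero (pow_ne_zero 2 hmν))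
    nlinarith

theorem bl_partII {e : ℕ} (H : BLHyp C L e) (he2 : 2 ≤ e)
    (hq : e * (e + 1) + 1 ≤ Fintype.card ↥L)
    (θ : IrrCharacter G) (hθ1 : θ.1 ≠ fun _ => 1)
    (hD : charDegree θ.1 + e + 2 ≤ Fintype.card ↥L) (ω₁ : IrrCharacter ↥C)
    (hf1 : blFree C ω₁) (hm1 : blm C θ.1 ω₁ ≠ 0) : blm C θ.1 (blOne C) = 0 := by
  by_contra hb
  by_cases hA : ∃ κ₁ : ↥L, κ₁ ≠ 1 ∧ blm C θ.1 ((κ₁ : ↥C →* ℂˣ) • blOne C) ≠ 0
  · obtain ⟨κ₁, hκ₁, hmκ₁⟩ := hA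
    exact bl_caseA C L H he2 hq θ hθ1 hD hb κ₁ hκ₁ hmκ₁
  · push Not at hA
    exact bl_caseB C L H he2 hq θ hD ω₁ hf1 hm1 hb hA

end BL

end Cfsg.Agent.Helper24
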