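import Cfsg.Agent.Helper24.BL4

/-!
# Brauer–Leonard engine, part 5: the contradiction
-/

set_option autoImplicit false

namespace Cfsg.Agent.Helper24

open Cfsg Cfsg.Agent.Helper22
open scoped Classical

universe u

section BL
variable {G : Type u} [Group G] [Fintype G] (C : Subgroup G) (L : Subgroup (↥C →* ℂˣ))
  [Fintype ↥L]

theorem bl_engine {e : ℕ} (H : BLHyp C L e) (he2 : 2 ≤ e)
    (h6 : ∀ θ : IrrCharacter G, θ.1 ≠ (fun _ => 1) →
      ∃ ω : IrrCharacter ↥C, blFree C ω ∧ blm C θ.1 ω ≠ 0)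
    (ψ : IrrCharacter G) (hψ1 : ψ.1 ≠ fun _ => 1)
    (hd : charDegree ψ.1 ^ 2 + 1 < Fintype.card ↥L) : False := by
  have hψc := isCharacter_of_isIrrCharacter ψ.2
  obtain ⟨ω₁, hf1, hm1⟩ := h6 ψ hψ1
  have hI := bl_partI C L H he2 ψ hd ω₁ hf1 hm1
  have hsq := bl_partI_sq C L H ψ ω₁ hf1 hI
  have hdeg := bl_partI_deg C L H ψ ω₁ hf1 hI
  have hf0 : 0 < charDegree ω₁.1 := Nat.pos_of_ne_zero (irr_charDegree_spec ω₁).2.1
  obtain ⟨t, ht⟩ := bl_dvd_card C H.card (blSl C L) (blSl_stable C L H) (blSl_free C L H)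
  rw [blSl_card C L H] at ht
  have hψdeg := (irr_charDegree_spec ψ).1
  obtain ⟨d, hdd⟩ : ∃ d, d = charDegree ψ.1 := ⟨_, rfl⟩
  obtain ⟨f, hff⟩ : ∃ f, f = charDegree ω₁.1 := ⟨_, rfl⟩
  obtain ⟨q, hqq⟩ : ∃ q, q = Fintype.card ↥L := ⟨_, rfl⟩
  rw [← hdd, ← hff] at hdeg
  rw [← hdd, ← hqq] at hd
  rw [← hqq] at ht
  rw [← hff] at hf0
  rw [← hdd] at hψdeg
  have harith : d ^ 2 + e + 1 ≤ q ∧ e * (e + 1) + 1 ≤ q := by
    have h6' : d ^ 2 = e * (e * f * f) := by rw [hdeg]; ring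
    have h1 : e * (e * f * f) < e * t := by omega
    have h2 : e * f * f < t := Nat.lt_of_mul_lt_mul_left h1
    have h3 : e * (e * f * f + 1) ≤ e * t := Nat.mul_le_mul_left e h2
    have h4 : e ≤ e * f * f := by
      calc e = e * 1 * 1 := by ring
        _ ≤ e * f * f := Nat.mul_le_mul (Nat.mul_le_mul_left e hf0) hf0
    have h5 : e * (e + 1) ≤ e * t := Nat.mul_le_mul_left e (by omega)
    have h7 : e * (e * f * f + 1) = e * (e * f * f) + e := by ring
    constructor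
    · omega
    · omega
  obtain ⟨hb1, hq1⟩ := harith
  obtain ⟨Θ, hΘ⟩ : ∃ Θ : G → ℂ, Θ = fun g => ψ.1 g * starRingEnd ℂ (ψ.1 g) := ⟨_, rfl⟩
  have hΘc : IsCharacter G Θ := by
    rw [hΘ]
    exact Cfsg.Agent.Helper5.isCharacter_mul hψc (isCharacter_star hψc)
  have hk := fun θ : IrrCharacter G => isCharacter_inner_irr hΘc θ
  choose k hk using hk
  have hΘsum := classFunction_eq_sum_irr Θ (isCharacter_isClassFunction hΘc)
  simp only [hk] at hΘsum
  obtain ⟨oneG, hoG⟩ : ∃ o : IrrCharacter G, o = ⟨fun _ => 1, isIrrCharacter_one⟩ := ⟨_, rfl⟩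
  have hoG1 : oneG.1 = fun _ => 1 := by rw [hoG]
  have hk1 : k oneG = 1 := by
    have h1 : classInner Θ oneG.1 = classInner ψ.1 ψ.1 := by
      rw [hΘ, hoG1]
      simp only [classInner_def']
      congr 1
      refine Finset.sum_congr rfl fun g _ => ?_
      rw [map_one, mul_one]
    rw [hk, irr_inner_self] at h1
    exact_mod_cast h1
  have hΘ1 : Θ 1 = ((d * d : ℕ) : ℂ) := by
    rw [hΘ]
    show ψ.1 1 * starRingEnd ℂ (ψ.1 1) = _
    rw [hψdeg, Complex.conj_natCast]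
    push_cast
    ring
  have hdsum : d * d = ∑ θ : IrrCharacter G, k θ * charDegree θ.1 := by
    have h1 := congrFun hΘsum 1
    rw [hΘ1, Finset.sum_apply] at h1
    have h2 : ∀ θ : IrrCharacter G, ((k θ : ℂ) • θ.1) 1 = ((k θ * charDegree θ.1 : ℕ) : ℂ) := by
      intro θ
      rw [Pi.smul_apply, smul_eq_mul, (irr_charDegree_spec θ).1]
      push_cast
      rfl
    rw [Finset.sum_congr rfl (fun θ _ => h2 θ), ← Nat.cast_sum] at h1
    exact_mod_cast h1
  have hsmall : ∀ θ : IrrCharacter G, θ ≠ oneG → k θ ≠ 0 → charDegree θ.1 + 1 ≤ d * d := by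
    intro θ hne hkθ
    have h1 : ∑ θ' ∈ ({oneG, θ} : Finset (IrrCharacter G)), k θ' * charDegree θ'.1 ≤
        ∑ θ' : IrrCharacter G, k θ' * charDegree θ'.1 :=
      Finset.sum_le_sum_of_subset (Finset.subset_univ _)
    rw [Finset.sum_pair (Ne.symm hne), ← hdsum, hk1, one_mul] at h1
    have h2 : charDegree oneG.1 = 1 := by
      rw [hoG1]
      exact charDegree_of_eq (by simp)
    have h3 : charDegree θ.1 ≤ k θ * charDegree θ.1 :=
      Nat.le_mul_of_pos_left _ (Nat.pos_of_ne_zero hkθ)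
    omega
  have hres1 : classInner (fun c : ↥C => Θ c) (blOne C).1 = (e : ℂ) := by
    have h1 : classInner (fun c : ↥C => Θ c) (blOne C).1 =
        classInner (fun c : ↥C => ψ.1 c) (fun c : ↥C => ψ.1 c) := by
      rw [hΘ]
      simp only [classInner_def']
      congr 1
      refine Finset.sum_congr rfl fun c _ => ?_
      show ψ.1 c * starRingEnd ℂ (ψ.1 c) * starRingEnd ℂ (1 : ℂ) = _
      rw [map_one, mul_one]
    rw [h1, bl_res_inner_self C hψc, ← hsq]
    push_cast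
    rfl
  have hres2 : classInner (fun c : ↥C => Θ c) (blOne C).1 =
      ∑ θ : IrrCharacter G, (k θ : ℂ) * (blm C θ.1 (blOne C) : ℂ) := by
    have h1 : (fun c : ↥C => Θ c) = ∑ θ : IrrCharacter G, (k θ : ℂ) • (fun c : ↥C => θ.1 c) := by
      funext c
      have h2 := congrFun hΘsum c
      rw [Finset.sum_apply] at h2 ⊢
      exact h2
    rw [h1, classInner_sum_left]
    refine Finset.sum_congr rfl fun θ _ => ?_
    rw [classInner_smul_left, blm_spec C (isCharacter_of_isIrrCharacter θ.2)]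
  have hterm : ∀ θ : IrrCharacter G, θ ≠ oneG → k θ * blm C θ.1 (blOne C) = 0 := by
    intro θ hne
    by_cases hkθ : k θ = 0
    · rw [hkθ, zero_mul]
    · have hθ1 : θ.1 ≠ fun _ => 1 := fun h => hne (Subtype.ext (h.trans hoG1.symm))
      obtain ⟨ω, hfω, hmω⟩ := h6 θ hθ1
      have hDθ : charDegree θ.1 + e + 2 ≤ Fintype.card ↥L := by
        have h1 := hsmall θ hne hkθ
        have h2 : d ^ 2 = d * d := sq d
        rw [← hqq]
        omega
      rw [bl_partII C L H he2 (by rw [← hqq]; exact hq1) θ hθ1 hDθ ω hfω hmω, mul_zero]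
  have hone_m : blm C oneG.1 (blOne C) = 1 := by
    have h1 := blm_spec C (isCharacter_of_isIrrCharacter oneG.2) (blOne C)
    have h2 : (fun c : ↥C => oneG.1 c) = (blOne C).1 := by
      rw [hoG1]
      rfl
    rw [h2, irr_inner_self] at h1
    exact_mod_cast h1.symm
  have hsumN : ∑ θ : IrrCharacter G, k θ * blm C θ.1 (blOne C) = 1 := by
    rw [Finset.sum_eq_single oneG (fun θ _ hne => hterm θ hne)
      (fun h => absurd (Finset.mem_univ _) h), hk1, hone_m]
  have hfin : (e : ℂ) = ((∑ θ : IrrCharacter G, k θ * blm C θ.1 (blOne C) : ℕ) : ℂ) := by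
    rw [← hres1, hres2]
    push_cast
    rfl
  rw [hsumN] at hfin
  have he1 : e = 1 := by exact_mod_cast hfin
  omega

end BL

end Cfsg.Agent.Helper24
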