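import Cfsg.Agent.Helper24.BL5
import Cfsg.Agent.Helper24.CharEigen

/-!
# Brauer–Leonard engine, part 6: Sylow subgroups with uniform centralizers
-/

set_option autoImplicit false

namespace Cfsg.Agent.Helper24

open Cfsg Cfsg.Agent.Helper22
open scoped Classical

universe u

section BLC
variable {G : Type u} [Group G]

theorem bl_grp1 (x a b : G) (h : x * a * x⁻¹ * a⁻¹ = x * b * x⁻¹ * b⁻¹) :
    x * (b⁻¹ * a) * x⁻¹ = b⁻¹ * a := by
  have h' : x * a * x⁻¹ = x * b * x⁻¹ * b⁻¹ * a := by rw [← h]; group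
  calc x * (b⁻¹ * a) * x⁻¹ = (x * b * x⁻¹)⁻¹ * (x * a * x⁻¹) := by group
    _ = (x * b * x⁻¹)⁻¹ * (x * b * x⁻¹ * b⁻¹ * a) := by rw [h']
    _ = b⁻¹ * a := by group

/-- The central character of an irreducible character. -/
theorem bl_central {Q : Type u} [Group Q] (ω : IrrCharacter Q) (z : Q)
    (hz : ∀ w : Q, z * w = w * z) : ∃ c : ℂ, c ≠ 0 ∧ ∀ g : Q, ω.1 (z * g) = c * ω.1 g := by
  obtain ⟨n, ρ, hρ, hχ⟩ := ω.2
  haveI : ρ.IsIrreducible := hρ
  obtain ⟨c, hc⟩ : ∃ c : ℂ, ρ z = c • LinearMap.id := by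
    refine ⟨_, eq_smul_of_comm_of_irreducible ρ (ρ z) (fun x => ?_)⟩
    show ρ z * ρ x = ρ x * ρ z
    rw [← map_mul, ← map_mul, hz]
  have h3 : ∀ g : Q, ω.1 (z * g) = c * ω.1 g := by
    intro g
    rw [← hχ]
    show LinearMap.trace ℂ (Fin n → ℂ) (ρ (z * g)) = c * LinearMap.trace ℂ (Fin n → ℂ) (ρ g)
    have h4 : ρ (z * g) = c • ρ g := by
      rw [map_mul, hc]
      apply LinearMap.ext
      intro v
      simp
    rw [h4, map_smul, smul_eq_mul]
  refine ⟨c, ?_, h3⟩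
  intro hc0
  have h5 := h3 z⁻¹
  rw [mul_inv_cancel, hc0, zero_mul] at h5
  exact irr_one_ne_zero ω h5

/-- The linear characters of `C` of exponent dividing `q`. -/
def blL (C : Subgroup G) (q : ℕ) : Subgroup (↥C →* ℂˣ) where
  carrier := {κ | ∀ c, κ c ^ q = 1}
  mul_mem' := by
    intro a b ha hb c
    rw [MonoidHom.mul_apply, mul_pow, ha c, hb c, one_mul]
  one_mem' := by
    intro c
    rw [MonoidHom.one_apply, one_pow]
  inv_mem' := by
    intro a ha c
    rw [MonoidHom.inv_apply, inv_pow, ha c, inv_one]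

theorem mem_blL (C : Subgroup G) (q : ℕ) (κ : ↥C →* ℂˣ) : κ ∈ blL C q ↔ ∀ c, κ c ^ q = 1 :=
  Iff.rfl

variable [Finite G] (p : ℕ) [hp : Fact p.Prime] (P : Sylow p G)

theorem blc_le
    (hstar : ∀ x ∈ (P : Subgroup G), x ≠ 1 → Subgroup.centralizer ({x} : Set G) =
      Subgroup.centralizer ((P : Subgroup G) : Set G)) :
    (P : Subgroup G) ≤ Subgroup.centralizer ((P : Subgroup G) : Set G) := by
  intro y hy
  by_cases h1 : y = 1
  · rw [h1]
    exact one_mem _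
  · rw [← hstar y hy h1]
    exact Subgroup.mem_centralizer_iff.mpr (fun h hh => by rw [Set.mem_singleton_iff.mp hh])

theorem blc_pelem (y : G) (hyC : y ∈ Subgroup.centralizer ((P : Subgroup G) : Set G))
    (hy : y ^ Nat.card P = 1) : y ∈ (P : Subgroup G) := by
  obtain ⟨n, hn⟩ := IsPGroup.iff_card.mp P.isPGroup'
  have hZ : IsPGroup p (Subgroup.zpowers y) := by
    rintro ⟨g, hg⟩
    obtain ⟨j, rfl⟩ := Subgroup.mem_zpowers_iff.mp hg
    refine ⟨n, Subtype.ext ?_⟩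
    show (y ^ j) ^ p ^ n = 1
    rw [← hn, ← zpow_natCast, ← zpow_mul, mul_comm, zpow_mul, zpow_natCast, hy, one_zpow]
  have hsup := IsPGroup.to_sup_of_normal_right' hZ P.isPGroup'
    (Subgroup.zpowers_le.mpr (Subgroup.centralizer_le_normalizer _ hyC))
  have h1 := P.is_maximal' hsup le_sup_right
  have h2 : Subgroup.zpowers y ≤ (P : Subgroup G) := by
    calc Subgroup.zpowers y ≤ Subgroup.zpowers y ⊔ (P : Subgroup G) := le_sup_left
      _ = (P : Subgroup G) := h1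
  exact h2 (Subgroup.mem_zpowers y)

theorem blc_card
    (hPC : (P : Subgroup G) ≤ Subgroup.centralizer ((P : Subgroup G) : Set G)) :
    ∃ k : ℕ, Nat.card ↥(Subgroup.centralizer ((P : Subgroup G) : Set G)) = Nat.card P * k ∧
      k.Coprime (Nat.card P) := by
  obtain ⟨k, hk⟩ := Subgroup.card_dvd_of_le hPC
  refine ⟨k, hk, ?_⟩
  obtain ⟨n, hn⟩ := IsPGroup.iff_card.mp P.isPGroup'
  have h1 : ¬ p ∣ k := by
    intro hpk
    have h2 := Subgroup.card_subgroup_dvd_card (Subgroup.centralizer ((P : Subgroup G) : Set G))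
    rw [hk, ← Subgroup.card_mul_index (P : Subgroup G)] at h2
    have h3 : k ∣ (P : Subgroup G).index := Nat.dvd_of_mul_dvd_mul_left Nat.card_pos h2
    exact P.not_dvd_index (hpk.trans h3)
  rw [hn]
  exact Nat.Coprime.pow_right n ((Nat.Prime.coprime_iff_not_dvd hp.out).mpr h1).symm

theorem blc_pow_mem {k : ℕ}
    (hk : Nat.card ↥(Subgroup.centralizer ((P : Subgroup G) : Set G)) = Nat.card P * k)
    (c : G) (hc : c ∈ Subgroup.centralizer ((P : Subgroup G) : Set G)) :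
    c ^ k ∈ (P : Subgroup G) := by
  apply blc_pelem p P (c ^ k) (pow_mem hc k)
  have h1 : ((⟨c, hc⟩ : ↥(Subgroup.centralizer ((P : Subgroup G) : Set G))) ^
      Nat.card ↥(Subgroup.centralizer ((P : Subgroup G) : Set G))) = 1 := pow_card_eq_one'
  have h2 := congrArg Subtype.val h1
  rw [Subgroup.coe_pow, Subgroup.coe_one] at h2
  rw [← pow_mul, mul_comm, ← hk]
  exact h2

theorem blc_L_trivial {k : ℕ}
    (hk : Nat.card ↥(Subgroup.centralizer ((P : Subgroup G) : Set G)) = Nat.card P * k)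
    (hcop : k.Coprime (Nat.card P))
    (κ : ↥(Subgroup.centralizer ((P : Subgroup G) : Set G)) →* ℂˣ)
    (hκ : ∀ c, κ c ^ Nat.card P = 1)
    (hP : ∀ c : ↥(Subgroup.centralizer ((P : Subgroup G) : Set G)),
      (c : G) ∈ (P : Subgroup G) → κ c = 1) : κ = 1 := by
  apply MonoidHom.ext
  intro c
  have h1 : κ c ^ k = 1 := by
    rw [← map_pow]
    apply hP
    rw [Subgroup.coe_pow]
    exact blc_pow_mem p P hk c.1 c.2
  have d1 := orderOf_dvd_of_pow_eq_one h1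
  have d2 := orderOf_dvd_of_pow_eq_one (hκ c)
  have h3 : orderOf (κ c) = 1 := by
    have h4 := Nat.dvd_gcd d1 d2
    rw [hcop.gcd_eq_one] at h4
    exact Nat.dvd_one.mp h4
  rw [MonoidHom.one_apply]
  exact orderOf_eq_one_iff.mp h3

theorem blc_norm
    (hPC : (P : Subgroup G) ≤ Subgroup.centralizer ((P : Subgroup G) : Set G))
    (z : G) (hz : z ∈ blN (Subgroup.centralizer ((P : Subgroup G) : Set G)))
    (y : G) (hy : y ∈ (P : Subgroup G)) : z * y * z⁻¹ ∈ (P : Subgroup G) := by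
  apply blc_pelem p P _ ((Subgroup.mem_normalizer_iff.1 hz y).1 (hPC hy))
  have h1 : ((⟨y, hy⟩ : ↥(P : Subgroup G)) ^ Nat.card ↥(P : Subgroup G)) = 1 := pow_card_eq_one'
  have h2 := congrArg Subtype.val h1
  rw [Subgroup.coe_pow, Subgroup.coe_one] at h2
  rw [conj_pow, h2, mul_one, mul_inv_cancel]

theorem blc_surj
    (hstar : ∀ x ∈ (P : Subgroup G), x ≠ 1 → Subgroup.centralizer ({x} : Set G) =
      Subgroup.centralizer ((P : Subgroup G) : Set G))
    (x : G) (hxN : x ∈ blN (Subgroup.centralizer ((P : Subgroup G) : Set G)))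
    (hxC : x ∉ Subgroup.centralizer ((P : Subgroup G) : Set G)) :
    ∀ y ∈ (P : Subgroup G), ∃ y₀ ∈ (P : Subgroup G), y = x⁻¹ * y₀ * x * y₀⁻¹ := by
  have hPC := blc_le p P hstar
  have hmem : ∀ y₀ : ↥(P : Subgroup G), x⁻¹ * (y₀ : G) * x * (y₀ : G)⁻¹ ∈ (P : Subgroup G) := by
    intro y₀
    have h1 := blc_norm p P hPC x⁻¹ (inv_mem hxN) y₀.1 y₀.2
    rw [inv_inv] at h1
    exact mul_mem h1 (inv_mem y₀.2)
  have hinj : Function.Injective (fun y₀ : ↥(P : Subgroup G) =>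
      (⟨x⁻¹ * (y₀ : G) * x * (y₀ : G)⁻¹, hmem y₀⟩ : ↥(P : Subgroup G))) := by
    intro a b hab
    have h1 : x⁻¹ * (a : G) * x * (a : G)⁻¹ = x⁻¹ * (b : G) * x * (b : G)⁻¹ :=
      congrArg Subtype.val hab
    have h2 : x⁻¹ * (a : G) * x⁻¹⁻¹ * (a : G)⁻¹ = x⁻¹ * (b : G) * x⁻¹⁻¹ * (b : G)⁻¹ := by
      rw [inv_inv]
      exact h1
    have h3 := bl_grp1 x⁻¹ (a : G) (b : G) h2
    by_contra hne
    have hu : (b : G)⁻¹ * (a : G) ∈ (P : Subgroup G) := mul_mem (inv_mem b.2) a.2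
    have hu1 : (b : G)⁻¹ * (a : G) ≠ 1 := by
      intro h4
      apply hne
      apply Subtype.ext
      exact (inv_mul_eq_one.mp h4).symm
    have h5 : x⁻¹ ∈ Subgroup.centralizer ({(b : G)⁻¹ * (a : G)} : Set G) := by
      rw [Subgroup.mem_centralizer_iff]
      intro h hh
      rw [Set.mem_singleton_iff.mp hh]
      have h6 : x⁻¹ * ((b : G)⁻¹ * (a : G)) = (b : G)⁻¹ * (a : G) * x⁻¹ := by
        rw [inv_inv] at h3
        exact eq_mul_inv_of_mul_eq h3
      exact h6.symm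
    rw [hstar _ hu hu1] at h5
    exact hxC (by simpa using inv_mem h5)
  have hsurj := Finite.surjective_of_injective hinj
  intro y hy
  obtain ⟨y₀, hy₀⟩ := hsurj ⟨y, hy⟩
  exact ⟨y₀.1, y₀.2, (congrArg Subtype.val hy₀).symm⟩

end BLC

end Cfsg.Agent.Helper24
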