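import Cfsg.Agent.Helper24.BL6

/-!
# Brauer–Leonard engine, part 7: verification of the hypotheses for a Sylow subgroup with
uniform centralizers
-/

set_option autoImplicit false

namespace Cfsg.Agent.Helper24

open Cfsg Cfsg.Agent.Helper22
open scoped Classical

universe u

section BLC
variable {G : Type u} [Group G]

/-- The centralizer of a Sylow subgroup. -/
abbrev blCP {p : ℕ} (P : Sylow p G) : Subgroup G :=
  Subgroup.centralizer ((P : Subgroup G) : Set G)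

theorem bl_mem_cent_single (y h : G) :
    h ∈ Subgroup.centralizer ({y} : Set G) ↔ y * h = h * y := by
  constructor
  · intro hh
    exact Subgroup.mem_centralizer_iff.mp hh _ (Set.mem_singleton _)
  · intro hh
    exact Subgroup.mem_centralizer_iff.mpr (fun z hz => by
      rw [Set.mem_singleton_iff.mp hz]; exact hh)

variable [Fintype G] (p : ℕ) [hp : Fact p.Prime] (P : Sylow p G)

theorem blc_norm_le :
    Subgroup.normalizer ((P : Subgroup G) : Set G) ≤ blN (blCP P) := by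
  intro x hx
  rw [Subgroup.mem_normalizer_iff]
  intro h
  constructor
  · intro hh
    rw [Subgroup.mem_centralizer_iff]
    intro y hy
    have hy' : x⁻¹ * y * x ∈ (P : Subgroup G) := by
      have h1 := (Subgroup.mem_normalizer_iff.mp (inv_mem hx) y).mp hy
      rwa [inv_inv] at h1
    have e := Subgroup.mem_centralizer_iff.mp hh _ hy'
    calc y * (x * h * x⁻¹) = x * ((x⁻¹ * y * x) * h) * x⁻¹ := by group
      _ = x * (h * (x⁻¹ * y * x)) * x⁻¹ := by rw [e]
      _ = x * h * x⁻¹ * y := by group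
  · intro hh
    rw [Subgroup.mem_centralizer_iff]
    intro y hy
    have hy' : x * y * x⁻¹ ∈ (P : Subgroup G) := (Subgroup.mem_normalizer_iff.mp hx y).mp hy
    have e := Subgroup.mem_centralizer_iff.mp hh _ hy'
    calc y * h = x⁻¹ * ((x * y * x⁻¹) * (x * h * x⁻¹)) * x := by group
      _ = x⁻¹ * ((x * h * x⁻¹) * (x * y * x⁻¹)) * x := by rw [e]
      _ = h * y := by group

theorem blc_ti_aux
    (hstar : ∀ x ∈ (P : Subgroup G), x ≠ 1 → Subgroup.centralizer ({x} : Set G) =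
      Subgroup.centralizer ((P : Subgroup G) : Set G))
    (y g : G) (hy : y ∈ (P : Subgroup G)) (hy1 : y ≠ 1) (hy' : g * y * g⁻¹ ∈ (P : Subgroup G)) :
    g ∈ blN (blCP P) := by
  have hy1' : g * y * g⁻¹ ≠ 1 := fun h => hy1 (conj_eq_one_iff.mp h)
  have hc1 := hstar _ hy hy1
  have hc2 := hstar _ hy' hy1'
  have e1 : ∀ h : G, h ∈ blCP P ↔ y * h = h * y := by
    intro h
    rw [← bl_mem_cent_single, hc1]
  have e2 : ∀ h : G, h ∈ blCP P ↔ (g * y * g⁻¹) * h = h * (g * y * g⁻¹) := by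
    intro h
    rw [← bl_mem_cent_single, hc2]
  rw [Subgroup.mem_normalizer_iff]
  intro h
  constructor
  · intro hh
    have e := (e1 h).mp hh
    apply (e2 _).mpr
    calc g * y * g⁻¹ * (g * h * g⁻¹) = g * (y * h) * g⁻¹ := by group
      _ = g * (h * y) * g⁻¹ := by rw [e]
      _ = g * h * g⁻¹ * (g * y * g⁻¹) := by group
  · intro hh
    have e := (e2 _).mp hh
    apply (e1 h).mpr
    calc y * h = g⁻¹ * ((g * y * g⁻¹) * (g * h * g⁻¹)) * g := by group
      _ = g⁻¹ * ((g * h * g⁻¹) * (g * y * g⁻¹)) * g := by rw [e]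
      _ = h * y := by group

theorem blc_central_mem (c : ↥(blCP P)) (hc : (c : G) ∈ (P : Subgroup G)) :
    ∀ w : ↥(blCP P), c * w = w * c :=
  fun w => Subtype.ext (Subgroup.mem_centralizer_iff.mp w.2 c.1 hc)

theorem blc_surj'
    (hstar : ∀ x ∈ (P : Subgroup G), x ≠ 1 → Subgroup.centralizer ({x} : Set G) =
      Subgroup.centralizer ((P : Subgroup G) : Set G))
    (x : ↥(blN (blCP P))) (hxC : (x : G) ∉ blCP P) (c : ↥(blCP P))
    (hc : (c : G) ∈ (P : Subgroup G)) :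
    ∃ y₀ : ↥(blCP P), (y₀ : G) ∈ (P : Subgroup G) ∧ c = blAut (blCP P) x⁻¹ y₀ * y₀⁻¹ := by
  obtain ⟨y₀, hy₀, hy⟩ := blc_surj p P hstar x.1 x.2 hxC c.1 hc
  refine ⟨⟨y₀, blc_le p P hstar hy₀⟩, hy₀, ?_⟩
  apply Subtype.ext
  rw [Subgroup.coe_mul, blAut_inv_apply, Subgroup.coe_inv]
  exact hy

theorem blc_aut_mem
    (hstar : ∀ x ∈ (P : Subgroup G), x ≠ 1 → Subgroup.centralizer ({x} : Set G) =
      Subgroup.centralizer ((P : Subgroup G) : Set G))
    (x : ↥(blN (blCP P))) (y₀ : ↥(blCP P)) (h : (y₀ : G) ∈ (P : Subgroup G)) :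
    ((blAut (blCP P) x y₀ : ↥(blCP P)) : G) ∈ (P : Subgroup G) := by
  rw [blAut_apply]
  exact blc_norm p P (blc_le p P hstar) x.1 x.2 y₀.1 h

theorem blc_lin
    (hstar : ∀ x ∈ (P : Subgroup G), x ≠ 1 → Subgroup.centralizer ({x} : Set G) =
      Subgroup.centralizer ((P : Subgroup G) : Set G))
    {k : ℕ} (hk : Nat.card ↥(blCP P) = Nat.card P * k) (hcop : k.Coprime (Nat.card P))
    (κ : ↥(blCP P) →* ℂˣ) (hκ : κ ∈ blL (blCP P) (Nat.card P)) (hκ1 : κ ≠ 1) :
    blFree (blCP P) (κ • blOne (blCP P)) := by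
  intro x hx
  by_contra hxC
  apply hκ1
  apply blc_L_trivial p P hk hcop κ ((mem_blL _ _ κ).mp hκ)
  intro c hcP
  obtain ⟨y₀, hy₀, hc⟩ := blc_surj' p P hstar x hxC c hcP
  have hinv : ∀ c' : ↥(blCP P), κ (blAut (blCP P) x⁻¹ c') = κ c' := by
    intro c'
    have h1 := congrFun (congrArg Subtype.val hx) c'
    have h2 : ((κ (blAut (blCP P) x⁻¹ c') : ℂˣ) : ℂ) * 1 = ((κ c' : ℂˣ) : ℂ) * 1 := h1
    rw [mul_one, mul_one] at h2
    exact Units.ext h2
  rw [hc, map_mul, hinv, map_inv, mul_inv_cancel]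

theorem blc_val_ne_zero (ω : IrrCharacter ↥(blCP P)) (c : ↥(blCP P))
    (hcP : (c : G) ∈ (P : Subgroup G)) : ω.1 c ≠ 0 := by
  obtain ⟨cc, hcc0, hcc⟩ := bl_central ω c (blc_central_mem p P c hcP)
  have h := hcc 1
  rw [mul_one] at h
  rw [h]
  exact mul_ne_zero hcc0 (irr_one_ne_zero ω)

theorem blc_tw
    {k : ℕ} (hk : Nat.card ↥(blCP P) = Nat.card P * k) (hcop : k.Coprime (Nat.card P))
    (κ : ↥(blCP P) →* ℂˣ) (hκ : κ ∈ blL (blCP P) (Nat.card P))
    (ω : IrrCharacter ↥(blCP P)) (h : κ • ω = ω) : κ = 1 := by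
  apply blc_L_trivial p P hk hcop κ ((mem_blL _ _ κ).mp hκ)
  intro c hcP
  have h1 := blc_val_ne_zero p P ω c hcP
  have h2 : ((κ c : ℂˣ) : ℂ) * ω.1 c = ω.1 c := congrFun (congrArg Subtype.val h) c
  have h3 : (((κ c : ℂˣ) : ℂ) - 1) * ω.1 c = 0 := by rw [sub_mul, one_mul, h2, sub_self]
  rcases mul_eq_zero.mp h3 with h4 | h4
  · exact Units.val_eq_one.mp (sub_eq_zero.mp h4)
  · exact absurd h4 h1

theorem blc_nf_val
    (hstar : ∀ x ∈ (P : Subgroup G), x ≠ 1 → Subgroup.centralizer ({x} : Set G) =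
      Subgroup.centralizer ((P : Subgroup G) : Set G))
    (ω₀ : IrrCharacter ↥(blCP P)) (hnf : ¬ blFree (blCP P) ω₀) :
    ∀ c : ↥(blCP P), (c : G) ∈ (P : Subgroup G) → ω₀.1 c = ω₀.1 1 := by
  unfold blFree at hnf
  push Not at hnf
  obtain ⟨x, hx, hxC⟩ := hnf
  intro c hcP
  obtain ⟨y₀, hy₀, hc⟩ := blc_surj' p P hstar x hxC c hcP
  have hzP := blc_aut_mem p P hstar x⁻¹ y₀ hy₀
  obtain ⟨c₀, _, h₀⟩ := bl_central ω₀ y₀ (blc_central_mem p P y₀ hy₀)
  obtain ⟨cz, _, hz⟩ := bl_central ω₀ (blAut (blCP P) x⁻¹ y₀) (blc_central_mem p P _ hzP)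
  have h1 : ω₀.1 (blAut (blCP P) x⁻¹ y₀) = ω₀.1 y₀ := congrFun (congrArg Subtype.val hx) y₀
  have h2 : cz = c₀ := by
    have e1 := hz 1
    have e2 := h₀ 1
    rw [mul_one] at e1 e2
    rw [e1, e2] at h1
    exact mul_right_cancel₀ (irr_one_ne_zero ω₀) h1
  rw [hc, hz, h2, ← h₀, mul_inv_cancel]

theorem blc_nf
    (hstar : ∀ x ∈ (P : Subgroup G), x ≠ 1 → Subgroup.centralizer ({x} : Set G) =
      Subgroup.centralizer ((P : Subgroup G) : Set G))
    {k : ℕ} (hk : Nat.card ↥(blCP P) = Nat.card P * k) (hcop : k.Coprime (Nat.card P))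
    (ω : IrrCharacter ↥(blCP P))
    (κ : ↥(blCP P) →* ℂˣ) (hκ : κ ∈ blL (blCP P) (Nat.card P))
    (κ' : ↥(blCP P) →* ℂˣ) (hκ' : κ' ∈ blL (blCP P) (Nat.card P))
    (h1 : ¬ blFree (blCP P) (κ • ω)) (h2 : ¬ blFree (blCP P) (κ' • ω)) : κ = κ' := by
  have h3 := blc_nf_val p P hstar _ h1
  have h4 := blc_nf_val p P hstar _ h2
  have h5 : κ * κ'⁻¹ = 1 := by
    apply blc_L_trivial p P hk hcop _
      ((mem_blL _ _ _).mp ((blL _ _).mul_mem hκ ((blL _ _).inv_mem hκ')))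
    intro c hcP
    have hω := blc_val_ne_zero p P ω c hcP
    have e1 : ((κ c : ℂˣ) : ℂ) * ω.1 c = ((κ 1 : ℂˣ) : ℂ) * ω.1 1 := h3 c hcP
    have e2 : ((κ' c : ℂˣ) : ℂ) * ω.1 c = ((κ' 1 : ℂˣ) : ℂ) * ω.1 1 := h4 c hcP
    rw [map_one, Units.val_one, one_mul] at e1 e2
    have e3 : ((κ c : ℂˣ) : ℂ) = ((κ' c : ℂˣ) : ℂ) := mul_right_cancel₀ hω (e1.trans e2.symm)
    rw [MonoidHom.mul_apply, MonoidHom.inv_apply, Units.ext e3, mul_inv_cancel]
  exact mul_inv_eq_one.mp h5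

theorem blc_h6
    (hstar : ∀ x ∈ (P : Subgroup G), x ≠ 1 → Subgroup.centralizer ({x} : Set G) =
      Subgroup.centralizer ((P : Subgroup G) : Set G))
    (hNC : Subgroup.normalClosure ((P : Subgroup G) : Set G) = ⊤)
    (θ : IrrCharacter G) (hθ1 : θ.1 ≠ fun _ => 1) :
    ∃ ω : IrrCharacter ↥(blCP P), blFree (blCP P) ω ∧ blm (blCP P) θ.1 ω ≠ 0 := by
  by_contra hno
  push Not at hno
  have hθc := isCharacter_of_isIrrCharacter θ.2
  have hPC := blc_le p P hstar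
  have hP : ∀ y ∈ (P : Subgroup G), θ.1 y = θ.1 1 := by
    intro y hy
    have h1 := classFunction_eq_sum_irr (fun c : ↥(blCP P) => θ.1 c)
      (isCharacter_isClassFunction (isCharacter_restrict (blCP P) hθc))
    have h2 := congrFun h1 ⟨y, hPC hy⟩
    have h3 := congrFun h1 1
    simp only [Finset.sum_apply, Pi.smul_apply, smul_eq_mul] at h2 h3
    have h4 : ∀ ω : IrrCharacter ↥(blCP P),
        classInner (fun c : ↥(blCP P) => θ.1 c) ω.1 * ω.1 ⟨y, hPC hy⟩ =
        classInner (fun c : ↥(blCP P) => θ.1 c) ω.1 * ω.1 1 := by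
      intro ω
      by_cases hf : blFree (blCP P) ω
      · rw [blm_spec (blCP P) hθc ω, hno ω hf, Nat.cast_zero, zero_mul, zero_mul]
      · rw [blc_nf_val p P hstar ω hf ⟨y, hPC hy⟩ hy]
    have h5 : θ.1 y = θ.1 ((1 : ↥(blCP P)) : G) := by
      rw [h2, h3]
      exact Finset.sum_congr rfl (fun ω _ => h4 ω)
    rw [h5, Subgroup.coe_one]
  obtain ⟨n, ρ, hρ, hχ⟩ := θ.2
  have hker : ∀ g : G, θ.1 g = θ.1 1 ↔ ρ g = LinearMap.id := by
    intro g
    rw [← hχ, Representation.char_one]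
    exact char_eq_finrank_iff ρ g
  have hle : ((P : Subgroup G) : Set G) ⊆ MonoidHom.ker ρ :=
    fun y hy => MonoidHom.mem_ker.mpr ((hker y).mp (hP y hy))
  have htop : Subgroup.normalClosure ((P : Subgroup G) : Set G) ≤ MonoidHom.ker ρ :=
    Subgroup.normalClosure_le_normal hle
  rw [hNC] at htop
  have hall : ∀ g : G, θ.1 g = θ.1 1 :=
    fun g => (hker g).mpr (MonoidHom.mem_ker.mp (htop (Subgroup.mem_top g)))
  have hθeq : θ = ⟨fun _ => 1, isIrrCharacter_one⟩ := by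
    by_contra hne'
    have h0 := irr_inner_ne hne'
    have h1 : classInner θ.1 (fun _ : G => (1 : ℂ)) = θ.1 1 := by
      rw [classInner_def', Finset.sum_congr rfl (fun g _ => by rw [hall g, map_one, mul_one]),
        Finset.sum_const, Finset.card_univ, ← Nat.card_eq_fintype_card, nsmul_eq_mul]
      have hG : (Nat.card G : ℂ) ≠ 0 := Nat.cast_ne_zero.mpr Nat.card_pos.ne'
      field_simp
    exact irr_one_ne_zero θ (h1.symm.trans h0)
  exact hθ1 (congrArg Subtype.val hθeq)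

theorem blc_card_L
    (hstar : ∀ x ∈ (P : Subgroup G), x ≠ 1 → Subgroup.centralizer ({x} : Set G) =
      Subgroup.centralizer ((P : Subgroup G) : Set G)) :
    Nat.card P ≤ Nat.card ↥(blL (blCP P) (Nat.card P)) := by
  have hPC := blc_le p P hstar
  obtain ⟨P', hP'⟩ : ∃ P' : Sylow p ↥(blCP P),
      (P' : Subgroup ↥(blCP P)) = (P : Subgroup G).subgroupOf (blCP P) :=
    ⟨P.subtype hPC, Sylow.coe_subtype P hPC⟩
  have hcardP' : Nat.card ↥(P' : Subgroup ↥(blCP P)) = Nat.card P := by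
    rw [hP']
    exact Nat.card_congr (Subgroup.subgroupOfEquivOfLe hPC).toEquiv
  have hmemP' : ∀ h : ↥(blCP P), h ∈ (P' : Subgroup ↥(blCP P)) ↔ (h : G) ∈ (P : Subgroup G) := by
    intro h
    rw [hP', Subgroup.mem_subgroupOf]
  have hNC' : Subgroup.normalizer ((P' : Subgroup ↥(blCP P)) : Set ↥(blCP P)) ≤
      Subgroup.centralizer ((P' : Subgroup ↥(blCP P)) : Set ↥(blCP P)) := by
    intro c _
    rw [Subgroup.mem_centralizer_iff]
    intro h hh
    exact Subtype.ext (Subgroup.mem_centralizer_iff.mp c.2 h.1 ((hmemP' h).mp hh))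
  obtain ⟨τ, hτ⟩ : ∃ τ : ↥(blCP P) →* ↥(P' : Subgroup ↥(blCP P)),
      τ = MonoidHom.transferSylow P' hNC' := ⟨_, rfl⟩
  have hcompl : Subgroup.IsComplement' τ.ker (P' : Subgroup ↥(blCP P)) := by
    rw [hτ]
    exact MonoidHom.ker_transferSylow_isComplement' P' hNC'
  have hsurj : Function.Surjective τ := by
    have h1 := hcompl.card_mul_card
    have h2 := Subgroup.card_mul_index τ.ker
    rw [Subgroup.index_ker] at h2
    have h3 : Nat.card ↥τ.range = Nat.card ↥(P' : Subgroup ↥(blCP P)) :=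
      Nat.eq_of_mul_eq_mul_left Nat.card_pos (h2.trans h1.symm)
    have h4 : τ.range = ⊤ := Subgroup.eq_top_of_card_eq _ h3
    exact MonoidHom.range_eq_top.mp h4
  have hab : ∀ a b : ↥(P' : Subgroup ↥(blCP P)), a * b = b * a := by
    intro a b
    apply Subtype.ext
    apply Subtype.ext
    exact Subgroup.mem_centralizer_iff.mp (hPC ((hmemP' b.1).mp b.2)) a.1.1
      ((hmemP' a.1).mp a.2)
  have hq : ∀ y : ↥(P' : Subgroup ↥(blCP P)), y ^ Nat.card P = 1 := by
    intro y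
    rw [← hcardP']
    exact pow_card_eq_one'
  letI : CommGroup ↥(P' : Subgroup ↥(blCP P)) :=
    { (inferInstance : Group ↥(P' : Subgroup ↥(blCP P))) with mul_comm := hab }
  haveI : NeZero ((Monoid.exponent ↥(P' : Subgroup ↥(blCP P)) : ℕ) : ℂ) :=
    ⟨Nat.cast_ne_zero.mpr Monoid.exponent_ne_zero_of_finite⟩
  have hdual := CommGroup.card_monoidHom_of_hasEnoughRootsOfUnity
    ↥(P' : Subgroup ↥(blCP P)) ℂ
  have hinj : Function.Injective (fun lam : ↥(P' : Subgroup ↥(blCP P)) →* ℂˣ =>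
      (⟨lam.comp τ, fun c => by
        show lam (τ c) ^ Nat.card P = 1
        rw [← map_pow, hq, map_one]⟩ : ↥(blL (blCP P) (Nat.card P)))) := by
    intro l1 l2 h
    have h1 : l1.comp τ = l2.comp τ := congrArg Subtype.val h
    exact (MonoidHom.cancel_right hsurj).mp h1
  have h7 := Nat.card_le_card_of_injective _ hinj
  rw [hdual, hcardP'] at h7
  exact h7

theorem blc_hyp
    (hstar : ∀ x ∈ (P : Subgroup G), x ≠ 1 → Subgroup.centralizer ({x} : Set G) =
      Subgroup.centralizer ((P : Subgroup G) : Set G)) :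
    BLHyp (blCP P) (blL (blCP P) (Nat.card P))
      (Nat.card ↥(blN (blCP P)) / Nat.card ↥(blCP P)) := by
  have hPC := blc_le p P hstar
  obtain ⟨k, hk, hcop⟩ := blc_card p P hPC
  refine ⟨?_, ?_, ?_, ?_, ?_, ?_⟩
  · intro g a ha hga
    have hex : ∃ κ ∈ blL (blCP P) (Nat.card P), κ a ≠ 1 := by
      by_contra hno
      push Not at hno
      exact ha hno
    obtain ⟨κ, hκ, hκa⟩ := hex
    have hy : (a : G) ^ k ∈ (P : Subgroup G) := blc_pow_mem p P hk a.1 a.2
    have hy1 : (a : G) ^ k ≠ 1 := by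
      intro h1
      apply hκa
      have h2 : κ a ^ k = 1 := by
        rw [← map_pow]
        have h3 : a ^ k = 1 := Subtype.ext (by rw [Subgroup.coe_pow, h1]; rfl)
        rw [h3, map_one]
      have d1 := orderOf_dvd_of_pow_eq_one h2
      have d2 := orderOf_dvd_of_pow_eq_one ((mem_blL _ _ κ).mp hκ a)
      have h4 := Nat.dvd_gcd d1 d2
      rw [hcop.gcd_eq_one] at h4
      exact orderOf_eq_one_iff.mp (Nat.dvd_one.mp h4)
    have hy' : g * (a : G) ^ k * g⁻¹ ∈ (P : Subgroup G) := by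
      rw [← conj_pow]
      exact blc_pow_mem p P hk _ hga
    exact blc_ti_aux p P hstar _ g hy hy1 hy'
  · exact (Nat.div_mul_cancel (Subgroup.card_dvd_of_le (bl_le (blCP P)))).symm
  · intro x κ hκ c
    exact hκ _
  · intro κ hκ ω h
    exact blc_tw p P hk hcop κ hκ ω h
  · intro ω κ hκ κ' hκ' h1 h2
    exact blc_nf p P hstar hk hcop ω κ hκ κ' hκ' h1 h2
  · intro κ hκ h1
    exact blc_lin p P hstar hk hcop κ hκ h1

theorem blc_e_ge (hNe : ∃ x ∈ blN (blCP P), x ∉ blCP P) :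
    2 ≤ Nat.card ↥(blN (blCP P)) / Nat.card ↥(blCP P) := by
  obtain ⟨x, hxN, hxC⟩ := hNe
  by_contra hlt
  push Not at hlt
  have h1 := Nat.div_mul_cancel (Subgroup.card_dvd_of_le (bl_le (blCP P)))
  have h2 : Nat.card ↥(blN (blCP P)) ≤ Nat.card ↥(blCP P) := by
    have h3 : Nat.card ↥(blN (blCP P)) / Nat.card ↥(blCP P) ≤ 1 := by omega
    calc Nat.card ↥(blN (blCP P)) =
          Nat.card ↥(blN (blCP P)) / Nat.card ↥(blCP P) * Nat.card ↥(blCP P) := h1.symm
      _ ≤ 1 * Nat.card ↥(blCP P) := Nat.mul_le_mul_right _ h3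
      _ = Nat.card ↥(blCP P) := one_mul _
  have h4 := Subgroup.eq_of_le_of_card_ge (bl_le (blCP P)) h2
  exact hxC (h4 ▸ hxN)

/-- **The engine, concretely.** -/
theorem bl_concrete
    (hstar : ∀ x ∈ (P : Subgroup G), x ≠ 1 → Subgroup.centralizer ({x} : Set G) =
      Subgroup.centralizer ((P : Subgroup G) : Set G))
    (hNC : Subgroup.normalClosure ((P : Subgroup G) : Set G) = ⊤)
    (hNe : ∃ x ∈ blN (blCP P), x ∉ blCP P)
    (ψ : IrrCharacter G) (hψ1 : ψ.1 ≠ fun _ => 1)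
    (hd : charDegree ψ.1 ^ 2 + 1 < Nat.card P) : False := by
  haveI : Fintype ↥(blL (blCP P) (Nat.card P)) := Fintype.ofFinite _
  have H := blc_hyp p P hstar
  have he2 := blc_e_ge p P hNe
  have hcard : Nat.card P ≤ Fintype.card ↥(blL (blCP P) (Nat.card P)) := by
    rw [← Nat.card_eq_fintype_card]
    exact blc_card_L p P hstar
  exact bl_engine (blCP P) (blL (blCP P) (Nat.card P)) H he2 (blc_h6 p P hstar hNC) ψ hψ1
    (lt_of_lt_of_le hd hcard)

end BLC

end Cfsg.Agent.Helper24
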