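import Cfsg.Agent.Helper24.BL7

/-!
# The Brauer–Leonard theorem: a Sylow subgroup with uniform centralizers is normal if the
group has a faithful character of small degree
-/

set_option autoImplicit false

namespace Cfsg.Agent.Helper24

open Cfsg Cfsg.Agent.Helper22
open scoped Classical

universe u

theorem bl_exists_constituent {G : Type u} [Group G] [Fintype G] {χ : G → ℂ}
    (hχ : IsCharacter G χ) (x : G) (hx : χ x ≠ χ 1) :
    ∃ ψ : IrrCharacter G, ψ.1 ≠ (fun _ => 1) ∧ charDegree ψ.1 ≤ charDegree χ := by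
  have hk := fun θ : IrrCharacter G => isCharacter_inner_irr hχ θ
  choose k hk using hk
  have hsum := classFunction_eq_sum_irr χ (isCharacter_isClassFunction hχ)
  simp only [hk] at hsum
  obtain ⟨oneG, hoG⟩ : ∃ o : IrrCharacter G, o = ⟨fun _ => 1, isIrrCharacter_one⟩ := ⟨_, rfl⟩
  have hoG1 : oneG.1 = fun _ => 1 := by rw [hoG]
  have hex : ∃ ψ : IrrCharacter G, ψ ≠ oneG ∧ k ψ ≠ 0 := by
    by_contra hno
    push Not at hno
    apply hx
    have hval : ∀ g : G, χ g = (k oneG : ℂ) := by
      intro g
      have h1 := congrFun hsum g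
      rw [Finset.sum_apply, Finset.sum_eq_single oneG
        (fun θ _ hne => by rw [hno θ hne]; simp)
        (fun h => absurd (Finset.mem_univ _) h)] at h1
      rw [h1, Pi.smul_apply, hoG1, smul_eq_mul, mul_one]
    rw [hval x, hval 1]
  obtain ⟨ψ, hψne, hkψ⟩ := hex
  refine ⟨ψ, fun h => hψne (Subtype.ext (h.trans hoG1.symm)), ?_⟩
  have h1 := congrFun hsum 1
  rw [Finset.sum_apply] at h1
  have h2 : ∀ θ : IrrCharacter G, ((k θ : ℂ) • θ.1) 1 = ((k θ * charDegree θ.1 : ℕ) : ℂ) := by
    intro θ
    rw [Pi.smul_apply, smul_eq_mul, (irr_charDegree_spec θ).1]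
    push_cast
    rfl
  rw [Finset.sum_congr rfl (fun θ _ => h2 θ), ← Nat.cast_sum] at h1
  rw [charDegree_of_eq h1]
  calc charDegree ψ.1 ≤ k ψ * charDegree ψ.1 :=
        Nat.le_mul_of_pos_left _ (Nat.pos_of_ne_zero hkψ)
    _ ≤ ∑ θ : IrrCharacter G, k θ * charDegree θ.1 :=
        Finset.single_le_sum (f := fun θ => k θ * charDegree θ.1) (fun _ _ => Nat.zero_le _)
          (Finset.mem_univ ψ)

theorem bl_main_aux (n : ℕ) : ∀ (G : Type u) [Group G] [Finite G], Nat.card G ≤ n →
    ∀ (p : ℕ) [Fact p.Prime] (P : Sylow p G),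
    (∀ x ∈ (P : Subgroup G), x ≠ 1 → Subgroup.centralizer ({x} : Set G) =
      Subgroup.centralizer ((P : Subgroup G) : Set G)) →
    ∀ (χ : G → ℂ), IsCharacter G χ → (∀ g : G, χ g = χ 1 → g = 1) →
    charDegree χ ^ 2 + 1 < Nat.card P → (P : Subgroup G).Normal := by
  induction n with
  | zero =>
    intro G _ _ hn
    have := Nat.card_pos (α := G)
    omega
  | succ n ih =>
    intro G _ _ hn p _ P hstar χ hχ hfaith hdeg
    haveI : Fintype G := Fintype.ofFinite G
    by_cases hM : Subgroup.normalClosure ((P : Subgroup G) : Set G) = ⊤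
    · by_cases hNe : ∃ x ∈ blN (blCP P), x ∉ blCP P
      · exfalso
        obtain ⟨x, hxN, hxC⟩ := hNe
        have hx1 : x ≠ 1 := fun h => hxC (h ▸ one_mem _)
        obtain ⟨ψ, hψ1, hψd⟩ := bl_exists_constituent hχ x (fun h => hx1 (hfaith x h))
        have h2 : charDegree ψ.1 ^ 2 ≤ charDegree χ ^ 2 := Nat.pow_le_pow_left hψd 2
        exact bl_concrete p P hstar hM ⟨x, hxN, hxC⟩ ψ hψ1 (by omega)
      · push Not at hNe
        have hNCle : Subgroup.normalizer ((P : Subgroup G) : Set G) ≤
            Subgroup.centralizer ((P : Subgroup G) : Set G) :=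
          fun x hx => hNe x (blc_norm_le p P hx)
        obtain ⟨τ, hτ⟩ : ∃ τ : G →* ↥(P : Subgroup G), τ = MonoidHom.transferSylow P hNCle :=
          ⟨_, rfl⟩
        have hpK : ¬ p ∣ Nat.card τ.ker := by
          rw [hτ]
          exact MonoidHom.not_dvd_card_ker_transferSylow P hNCle
        have hcompl : Subgroup.IsComplement' τ.ker (P : Subgroup G) := by
          rw [hτ]
          exact MonoidHom.ker_transferSylow_isComplement' P hNCle
        have hcent := ti_core p χ hχ hfaith (P : Subgroup G) P.isPGroup' (by omega)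
          (Nat.card τ.ker) τ.ker le_rfl hpK
          (fun y _ u hu => (MonoidHom.normal_ker τ).conj_mem u hu y)
          (fun x hx hx1 c _ hxc y hy => by
            have h1 : c ∈ Subgroup.centralizer ({x} : Set G) := (bl_mem_cent_single x c).mpr hxc
            rw [hstar x hx hx1] at h1
            exact Subgroup.mem_centralizer_iff.mp h1 y hy)
        refine ⟨fun y hy g => ?_⟩
        obtain ⟨⟨⟨k, hk⟩, ⟨z, hz⟩⟩, hkz⟩ := (Subgroup.isComplement'_def.mp hcompl).2 g
        have hg : g = k * z := hkz.symm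
        have hzy : z * y * z⁻¹ ∈ (P : Subgroup G) := mul_mem (mul_mem hz hy) (inv_mem hz)
        have hcomm := hcent _ hzy k hk
        have h3 : g * y * g⁻¹ = z * y * z⁻¹ := by
          rw [hg]
          calc k * z * y * (k * z)⁻¹ = k * (z * y * z⁻¹) * k⁻¹ := by group
            _ = (z * y * z⁻¹) * k * k⁻¹ := by rw [← hcomm]
            _ = z * y * z⁻¹ := by group
        rw [h3]
        exact hzy
    · obtain ⟨M, hMdef⟩ : ∃ M : Subgroup G,
          M = Subgroup.normalClosure ((P : Subgroup G) : Set G) := ⟨_, rfl⟩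
      rw [← hMdef] at hM
      haveI hMn : M.Normal := by
        rw [hMdef]
        exact Subgroup.normalClosure_normal
      have hPM : (P : Subgroup G) ≤ M := by
        rw [hMdef]
        exact Subgroup.subset_normalClosure
      have hMcard : Nat.card ↥M ≤ n := by
        have h1 : Nat.card ↥M < Nat.card G := by
          by_contra h
          push Not at h
          exact hM (Subgroup.eq_top_of_le_card M h)
        omega
      obtain ⟨PM, hPMdef⟩ : ∃ PM : Sylow p ↥M,
          (PM : Subgroup ↥M) = (P : Subgroup G).subgroupOf M :=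
        ⟨P.subtype hPM, Sylow.coe_subtype P hPM⟩
      have hmemPM : ∀ m : ↥M, m ∈ (PM : Subgroup ↥M) ↔ (m : G) ∈ (P : Subgroup G) := by
        intro m
        rw [hPMdef, Subgroup.mem_subgroupOf]
      have hcardPM : Nat.card ↥(PM : Subgroup ↥M) = Nat.card P := by
        rw [hPMdef]
        exact Nat.card_congr (Subgroup.subgroupOfEquivOfLe hPM).toEquiv
      have hstarM : ∀ x ∈ (PM : Subgroup ↥M), x ≠ 1 → Subgroup.centralizer ({x} : Set ↥M) =
          Subgroup.centralizer ((PM : Subgroup ↥M) : Set ↥M) := by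
        intro x hx hx1
        have hxP := (hmemPM x).mp hx
        have hx1' : (x : G) ≠ 1 := fun h => hx1 (Subtype.ext h)
        have hc := hstar _ hxP hx1'
        ext m
        rw [bl_mem_cent_single, Subgroup.mem_centralizer_iff]
        constructor
        · intro h y hy
          have h1 : (m : G) ∈ Subgroup.centralizer ({(x : G)} : Set G) :=
            (bl_mem_cent_single _ _).mpr (congrArg Subtype.val h)
          rw [hc] at h1
          exact Subtype.ext (Subgroup.mem_centralizer_iff.mp h1 y.1 ((hmemPM y).mp hy))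
        · intro h
          have h1 : (m : G) ∈ Subgroup.centralizer ((P : Subgroup G) : Set G) := by
            rw [Subgroup.mem_centralizer_iff]
            intro y hy
            exact congrArg Subtype.val (h ⟨y, hPM hy⟩ ((hmemPM _).mpr hy))
          rw [← hc] at h1
          exact Subtype.ext ((bl_mem_cent_single _ _).mp h1)
      have hN := ih ↥M hMcard p PM hstarM (fun m : ↥M => χ m) (isCharacter_restrict M hχ)
        (fun m hm => Subtype.ext (hfaith m hm)) (by rw [hcardPM]; exact hdeg)
      have hchar : (PM : Subgroup ↥M).Characteristic := Sylow.characteristic_of_normal PM hN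
      refine ⟨fun y hy g => ?_⟩
      have h1 := hchar.fixed (MulAut.conjNormal g : ↥M ≃* ↥M)
      have h2 : (⟨y, hPM hy⟩ : ↥M) ∈ (PM : Subgroup ↥M) := (hmemPM _).mpr hy
      rw [← h1, Subgroup.mem_comap] at h2
      have h3 := (hmemPM _).mp h2
      have h4 : ((MulAut.conjNormal g (⟨y, hPM hy⟩ : ↥M) : ↥M) : G) = g * y * g⁻¹ :=
        MulAut.conjNormal_apply g _
      rw [← h4]
      exact h3

/-- **Brauer–Leonard.** -/
theorem bl_main {G : Type u} [Group G] [Finite G] (p : ℕ) [Fact p.Prime] (P : Sylow p G)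
    (hstar : ∀ x ∈ (P : Subgroup G), x ≠ 1 → Subgroup.centralizer ({x} : Set G) =
      Subgroup.centralizer ((P : Subgroup G) : Set G))
    (χ : G → ℂ) (hχ : IsCharacter G χ) (hfaith : ∀ g : G, χ g = χ 1 → g = 1)
    (hdeg : charDegree χ ^ 2 + 1 < Nat.card P) : (P : Subgroup G).Normal :=
  bl_main_aux (Nat.card G) G le_rfl p P hstar χ hχ hfaith hdeg

end Cfsg.Agent.Helper24
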