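import Cfsg.Agent.Helper24.BL8

/-!
# Brauer–Leonard engine, part 9: the case `N(C) = C` (the character is linear)
-/

set_option autoImplicit false

namespace Cfsg.Agent.Helper24

open Cfsg Cfsg.Agent.Helper22
open scoped Classical

universe u

section BL
variable {G : Type u} [Group G] [Fintype G] (C : Subgroup G) (L : Subgroup (↥C →* ℂˣ))
  [Fintype ↥L]

theorem bl_partI' {e : ℕ} (H : BLHyp C L e) (ψ : IrrCharacter G)
    (hd : charDegree ψ.1 ^ 2 + 1 < Fintype.card ↥L)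
    (hD : charDegree ψ.1 + e + 2 ≤ Fintype.card ↥L) (ω₁ : IrrCharacter ↥C)
    (hf1 : blFree C ω₁) (hm1 : blm C ψ.1 ω₁ ≠ 0) :
    ∀ ω : IrrCharacter ↥C, blm C ψ.1 ω = if ω ∈ blOrb C ω₁ then 1 else 0 := by
  have hψc := isCharacter_of_isIrrCharacter ψ.2
  have hcf := isCharacter_isClassFunction hψc
  have hcard : (blOrb C ω₁).card = e := blOrb_card C H.card hf1
  have horb := bl_orb_props C hcf ω₁ hf1
  have hm11 : blm C ψ.1 ω₁ = 1 := bl_G_a C L H ψ hD ω₁ hf1 hm1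
  have hz : ∀ ω ∈ blOrb C ω₁, Fintype.card ↥L ≤ blz C L ψ.1 ω + (e + 1) := by
    intro ω hω
    have h := bl_G_c C L H ψ hD ω (horb ω hω).1 (by rw [(horb ω hω).2]; exact hm1)
    omega
  have hSz := bl_orb_z_sum C L H ψ ω₁ hf1 (e + 1) hz
  intro ω
  by_cases hω : ω ∈ blOrb C ω₁
  · rw [if_pos hω, (horb ω hω).2, hm11]
  · rw [if_neg hω]
    by_contra hne
    have hd1 : e + 1 ≤ charDegree ψ.1 := by
      have h := bl_card_le_deg C ψ (insert ω (blOrb C ω₁)) (fun ω' hω' => by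
        rcases Finset.mem_insert.mp hω' with h | h
        · rw [h]; exact hne
        · rw [(horb ω' h).2]; exact hm1)
      rwa [Finset.card_insert_of_notMem hω, hcard] at h
    have hz' := bl_z_ge C L H ψ ω
    have hstar := bl_star C L H ψ
    have h1 : ∑ ω' ∈ insert ω (blOrb C ω₁), blm C ψ.1 ω' ^ 2 * blz C L ψ.1 ω' ≤
        ∑ ω' : IrrCharacter ↥C, blm C ψ.1 ω' ^ 2 * blz C L ψ.1 ω' :=
      Finset.sum_le_sum_of_subset (Finset.subset_univ _)
    rw [Finset.sum_insert hω] at h1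
    have h2 : ∑ ω' ∈ blOrb C ω₁, blm C ψ.1 ω' ^ 2 * blz C L ψ.1 ω' =
        ∑ ω' ∈ blOrb C ω₁, blz C L ψ.1 ω' :=
      Finset.sum_congr rfl (fun ω' hω' => by rw [(horb ω' hω').2, hm11, one_pow, one_mul])
    rw [h2] at h1
    have h3 : blz C L ψ.1 ω ≤ blm C ψ.1 ω ^ 2 * blz C L ψ.1 ω :=
      Nat.le_mul_of_pos_left _ (Nat.pos_of_ne_zero (pow_ne_zero 2 hne))
    have h4 := Nat.mul_le_mul_left (charDegree ψ.1) hd1
    have h5 := Nat.mul_le_mul_right e hd1
    nlinarith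

end BL

section Z
variable {G : Type u} [Group G] {V : Type*} [AddCommGroup V] [Module ℂ V]

/-- The elements acting centrally in a representation. -/
def blZ (ρ : Representation ℂ G V) : Subgroup G where
  carrier := {g | ∀ h : G, ρ g * ρ h = ρ h * ρ g}
  mul_mem' := by
    intro a b ha hb h
    show ρ (a * b) * ρ h = ρ h * ρ (a * b)
    rw [map_mul, mul_assoc, hb h, ← mul_assoc, ha h, mul_assoc]
  one_mem' := by
    intro h
    show ρ 1 * ρ h = ρ h * ρ 1
    rw [map_one, one_mul, mul_one]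
  inv_mem' := by
    intro a ha h
    show ρ a⁻¹ * ρ h = ρ h * ρ a⁻¹
    have h1 : ρ a⁻¹ * ρ a = 1 := by rw [← map_mul, inv_mul_cancel, map_one]
    have h2 : ρ a * ρ a⁻¹ = 1 := by rw [← map_mul, mul_inv_cancel, map_one]
    calc ρ a⁻¹ * ρ h = ρ a⁻¹ * ρ h * (ρ a * ρ a⁻¹) := by rw [h2, mul_one]
      _ = ρ a⁻¹ * (ρ h * ρ a) * ρ a⁻¹ := by simp only [mul_assoc]
      _ = ρ a⁻¹ * (ρ a * ρ h) * ρ a⁻¹ := by rw [ha h]
      _ = (ρ a⁻¹ * ρ a) * ρ h * ρ a⁻¹ := by simp only [mul_assoc]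
      _ = ρ h * ρ a⁻¹ := by rw [h1, one_mul]

theorem mem_blZ (ρ : Representation ℂ G V) (g : G) :
    g ∈ blZ ρ ↔ ∀ h : G, ρ g * ρ h = ρ h * ρ g := Iff.rfl

instance blZ_normal (ρ : Representation ℂ G V) : (blZ ρ).Normal := by
  constructor
  intro g hg x
  rw [mem_blZ] at hg ⊢
  intro h
  have h1 : ρ (x * g * x⁻¹) = ρ g := by
    rw [map_mul, map_mul, ← hg x, mul_assoc, ← map_mul, mul_inv_cancel, map_one, mul_one]
  rw [h1]
  exact hg h

end Z

theorem bl_linear_of_e1 {G : Type u} [Group G] [Fintype G] (p : ℕ) [hp : Fact p.Prime]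
    (P : Sylow p G)
    (hstar : ∀ x ∈ (P : Subgroup G), x ≠ 1 → Subgroup.centralizer ({x} : Set G) =
      Subgroup.centralizer ((P : Subgroup G) : Set G))
    (hNC : Subgroup.normalClosure ((P : Subgroup G) : Set G) = ⊤)
    (hN1 : ∀ x ∈ blN (blCP P), x ∈ blCP P)
    (χ : IrrCharacter G) (hχ1 : χ.1 ≠ fun _ => 1)
    (hd : charDegree χ.1 ^ 2 + 1 < Nat.card P) : charDegree χ.1 = 1 := by
  by_contra hne
  have hd0 := (irr_charDegree_spec χ).2.1
  have hd2 : 2 ≤ charDegree χ.1 := by omega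
  haveI : Fintype ↥(blL (blCP P) (Nat.card P)) := Fintype.ofFinite _
  have H := blc_hyp p P hstar
  have hNeq : blN (blCP P) = blCP P := le_antisymm (fun x hx => hN1 x hx) (bl_le (blCP P))
  have he : Nat.card ↥(blN (blCP P)) / Nat.card ↥(blCP P) = 1 := by
    rw [hNeq]; exact Nat.div_self Nat.card_pos
  rw [he] at H
  have hcard : Nat.card P ≤ Fintype.card ↥(blL (blCP P) (Nat.card P)) := by
    rw [← Nat.card_eq_fintype_card]
    exact blc_card_L p P hstar
  have hdL := lt_of_lt_of_le hd hcard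
  have hD : charDegree χ.1 + 1 + 2 ≤ Fintype.card ↥(blL (blCP P) (Nat.card P)) := by
    nlinarith
  obtain ⟨ω₁, hf1, hm1⟩ := blc_h6 p P hstar hNC χ hχ1
  have hI := bl_partI' (blCP P) (blL (blCP P) (Nat.card P)) H χ hdL hD ω₁ hf1 hm1
  have horb1 : (blOrb (blCP P) ω₁).card = 1 := blOrb_card (blCP P) H.card hf1
  have horb : ∀ ω, ω ∈ blOrb (blCP P) ω₁ ↔ ω = ω₁ := by
    obtain ⟨a, ha⟩ := Finset.card_eq_one.mp horb1
    intro ω
    have h1 := blOrb_self (blCP P) ω₁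
    rw [ha, Finset.mem_singleton] at h1 ⊢
    rw [h1]
  have hχc := isCharacter_of_isIrrCharacter χ.2
  have hres : ∀ c : ↥(blCP P), χ.1 c = ω₁.1 c := by
    intro c
    have h := classFunction_eq_sum_irr (fun c : ↥(blCP P) => χ.1 c)
      (isCharacter_isClassFunction (isCharacter_restrict (blCP P) hχc))
    have h1 := congrFun h c
    simp only [Finset.sum_apply, Pi.smul_apply, smul_eq_mul, blm_spec (blCP P) hχc] at h1
    rw [Finset.sum_eq_single ω₁
      (fun ω _ hne => by rw [hI ω, if_neg (fun hm => hne ((horb ω).mp hm))]; simp)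
      (fun h => absurd (Finset.mem_univ _) h)] at h1
    rw [hI ω₁, if_pos (blOrb_self _ ω₁)] at h1
    simpa using h1
  have hPC := blc_le p P hstar
  have hP : ∀ y ∈ (P : Subgroup G), ∃ cc : ℂ, ‖cc‖ = 1 ∧ χ.1 y = cc * χ.1 1 := by
    intro y hy
    obtain ⟨c, hc⟩ : ∃ c : ↥(blCP P), (c : G) = y := ⟨⟨y, hPC hy⟩, rfl⟩
    have hcP : (c : G) ∈ (P : Subgroup G) := by rw [hc]; exact hy
    obtain ⟨cc, hcc0, hcc⟩ := bl_central ω₁ c (blc_central_mem p P c hcP)
    have hpow : ∀ m : ℕ, ω₁.1 (c ^ m) = cc ^ m * ω₁.1 1 := by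
      intro m
      induction m with
      | zero => rw [pow_zero, pow_zero, one_mul]
      | succ m ih => rw [pow_succ', hcc, ih, pow_succ']; ring
    have h1 := hpow (Nat.card ↥(blCP P))
    rw [pow_card_eq_one'] at h1
    have h2 : cc ^ (Nat.card ↥(blCP P)) = 1 := by
      have h3 := irr_one_ne_zero ω₁
      have h4 : (cc ^ (Nat.card ↥(blCP P)) - 1) * ω₁.1 1 = 0 := by
        rw [sub_mul, one_mul, ← h1, sub_self]
      rcases mul_eq_zero.mp h4 with h5 | h5
      · exact sub_eq_zero.mp h5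
      · exact absurd h5 h3
    have hnorm : ‖cc‖ = 1 := by
      have h6 := congrArg norm h2
      rw [norm_pow, norm_one] at h6
      exact (pow_eq_one_iff_of_nonneg (norm_nonneg _) Nat.card_pos.ne').mp h6
    refine ⟨cc, hnorm, ?_⟩
    have h7 := hcc 1
    rw [mul_one] at h7
    have h8 := hres c
    have h9 := hres 1
    rw [hc] at h8
    rw [Subgroup.coe_one] at h9
    rw [h8, h7, h9]
  obtain ⟨n, ρ, hρ, hρχ⟩ := χ.2
  haveI : ρ.IsIrreducible := hρ
  have hfin : χ.1 1 = (Module.finrank ℂ (Fin n → ℂ) : ℂ) := by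
    rw [← hρχ, Representation.char_one]
  have hPZ : ((P : Subgroup G) : Set G) ⊆ blZ ρ := by
    intro y hy
    obtain ⟨cc, hnorm, hval⟩ := hP y hy
    have h1 : ρ y = cc • LinearMap.id :=
      eq_smul_id_of_trace_eq ρ y cc hnorm (by rw [hρχ, hval, hfin])
    show y ∈ blZ ρ
    rw [mem_blZ]
    intro h
    rw [h1]
    show (cc • (1 : Module.End ℂ (Fin n → ℂ))) * ρ h = ρ h * (cc • (1 : Module.End ℂ (Fin n → ℂ)))
    rw [smul_mul_assoc, mul_smul_comm, one_mul, mul_one]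
  have htop : blZ ρ = ⊤ := by
    apply top_le_iff.mp
    rw [← hNC]
    exact Subgroup.normalClosure_le_normal hPZ
  have hscal : ∀ g : G, ∃ ω : ℂ, ρ g = ω • (LinearMap.id : (Fin n → ℂ) →ₗ[ℂ] (Fin n → ℂ)) := by
    intro g
    have hg : g ∈ blZ ρ := by rw [htop]; exact Subgroup.mem_top g
    rw [mem_blZ] at hg
    exact ⟨_, eq_smul_of_comm_of_irreducible ρ (ρ g) (fun x => by
      show ρ g * ρ x = ρ x * ρ g
      exact hg x)⟩
  have hnormv : ∀ g : G, ‖χ.1 g‖ = (Module.finrank ℂ (Fin n → ℂ) : ℝ) := by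
    intro g
    rw [← hρχ]
    exact (norm_char_eq_finrank_iff ρ g).mpr (hscal g)
  have e1 : classInner χ.1 χ.1 =
      (((Nat.card G : ℝ)⁻¹ * ∑ g : G, Complex.normSq (χ.1 g) : ℝ) : ℂ) := by
    rw [classInner_def']
    push_cast
    congr 1
    exact Finset.sum_congr rfl fun g _ => Complex.mul_conj _
  rw [irr_inner_self] at e1
  have e2 : ∑ g : G, Complex.normSq (χ.1 g) =
      (Nat.card G : ℝ) * (Module.finrank ℂ (Fin n → ℂ) : ℝ) ^ 2 := by
    rw [Finset.sum_congr rfl (fun g _ => by rw [Complex.normSq_eq_norm_sq, hnormv g])]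
    rw [Finset.sum_const, Finset.card_univ, nsmul_eq_mul, Nat.card_eq_fintype_card]
  rw [e2] at e1
  have e3 : (1 : ℝ) = (Nat.card G : ℝ)⁻¹ *
      ((Nat.card G : ℝ) * (Module.finrank ℂ (Fin n → ℂ) : ℝ) ^ 2) := by exact_mod_cast e1
  have hG0 : (Nat.card G : ℝ) ≠ 0 := Nat.cast_ne_zero.mpr Nat.card_pos.ne'
  rw [← mul_assoc, inv_mul_cancel₀ hG0, one_mul] at e3
  have e4 : Module.finrank ℂ (Fin n → ℂ) = 1 := by
    have h5 : (Module.finrank ℂ (Fin n → ℂ)) ^ 2 = 1 := by exact_mod_cast e3.symm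
    rcases Nat.pow_eq_one.mp h5 with h | h
    · exact h
    · omega
  exact hne (charDegree_of_eq (by rw [hfin, e4]))

end Cfsg.Agent.Helper24
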