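import Cfsg.Agent.Helper24.BS2

/-!
# Brauer–Suzuki: the two exceptional characters (helper24)
-/

set_option autoImplicit false

namespace Cfsg.Agent.Helper24

open Cfsg

universe u

/-- The exceptional characters `χ₁, χ₂` attached to a Sylow `2`-subgroup `S` of order `2^(n+4)`
containing no central element of order `> 2`, an element `c` of order `2^(n+3)` and an element
`t₀` inverting `c`. -/
theorem bs_quat_core {G : Type u} [Group G] [Fintype G] (S : Sylow 2 G) (n : ℕ) (c t₀ : G)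
    (hc : orderOf c = 2 ^ (n + 3)) (ht₀ : t₀ * c * t₀⁻¹ = c⁻¹)
    (hS3 : ∀ y ∈ S, y ^ 2 ≠ 1 → ∃ s ∈ S, s * y ≠ y * s) (hScard : Nat.card S = 2 ^ (n + 4)) :
    ∃ χ₁ χ₂ : G → ℂ, IsIrrCharacter G χ₁ ∧ IsIrrCharacter G χ₂ ∧ χ₁ ≠ (fun _ => 1) ∧
      χ₂ ≠ (fun _ => 1) ∧ χ₁ 1 = χ₂ 1 + 1 ∧
      (∀ g : G, ¬ 4 ∣ orderOf g → χ₁ g - χ₂ g = 1) ∧
      (∀ i : ℕ, c ^ (2 * i) ≠ 1 → χ₁ (c ^ i) - χ₂ (c ^ i) ≠ 1) := by
  classical
  haveI : Fact (Nat.Prime 2) := ⟨Nat.prime_two⟩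
  obtain ⟨d, hd⟩ : ∃ d : G, d = c ^ (2 ^ (n + 1)) := ⟨_, rfl⟩
  have hd4 : orderOf d = 4 := by
    rw [hd, orderOf_pow_of_dvd (by positivity) (by rw [hc]; exact pow_dvd_pow 2 (by omega)), hc,
      Nat.pow_div (by omega) (by norm_num)]
    have h : n + 3 - (n + 1) = 2 := by omega
    rw [h]
  have hd2 : d ^ 2 ≠ 1 := by
    intro h
    have h2 := orderOf_dvd_of_pow_eq_one h
    rw [hd4] at h2
    have h3 := Nat.le_of_dvd (by norm_num) h2
    omega
  have hdne : d ≠ d⁻¹ := by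
    intro h
    apply hd2
    rw [sq]
    nth_rewrite 2 [h]
    exact mul_inv_cancel d
  have hcd : Commute c d := by rw [hd]; exact (Commute.refl c).pow_right _
  have ht₀s : SemiconjBy t₀ d d⁻¹ := by
    have h1 : t₀ * d * t₀⁻¹ = d⁻¹ := by rw [hd, ← inv_pow, ← ht₀, conj_pow]
    exact mul_inv_eq_iff_eq_mul.mp h1
  have hnotboth : ∀ g : G, Commute g d → SemiconjBy g d d⁻¹ → False := by
    intro g h1 h2
    have h3 : d * g = d⁻¹ * g := h1.eq.symm.trans h2.eq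
    exact hdne (mul_right_cancel h3)
  obtain ⟨L, hL⟩ : ∃ L : Subgroup G,
      L = Subgroup.normalizer ((Subgroup.zpowers d : Subgroup G) : Set G) := ⟨_, rfl⟩
  have hLmem : ∀ g : G, g ∈ L ↔ (Commute g d ∨ SemiconjBy g d d⁻¹) := by
    intro g
    rw [hL]
    constructor
    · intro h
      rcases conj_of_mem_normalizer_zpowers d g hd4 h with h1 | h1
      · exact Or.inl (mul_inv_eq_iff_eq_mul.mp h1)
      · exact Or.inr (mul_inv_eq_iff_eq_mul.mp h1)
    · intro h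
      apply mem_normalizer_zpowers_of_conj
      rcases h with h1 | h1
      · exact Or.inl (mul_inv_eq_iff_eq_mul.mpr h1)
      · exact Or.inr (mul_inv_eq_iff_eq_mul.mpr h1)
  obtain ⟨B, hBdef⟩ : ∃ B : Subgroup L,
      B = (Subgroup.centralizer ({d} : Set G)).subgroupOf L := ⟨_, rfl⟩
  have hBmem : ∀ l : L, l ∈ B ↔ Commute (l : G) d := by
    intro l
    rw [hBdef, Subgroup.mem_subgroupOf, Subgroup.mem_centralizer_singleton_iff]
    exact Iff.rfl
  have hBnot : ∀ l : L, l ∉ B → SemiconjBy (l : G) d d⁻¹ := by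
    intro l hl
    rcases (hLmem l).mp l.2 with h | h
    · exact absurd ((hBmem l).mpr h) hl
    · exact h
  haveI hBn : B.Normal := by
    constructor
    intro b hb l
    rw [hBmem] at hb ⊢
    have e : ((l * b * l⁻¹ : L) : G) = (l : G) * ((b : G) * (l : G)⁻¹) := by
      simp only [Subgroup.coe_mul, Subgroup.coe_inv, mul_assoc]
    rw [e]
    rcases (hLmem l).mp l.2 with hl | hl
    · exact hl.mul_left (hb.mul_left hl.inv_left)
    · have hl' : SemiconjBy (l : G) d⁻¹ d := by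
        have h1 := hl.inv_right
        rwa [inv_inv] at h1
      have hli : SemiconjBy (l : G)⁻¹ d d⁻¹ := hl'.inv_symm_left
      have hb' : SemiconjBy (b : G) d⁻¹ d⁻¹ := SemiconjBy.inv_right hb
      exact hl'.mul_left (hb'.mul_left hli)
  have ht₀L : t₀ ∈ L := (hLmem t₀).mpr (Or.inr ht₀s)
  have hidx : B.index = 2 := by
    rw [Subgroup.index_eq_two_iff]
    refine ⟨⟨t₀, ht₀L⟩, fun b => ?_⟩
    by_cases hb : b ∈ B
    · right
      refine ⟨hb, fun h => ?_⟩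
      rw [hBmem] at hb h
      have hb' : SemiconjBy (b : G) d⁻¹ d⁻¹ := SemiconjBy.inv_right hb
      exact hnotboth _ h (hb'.mul_left ht₀s)
    · left
      refine ⟨?_, hb⟩
      rw [hBmem]
      have h1 := (hBnot b hb).inv_right
      rw [inv_inv] at h1
      exact h1.mul_left ht₀s
  -- elements of `B`
  have hcL : c ∈ L := (hLmem c).mpr (Or.inl hcd)
  have hcB : (⟨c, hcL⟩ : L) ∈ B := (hBmem _).mpr hcd
  obtain ⟨cB, hcBdef⟩ : ∃ cB : B, cB = ⟨⟨c, hcL⟩, hcB⟩ := ⟨_, rfl⟩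
  have hcBcoe : ((cB : L) : G) = c := by rw [hcBdef]
  have hcBpow : ∀ k : ℕ, (((cB ^ k : B) : L) : G) = c ^ k := by
    intro k
    rw [Subgroup.coe_pow, Subgroup.coe_pow, hcBcoe]
  have hcBord : orderOf cB = 2 ^ (n + 3) := by
    rw [← Subgroup.orderOf_coe, ← Subgroup.orderOf_coe, hcBcoe, hc]
  have hcen : ∀ x : B, x * cB ^ (2 ^ (n + 1)) = cB ^ (2 ^ (n + 1)) * x := by
    intro x
    apply Subtype.ext
    apply Subtype.ext
    rw [Subgroup.coe_mul, Subgroup.coe_mul, Subgroup.coe_mul, Subgroup.coe_mul, hcBpow, ← hd]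
    exact ((hBmem x).mp x.2).eq
  -- the Sylow condition
  have hsyl : ¬ 2 ^ (n + 4) ∣ Nat.card B := by
    intro hdvd
    have hdpg : IsPGroup 2 (Subgroup.zpowers (cB ^ (2 ^ (n + 1)))) := by
      have h1 : IsPGroup 2 (Subgroup.zpowers cB) :=
        IsPGroup.of_card (n := n + 3) (by rw [Nat.card_zpowers, hcBord])
      exact h1.to_le (Subgroup.zpowers_le_of_mem (Subgroup.pow_mem _ (Subgroup.mem_zpowers cB) _))
    obtain ⟨Q₀, hQ₀⟩ := hdpg.exists_le_sylow
    have hQ₀dvd : 2 ^ (n + 4) ∣ Nat.card (Q₀ : Subgroup B) := Q₀.pow_dvd_card_of_pow_dvd_card hdvd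
    obtain ⟨T, hT⟩ : ∃ T : Subgroup G, T = ((Q₀ : Subgroup B).map B.subtype).map L.subtype :=
      ⟨_, rfl⟩
    have hTcard : Nat.card T = Nat.card (Q₀ : Subgroup B) := by
      rw [hT, Subgroup.card_map_of_injective (Subgroup.subtype_injective L),
        Subgroup.card_map_of_injective (Subgroup.subtype_injective B)]
    have hTpg : IsPGroup 2 T := by
      rw [hT]
      exact (Q₀.2.map B.subtype).map L.subtype
    have hTmem : ∀ x : G, x ∈ T → Commute x d := by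
      intro x hx
      rw [hT] at hx
      obtain ⟨y, hy, rfl⟩ := Subgroup.mem_map.mp hx
      obtain ⟨q, _, rfl⟩ := Subgroup.mem_map.mp hy
      exact (hBmem q).mp q.2
    have hdT : d ∈ T := by
      rw [hT]
      refine Subgroup.mem_map.mpr ⟨((cB ^ (2 ^ (n + 1)) : B) : L), Subgroup.mem_map.mpr
        ⟨cB ^ (2 ^ (n + 1)), hQ₀ (Subgroup.mem_zpowers _), rfl⟩, ?_⟩
      rw [hd]
      exact hcBpow _
    obtain ⟨R, hR⟩ := hTpg.exists_le_sylow
    have hRcard : Nat.card (R : Subgroup G) = 2 ^ (n + 4) := by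
      rw [Sylow.card_eq_multiplicity, ← hScard, Sylow.card_eq_multiplicity]
    have hTR : T = (R : Subgroup G) := by
      apply Subgroup.eq_of_le_of_card_ge hR
      rw [hRcard, hTcard]
      exact Nat.le_of_dvd Nat.card_pos hQ₀dvd
    obtain ⟨g, hg⟩ := MulAction.exists_smul_eq G S R
    have hdR : d ∈ ((g • S : Sylow 2 G) : Subgroup G) := by rw [hg, ← hTR]; exact hdT
    rw [mem_sylow_smul'] at hdR
    have hy2 : (g⁻¹ * d * g) ^ 2 ≠ 1 := by
      intro h
      apply hd2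
      have h1 : (g⁻¹ * d * g) ^ 2 = g⁻¹ * d ^ 2 * g := by
        have h2 := conj_pow (i := 2) (a := g⁻¹) (b := d)
        rwa [inv_inv] at h2
      rw [h1] at h
      have h3 : d ^ 2 = g * (g⁻¹ * d ^ 2 * g) * g⁻¹ := by group
      rw [h3, h]
      group
    obtain ⟨s, hs, hsne⟩ := hS3 _ hdR hy2
    apply hsne
    have hsR : g * s * g⁻¹ ∈ ((g • S : Sylow 2 G) : Subgroup G) := by
      rw [mem_sylow_smul']
      have h1 : g⁻¹ * (g * s * g⁻¹) * g = s := by group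
      rw [h1]
      exact hs
    rw [hg, ← hTR] at hsR
    have hcomm := (hTmem _ hsR).eq
    calc s * (g⁻¹ * d * g) = g⁻¹ * ((g * s * g⁻¹) * d) * g := by group
      _ = g⁻¹ * (d * (g * s * g⁻¹)) * g := by rw [hcomm]
      _ = (g⁻¹ * d * g) * s := by group
  obtain ⟨lam, hl1, hl2, hl3, hl4⟩ := exists_linear_of_cyclic_sylow n cB hcBord hsyl hcen
  -- `d` is a power of every element of the support
  have hsupp : ∀ b : B, lam b ≠ 1 → d ∈ Subgroup.zpowers ((b : L) : G) := by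
    intro b hb
    obtain ⟨k, hk⟩ := Subgroup.mem_zpowers_iff.mp (hl3 b hb)
    rw [Subgroup.mem_zpowers_iff]
    refine ⟨k, ?_⟩
    have h1 := congrArg (fun x : B => ((x : L) : G)) hk
    simp only [Subgroup.coe_zpow] at h1
    rw [h1, hd]
    exact hcBpow _
  -- inversion
  have hstar : ∀ x : B, lam (MulAut.conjNormal (⟨t₀, ht₀L⟩ : L) x) = (lam x)⁻¹ := by
    intro x
    obtain ⟨o, i, ho, rfl⟩ := hl4 x
    have e1 : MulAut.conjNormal (⟨t₀, ht₀L⟩ : L) cB = cB⁻¹ := by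
      apply Subtype.ext
      apply Subtype.ext
      rw [MulAut.conjNormal_apply, Subgroup.coe_mul, Subgroup.coe_mul, Subgroup.coe_inv,
        Subgroup.coe_inv, Subgroup.coe_inv, hcBcoe]
      exact ht₀
    have e2 : lam (MulAut.conjNormal (⟨t₀, ht₀L⟩ : L) o) = 1 :=
      hl1 _ (by rw [MulEquiv.orderOf_eq]; exact ho)
    have e3 : lam o = 1 := hl1 o ho
    rw [map_mul, map_pow, map_mul, map_pow, e1, map_mul, map_pow, e2, e3, map_inv, one_mul,
      one_mul, inv_pow]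
  have hinv : ∀ t : L, t ∉ B → ∀ b : B,
      lam ⟨t * b * t⁻¹, hBn.conj_mem b b.2 t⟩ = (lam b)⁻¹ := by
    intro t ht b
    have hb₀ : (⟨t₀, ht₀L⟩ : L)⁻¹ * t ∈ B := by
      rw [hBmem]
      have h1 : SemiconjBy (t₀⁻¹ : G) d⁻¹ d := ht₀s.inv_symm_left
      exact h1.mul_left (hBnot t ht)
    have e1 : (⟨t * b * t⁻¹, hBn.conj_mem b b.2 t⟩ : B) =
        MulAut.conjNormal (⟨t₀, ht₀L⟩ : L)
          (⟨(⟨t₀, ht₀L⟩ : L)⁻¹ * t, hb₀⟩ * b * ⟨(⟨t₀, ht₀L⟩ : L)⁻¹ * t, hb₀⟩⁻¹) := by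
      apply Subtype.ext
      rw [MulAut.conjNormal_apply]
      simp only [Subgroup.coe_mul, Subgroup.coe_inv]
      group
    rw [e1, hstar, map_mul, map_mul, map_inv, mul_comm (lam _) (lam b), mul_assoc,
      mul_inv_cancel, mul_one]
  have hsq : ∃ b : B, lam b ^ 2 ≠ 1 := by
    refine ⟨cB, fun h => ?_⟩
    rw [← map_pow, hl2 2] at h
    have h1 := orderOf_dvd_of_pow_eq_one h
    rw [hcBord] at h1
    have h2 := Nat.le_of_dvd (by norm_num) h1
    have h3 : 2 ^ 3 ≤ 2 ^ (n + 3) := Nat.pow_le_pow_right (by norm_num) (by omega)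
    omega
  have hTI : ∀ g : G, g ∉ L → ∀ b b' : B, lam b ≠ 1 → lam b' ≠ 1 →
      g * ((b : L) : G) * g⁻¹ ≠ ((b' : L) : G) := by
    intro g hg b b' hb hb' heq
    apply hg
    rw [hL]
    exact mem_normalizer_zpowers_of_conj d g
      (conj_eq_or_inv_of_mem_zpowers d _ _ g hd4 (hsupp b hb) (hsupp b' hb') heq)
  obtain ⟨χ₁, χ₂, h1, h2, h3, h4, h5, h6, h7⟩ := bs_abstract L B hidx lam hinv hsq hTI
  refine ⟨χ₁, χ₂, h1, h2, h3, h4, h5, ?_, ?_⟩
  · intro g hg
    apply h6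
    intro x b hb heq
    apply hg
    have h8 := orderOf_dvd_of_mem_zpowers (hsupp b hb)
    rw [hd4, ← heq, orderOf_conj_eq] at h8
    exact h8
  · intro i hi
    have h8 : lam (cB ^ i) ≠ 1 := by
      intro h
      rw [hl2 i] at h
      apply hi
      rw [← hcBpow, h]
      rfl
    have h9 := h7 (cB ^ i) h8
    rw [hcBpow] at h9
    exact h9

end Cfsg.Agent.Helper24
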