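import Cfsg.Agent.Helper24.BS3

/-!
# Brauer–Suzuki: generalized quaternion Sylow `2`-subgroups of order at least `16` (helper24)
-/

set_option autoImplicit false

namespace Cfsg.Agent.Helper24

open Cfsg QuaternionGroup

universe u

theorem quat_two_ne_zero (n : ℕ) : (2 : ZMod (2 * 2 ^ (n + 2))) ≠ 0 := by
  intro h
  have h1 : ((2 : ℕ) : ZMod (2 * 2 ^ (n + 2))) = 0 := by exact_mod_cast h
  rw [ZMod.natCast_eq_zero_iff] at h1
  have h2 := Nat.le_of_dvd (by norm_num) h1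
  have h3 : 2 ^ 2 ≤ 2 ^ (n + 2) := Nat.pow_le_pow_right (by norm_num) (by omega)
  omega

/-- Elements of a generalized quaternion group with `y^2 ≠ 1` are not central. -/
theorem quat_not_central (n : ℕ) (y : QuaternionGroup (2 ^ (n + 2))) (hy : y ^ 2 ≠ 1) :
    ∃ s, s * y ≠ y * s := by
  cases y with
  | a i =>
    refine ⟨xa 0, ?_⟩
    rw [xa_mul_a, a_mul_xa]
    intro h
    have h1 : (0 : ZMod (2 * 2 ^ (n + 2))) + i = 0 - i := by injection h
    apply hy
    rw [sq, a_mul_a, one_def]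
    congr 1
    linear_combination h1
  | xa i =>
    refine ⟨a 1, ?_⟩
    rw [a_mul_xa, xa_mul_a]
    intro h
    have h1 : i - 1 = i + 1 := by injection h
    apply quat_two_ne_zero n
    linear_combination -h1

theorem quat_conj (n : ℕ) :
    (xa 0 : QuaternionGroup (2 ^ (n + 2))) * a 1 * (xa 0)⁻¹ = (a 1)⁻¹ := by
  rw [mul_inv_eq_iff_eq_mul, xa_mul_a]
  have h1 : (a 1 : QuaternionGroup (2 ^ (n + 2)))⁻¹ = a (-1) := by
    apply inv_eq_of_mul_eq_one_right
    rw [a_mul_a, one_def]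
    congr 1
    ring
  rw [h1, a_mul_xa]
  congr 1
  ring

theorem quat_card (n : ℕ) : Nat.card (QuaternionGroup (2 ^ (n + 2))) = 2 ^ (n + 4) := by
  rw [Nat.card_eq_fintype_card, QuaternionGroup.card]
  ring

theorem quat_orderOf_a_one (n : ℕ) :
    orderOf (a 1 : QuaternionGroup (2 ^ (n + 2))) = 2 ^ (n + 3) := by
  rw [orderOf_a_one]
  ring

/-- The exceptional characters for a generalized quaternion Sylow `2`-subgroup of order at
least `16`. -/
theorem bs_quat {G : Type u} [Group G] [Fintype G] (S : Sylow 2 G) (n : ℕ)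
    (e : (S : Subgroup G) ≃* QuaternionGroup (2 ^ (n + 2))) :
    ∃ χ₁ χ₂ : G → ℂ, IsIrrCharacter G χ₁ ∧ IsIrrCharacter G χ₂ ∧ χ₁ ≠ (fun _ => 1) ∧
      χ₂ ≠ (fun _ => 1) ∧ χ₁ 1 = χ₂ 1 + 1 ∧
      (∀ g : G, ¬ 4 ∣ orderOf g → χ₁ g - χ₂ g = 1) ∧
      (∀ j : ZMod (2 * 2 ^ (n + 2)), j + j ≠ 0 →
        χ₁ ((e.symm (a j) : (S : Subgroup G)) : G) -
          χ₂ ((e.symm (a j) : (S : Subgroup G)) : G) ≠ 1) := by
  have hc : orderOf ((e.symm (a 1) : (S : Subgroup G)) : G) = 2 ^ (n + 3) := by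
    rw [Subgroup.orderOf_coe, MulEquiv.orderOf_eq, quat_orderOf_a_one]
  have ht₀ : ((e.symm (xa 0) : (S : Subgroup G)) : G) * ((e.symm (a 1) : (S : Subgroup G)) : G) *
      ((e.symm (xa 0) : (S : Subgroup G)) : G)⁻¹ = ((e.symm (a 1) : (S : Subgroup G)) : G)⁻¹ := by
    rw [← Subgroup.coe_mul, ← Subgroup.coe_inv, ← Subgroup.coe_mul, ← Subgroup.coe_inv,
      ← map_mul, ← map_inv, ← map_mul, ← map_inv, quat_conj]
  have hS3 : ∀ y ∈ S, y ^ 2 ≠ 1 → ∃ s ∈ S, s * y ≠ y * s := by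
    intro y hy hy2
    have h1 : (e ⟨y, hy⟩) ^ 2 ≠ 1 := by
      intro h
      apply hy2
      rw [← map_pow, ← map_one e] at h
      have h2 := e.injective h
      exact congrArg Subtype.val h2
    obtain ⟨s, hs⟩ := quat_not_central n _ h1
    refine ⟨((e.symm s : (S : Subgroup G)) : G), (e.symm s).2, fun h => hs ?_⟩
    have h2 : e.symm s * ⟨y, hy⟩ = ⟨y, hy⟩ * e.symm s := Subtype.ext h
    have h3 := congrArg e h2
    rwa [map_mul, map_mul, MulEquiv.apply_symm_apply] at h3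
  have hScard : Nat.card S = 2 ^ (n + 4) := by
    rw [← quat_card n]
    exact Nat.card_congr e.toEquiv
  obtain ⟨χ₁, χ₂, h1, h2, h3, h4, h5, h6, h7⟩ := bs_quat_core S n _ _ hc ht₀ hS3 hScard
  refine ⟨χ₁, χ₂, h1, h2, h3, h4, h5, h6, ?_⟩
  intro j hj
  have hpow : ∀ k : ℕ, ((e.symm (a 1) : (S : Subgroup G)) : G) ^ k =
      ((e.symm (a (k : ZMod (2 * 2 ^ (n + 2)))) : (S : Subgroup G)) : G) := by
    intro k
    rw [← Subgroup.coe_pow, ← map_pow, a_one_pow]
  have h8 := h7 j.val (by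
    rw [hpow]
    intro h
    have h9 : e.symm (a ((2 * j.val : ℕ) : ZMod (2 * 2 ^ (n + 2)))) = 1 := Subtype.ext h
    rw [← map_one e.symm] at h9
    have h10 := e.symm.injective h9
    rw [one_def] at h10
    have h11 : ((2 * j.val : ℕ) : ZMod (2 * 2 ^ (n + 2))) = 0 := by injection h10
    apply hj
    rw [Nat.cast_mul, ZMod.natCast_zmod_val] at h11
    rw [← h11]
    push_cast
    ring)
  rw [hpow, ZMod.natCast_zmod_val] at h8
  exact h8

end Cfsg.Agent.Helper24
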