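import Cfsg.Agent.Helper24.BS4

/-!
# Brauer–Suzuki: the involutions lie in the kernels of the exceptional characters (helper24)
-/

set_option autoImplicit false

namespace Cfsg.Agent.Helper24

open Cfsg QuaternionGroup Module

universe u

theorem zmod_double_eq_zero (n : ℕ) (j : ZMod (2 * 2 ^ (n + 2))) (h : j + j = 0) :
    j = 0 ∨ j = ((2 ^ (n + 2) : ℕ) : ZMod (2 * 2 ^ (n + 2))) := by
  haveI : NeZero (2 * 2 ^ (n + 2)) := ⟨by positivity⟩
  by_cases hj0 : j = 0
  · exact Or.inl hj0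
  · right
    have h2 : ((j.val + j.val : ℕ) : ZMod (2 * 2 ^ (n + 2))) = 0 := by
      push_cast
      rw [ZMod.natCast_zmod_val]
      exact h
    rw [ZMod.natCast_eq_zero_iff] at h2
    have h3 : j.val < 2 * 2 ^ (n + 2) := ZMod.val_lt j
    have h4 : j.val ≠ 0 := fun h => hj0 ((ZMod.val_eq_zero j).mp h)
    have h5 : j.val + j.val = 2 * 2 ^ (n + 2) :=
      Nat.eq_of_dvd_of_lt_two_mul (by omega) h2 (by omega)
    have h6 : j.val = 2 ^ (n + 2) := by omega
    rw [← ZMod.natCast_zmod_val j, h6]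

theorem quat_half_ne_zero (n : ℕ) : ((2 ^ (n + 2) : ℕ) : ZMod (2 * 2 ^ (n + 2))) ≠ 0 := by
  intro h1
  rw [ZMod.natCast_eq_zero_iff] at h1
  have h2 := Nat.le_of_dvd (by positivity) h1
  have h3 : 0 < 2 ^ (n + 2) := by positivity
  omega

/-- The unique involution of a generalized quaternion group. -/
theorem quat_involution (n : ℕ) (y : QuaternionGroup (2 ^ (n + 2))) (hy : orderOf y = 2) :
    y = a ((2 ^ (n + 2) : ℕ) : ZMod (2 * 2 ^ (n + 2))) := by
  have hy2 : y ^ 2 = 1 := by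
    have h := pow_orderOf_eq_one y
    rwa [hy] at h
  have hy1 : y ≠ 1 := by
    intro h
    rw [h, orderOf_one] at hy
    omega
  cases y with
  | a i =>
    rw [sq, a_mul_a, one_def] at hy2
    have h1 : i + i = 0 := by injection hy2
    congr 1
    rcases zmod_double_eq_zero n i h1 with h | h
    · exfalso
      apply hy1
      rw [h, one_def]
    · exact h
  | xa i =>
    exfalso
    rw [xa_sq, one_def] at hy2
    have h1 : ((2 ^ (n + 2) : ℕ) : ZMod (2 * 2 ^ (n + 2))) = 0 := by injection hy2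
    exact quat_half_ne_zero n h1

/-- Two commuting involutions of a group with generalized quaternion Sylow `2`-subgroups are
equal. -/
theorem bs_unique_involution {G : Type u} [Group G] [Finite G] (S : Sylow 2 G) (n : ℕ)
    (e : (S : Subgroup G) ≃* QuaternionGroup (2 ^ (n + 2))) (u w : G) (hu : orderOf u = 2)
    (hw : orderOf w = 2) (hcomm : Commute u w) : u = w := by
  haveI : Fact (Nat.Prime 2) := ⟨Nat.prime_two⟩
  have hpu : IsPGroup 2 (Subgroup.zpowers u) :=
    IsPGroup.of_card (n := 1) (by rw [Nat.card_zpowers, hu, pow_one])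
  have hpw : IsPGroup 2 (Subgroup.zpowers w) :=
    IsPGroup.of_card (n := 1) (by rw [Nat.card_zpowers, hw, pow_one])
  have hle : Subgroup.zpowers u ≤
      Subgroup.normalizer ((Subgroup.zpowers w : Subgroup G) : Set G) := by
    rw [Subgroup.zpowers_le]
    apply mem_normalizer_zpowers_of_conj
    left
    exact mul_inv_eq_iff_eq_mul.mpr hcomm.eq
  have hp : IsPGroup 2 (Subgroup.zpowers u ⊔ Subgroup.zpowers w : Subgroup G) :=
    hpu.to_sup_of_normal_right' hpw hle
  obtain ⟨R, hR⟩ := hp.exists_le_sylow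
  obtain ⟨g, hg⟩ := MulAction.exists_smul_eq G S R
  have huR : u ∈ ((g • S : Sylow 2 G) : Subgroup G) := by
    rw [hg]; exact hR (Subgroup.mem_sup_left (Subgroup.mem_zpowers u))
  have hwR : w ∈ ((g • S : Sylow 2 G) : Subgroup G) := by
    rw [hg]; exact hR (Subgroup.mem_sup_right (Subgroup.mem_zpowers w))
  rw [mem_sylow_smul'] at huR hwR
  have hord : ∀ x : G, orderOf (g⁻¹ * x * g) = orderOf x := by
    intro x
    have h := orderOf_conj_eq g⁻¹ x
    rwa [inv_inv] at h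
  have h1 : e ⟨g⁻¹ * u * g, huR⟩ = a ((2 ^ (n + 2) : ℕ) : ZMod (2 * 2 ^ (n + 2))) := by
    apply quat_involution
    rw [MulEquiv.orderOf_eq, Subgroup.orderOf_mk, hord, hu]
  have h2 : e ⟨g⁻¹ * w * g, hwR⟩ = a ((2 ^ (n + 2) : ℕ) : ZMod (2 * 2 ^ (n + 2))) := by
    apply quat_involution
    rw [MulEquiv.orderOf_eq, Subgroup.orderOf_mk, hord, hw]
  have h3 := e.injective (h1.trans h2.symm)
  have h4 : g⁻¹ * u * g = g⁻¹ * w * g := congrArg Subtype.val h3
  exact mul_left_cancel (mul_right_cancel h4)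

/-- If commuting involutions are equal, a product of two involutions has order not divisible
by `4`. -/
theorem not_four_dvd_orderOf_mul {G : Type*} [Group G] [Finite G]
    (hU : ∀ u w : G, orderOf u = 2 → orderOf w = 2 → Commute u w → u = w)
    (u v : G) (hu : orderOf u = 2) (hv : orderOf v = 2) : ¬ 4 ∣ orderOf (u * v) := by
  rintro ⟨k, hk⟩
  have hu2 : u * u = 1 := by rw [← sq, ← hu]; exact pow_orderOf_eq_one u
  have hv2 : v * v = 1 := by rw [← sq, ← hv]; exact pow_orderOf_eq_one v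
  have hkpos : 0 < k := by
    rcases Nat.eq_zero_or_pos k with h | h
    · rw [h, mul_zero] at hk
      exact absurd hk (orderOf_pos (u * v)).ne'
    · exact h
  obtain ⟨w, hw⟩ : ∃ w : G, w = (u * v) ^ (2 * k) := ⟨_, rfl⟩
  have hw2 : w ^ 2 = 1 := by
    rw [hw, ← pow_mul]
    have h : 2 * k * 2 = orderOf (u * v) := by rw [hk]; ring
    rw [h]
    exact pow_orderOf_eq_one _
  have hw1 : w ≠ 1 := by
    rw [hw]
    exact pow_ne_one_of_lt_orderOf (by omega) (by rw [hk]; omega)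
  have hwo : orderOf w = 2 := orderOf_eq_prime hw2 hw1
  have hui : u⁻¹ = u := inv_eq_of_mul_eq_one_left hu2
  have hvi : v⁻¹ = v := inv_eq_of_mul_eq_one_left hv2
  have hconj : u * (u * v) * u⁻¹ = (u * v)⁻¹ := by
    rw [mul_inv_rev, hui, hvi, ← mul_assoc, hu2, one_mul]
  have hconjw : u * w * u⁻¹ = w⁻¹ := by
    rw [hw, ← conj_pow, hconj, inv_pow]
  have hwi : w⁻¹ = w := by
    apply inv_eq_of_mul_eq_one_left
    rw [← sq]
    exact hw2
  have hcomm : Commute u w := by
    have h1 : u * w * u⁻¹ = w := hconjw.trans hwi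
    exact mul_inv_eq_iff_eq_mul.mp h1
  have huw := hU u w hu hwo hcomm
  have hcomm2 : Commute u (u * v) := by
    have h := (Commute.refl (u * v)).pow_left (2 * k)
    rw [← hw, ← huw] at h
    exact h
  have huv : u * v = v * u := by
    have h1 : u * (u * v) = u * v * u := hcomm2.eq
    rw [mul_assoc] at h1
    exact mul_left_cancel h1
  have hsq : (u * v) ^ 2 = 1 := by
    rw [sq]
    calc u * v * (u * v) = u * (v * u) * v := by group
      _ = u * (u * v) * v := by rw [← huv]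
      _ = (u * u) * (v * v) := by group
      _ = 1 := by rw [hu2, hv2, one_mul]
  have h5 := orderOf_dvd_of_pow_eq_one hsq
  rw [hk] at h5
  have h6 := Nat.le_of_dvd (by norm_num) h5
  omega

/-- An irreducible representation with commuting image is one-dimensional. -/
theorem finrank_eq_one_of_comm_image' {A : Type u} [Group A] {V : Type*} [AddCommGroup V]
    [Module ℂ V] [FiniteDimensional ℂ V] (τ : Representation ℂ A V) [τ.IsIrreducible]
    (hτcomm : ∀ a b : A, τ a * τ b = τ b * τ a) : Module.finrank ℂ V = 1 := by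
  have hQ : ∀ x y : A ⧸ MonoidHom.ker τ, x * y = y * x := by
    intro x y
    apply kerLiftRep_injective τ
    rw [map_mul, map_mul]
    obtain ⟨a, rfl⟩ := QuotientGroup.mk_surjective x
    obtain ⟨b, rfl⟩ := QuotientGroup.mk_surjective y
    exact hτcomm a b
  haveI : IsMulCommutative (A ⧸ MonoidHom.ker τ) := ⟨⟨hQ⟩⟩
  haveI : (kerLiftRep τ).IsIrreducible := kerLiftRep_isIrreducible τ
  exact Representation.IsIrreducible.finrank_eq_one_of_isMulCommutative (kerLiftRep τ)

/-- The exceptional characters, as representations, with all involutions in their kernels. -/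
theorem bs_quat_reps {G : Type u} [Group G] [Fintype G] (S : Sylow 2 G) (n : ℕ)
    (e : (S : Subgroup G) ≃* QuaternionGroup (2 ^ (n + 2))) :
    ∃ (m₁ m₂ : ℕ) (ρ₁ : Representation ℂ G (Fin m₁ → ℂ)) (ρ₂ : Representation ℂ G (Fin m₂ → ℂ)),
      ρ₁.IsIrreducible ∧ ρ₂.IsIrreducible ∧ m₁ = m₂ + 1 ∧ 0 < m₂ ∧
      (∀ g : G, ¬ 4 ∣ orderOf g → ρ₁.character g - ρ₂.character g = 1) ∧
      (∀ j : ZMod (2 * 2 ^ (n + 2)), j + j ≠ 0 →
        ρ₁.character ((e.symm (a j) : (S : Subgroup G)) : G) -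
          ρ₂.character ((e.symm (a j) : (S : Subgroup G)) : G) ≠ 1) ∧
      (∀ u : G, orderOf u = 2 → ρ₁ u = 1 ∧ ρ₂ u = 1) := by
  obtain ⟨χ₁, χ₂, h1, h2, -, -, h5, h6, h7⟩ := bs_quat S n e
  obtain ⟨m₁, ρ₁, hρ₁, rfl⟩ := h1
  obtain ⟨m₂, ρ₂, hρ₂, rfl⟩ := h2
  haveI : ρ₁.IsIrreducible := hρ₁
  haveI : ρ₂.IsIrreducible := hρ₂
  have hf₁ : finrank ℂ (Fin m₁ → ℂ) = m₁ := Module.finrank_fin_fun ℂ
  have hf₂ : finrank ℂ (Fin m₂ → ℂ) = m₂ := Module.finrank_fin_fun ℂ
  have hm : m₁ = m₂ + 1 := by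
    rw [Representation.char_one, Representation.char_one, hf₁, hf₂] at h5
    exact_mod_cast h5
  have hm₂ : 0 < m₂ := by
    have h := finrank_pos_of_irreducible ρ₂
    rwa [hf₂] at h
  refine ⟨m₁, m₂, ρ₁, ρ₂, hρ₁, hρ₂, hm, hm₂, h6, h7, ?_⟩
  intro u hu
  have hU : ∀ u w : G, orderOf u = 2 → orderOf w = 2 → Commute u w → u = w :=
    fun u w hu hw hc => bs_unique_involution S n e u w hu hw hc
  have hall : ∀ x : G, ρ₁.character (x * u * x⁻¹ * u) - ρ₂.character (x * u * x⁻¹ * u) = 1 := by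
    intro x
    apply h6
    exact not_four_dvd_orderOf_mul hU _ _ (by rw [orderOf_conj_eq]; exact hu) hu
  have hu1 : ρ₁.character u - ρ₂.character u = 1 := by
    apply h6
    rw [hu]
    norm_num
  have hs1 := sum_char_conj_mul ρ₁ u u
  have hs2 := sum_char_conj_mul ρ₂ u u
  rw [hf₁] at hs1
  rw [hf₂] at hs2
  have hG : (Nat.card G : ℂ) ≠ 0 := Nat.cast_ne_zero.mpr Nat.card_pos.ne'
  have hm₂' : (m₂ : ℂ) ≠ 0 := Nat.cast_ne_zero.mpr hm₂.ne'
  have hm₁' : (m₁ : ℂ) ≠ 0 := by rw [hm]; exact Nat.cast_ne_zero.mpr (by omega)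
  have e3 : ∑ x : G, ρ₁.character (x * u * x⁻¹ * u) - ∑ x : G, ρ₂.character (x * u * x⁻¹ * u) =
      (Nat.card G : ℂ) := by
    rw [← Finset.sum_sub_distrib, Finset.sum_congr rfl (fun x _ => hall x), Finset.sum_const,
      Finset.card_univ, nsmul_eq_mul, mul_one, Nat.card_eq_fintype_card]
  have e1 : (∑ x : G, ρ₁.character (x * u * x⁻¹ * u)) * (m₁ : ℂ) =
      (Nat.card G : ℂ) * ρ₁.character u * ρ₁.character u := by
    rw [hs1, div_mul_cancel₀ _ hm₁']
  have e2 : (∑ x : G, ρ₂.character (x * u * x⁻¹ * u)) * (m₂ : ℂ) =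
      (Nat.card G : ℂ) * ρ₂.character u * ρ₂.character u := by
    rw [hs2, div_mul_cancel₀ _ hm₂']
  have hX1 : ρ₁.character u = ρ₂.character u + 1 := by linear_combination hu1
  have hm' : (m₁ : ℂ) = (m₂ : ℂ) + 1 := by rw [hm]; push_cast; ring
  rw [hX1, hm'] at e1
  have hkey : (Nat.card G : ℂ) * ((m₂ : ℂ) - ρ₂.character u) ^ 2 = 0 := by
    linear_combination (m₂ : ℂ) * e1 - ((m₂ : ℂ) + 1) * e2 - (m₂ : ℂ) * ((m₂ : ℂ) + 1) * e3
  have hX2 : ρ₂.character u = (m₂ : ℂ) := by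
    have h := (mul_eq_zero.mp hkey).resolve_left hG
    have h' := pow_eq_zero_iff (n := 2) (by norm_num) |>.mp h
    linear_combination -h'
  constructor
  · have h := (char_eq_finrank_iff ρ₁ u).mp (by rw [hf₁, hX1, hX2, hm'])
    rw [h]; rfl
  · have h := (char_eq_finrank_iff ρ₂ u).mp (by rw [hf₂, hX2])
    rw [h]; rfl

/-- A normal subgroup of even order with non-abelian quotient. -/
theorem bs_kernel {G : Type u} [Group G] [Finite G] (S : Sylow 2 G) (n : ℕ)
    (e : (S : Subgroup G) ≃* QuaternionGroup (2 ^ (n + 2))) :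
    ∃ M : Subgroup G, M.Normal ∧ Even (Nat.card M) ∧ ¬ commutator G ≤ M := by
  classical
  haveI := Fintype.ofFinite G
  haveI : Fact (Nat.Prime 2) := ⟨Nat.prime_two⟩
  obtain ⟨m₁, m₂, ρ₁, ρ₂, hρ₁, hρ₂, hm, hm₂, -, -, hinv⟩ := bs_quat_reps S n e
  haveI : ρ₁.IsIrreducible := hρ₁
  have h2 : 2 ∣ Nat.card G := by
    have h1 : Nat.card S ∣ Nat.card G := Subgroup.card_subgroup_dvd_card _
    have h3 : Nat.card S = 2 ^ (n + 4) := by
      rw [← quat_card n]
      exact Nat.card_congr e.toEquiv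
    rw [h3] at h1
    exact (dvd_pow_self 2 (by omega)).trans h1
  obtain ⟨z, hz⟩ := exists_prime_orderOf_dvd_card' 2 h2
  refine ⟨MonoidHom.ker ρ₁, MonoidHom.normal_ker ρ₁, ?_, ?_⟩
  · have hzmem : z ∈ MonoidHom.ker ρ₁ := (hinv z hz).1
    have h3 := Subgroup.orderOf_dvd_natCard _ hzmem
    rw [hz] at h3
    exact even_iff_two_dvd.mpr h3
  · intro hle
    have hcomm : ∀ a b : G, ρ₁ a * ρ₁ b = ρ₁ b * ρ₁ a := by
      intro a b
      have h3 : a * b * a⁻¹ * b⁻¹ ∈ MonoidHom.ker ρ₁ := by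
        apply hle
        rw [commutator_def]
        have h4 := Subgroup.commutator_mem_commutator (Subgroup.mem_top a) (Subgroup.mem_top b)
        rwa [commutatorElement_def] at h4
      have h5 : a * b = (a * b * a⁻¹ * b⁻¹) * (b * a) := by group
      rw [← map_mul, ← map_mul, h5, map_mul, MonoidHom.mem_ker.mp h3, one_mul]
    have h6 := finrank_eq_one_of_comm_image' ρ₁ hcomm
    rw [Module.finrank_fin_fun] at h6
    omega

end Cfsg.Agent.Helper24
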