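import Cfsg.Agent.Helper24.BS5

/-!
# Brauer–Suzuki: cyclic Sylow subgroups of the involution closure, and the centre (helper24)
-/

set_option autoImplicit false

namespace Cfsg.Agent.Helper24

open Cfsg QuaternionGroup Module

universe u

/-- A subgroup of a generalized quaternion group containing no element `a j` of order `> 2`
is cyclic. -/
theorem quat_cyclic_of_avoid (n : ℕ) (W : Subgroup (QuaternionGroup (2 ^ (n + 2))))
    (hW : ∀ j : ZMod (2 * 2 ^ (n + 2)), j + j ≠ 0 → a j ∉ W) : IsCyclic W := by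
  obtain ⟨N', hN'⟩ : ∃ N' : ZMod (2 * 2 ^ (n + 2)),
      N' = ((2 ^ (n + 2) : ℕ) : ZMod (2 * 2 ^ (n + 2))) := ⟨_, rfl⟩
  have hNN : N' + N' = 0 := by
    rw [hN', ← Nat.cast_add, ZMod.natCast_eq_zero_iff]
    exact dvd_of_eq (by ring)
  have ha : ∀ j, a j ∈ W → j = 0 ∨ j = N' := by
    intro j hj
    by_contra hne
    exact hW j (fun h => hne (by rw [hN']; exact zmod_double_eq_zero n j h)) hj
  have hsq : ∀ i : ZMod (2 * 2 ^ (n + 2)),
      (xa i : QuaternionGroup (2 ^ (n + 2))) ^ 2 = a N' := by
    intro i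
    rw [xa_sq, hN']
  by_cases hx : ∃ i, xa i ∈ W
  · obtain ⟨i, hi⟩ := hx
    have hle : W ≤ Subgroup.zpowers (xa i) := by
      intro y hy
      cases y with
      | a j =>
        rcases ha j hy with h | h
        · rw [h, ← one_def]; exact one_mem _
        · rw [h, ← hsq i]
          exact Subgroup.pow_mem _ (Subgroup.mem_zpowers _) 2
      | xa j =>
        have h1 : xa i * xa j ∈ W := W.mul_mem hi hy
        rw [xa_mul_xa, ← hN'] at h1
        rcases ha _ h1 with h | h
        · have hj : j = i + N' := by linear_combination h - hNN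
          have h3 : (xa i : QuaternionGroup (2 ^ (n + 2))) ^ 3 = xa j := by
            have h4 : (xa i : QuaternionGroup (2 ^ (n + 2))) ^ 3 = xa i ^ 2 * xa i :=
              pow_succ _ 2
            rw [h4, hsq, a_mul_xa, hj]
            congr 1
            linear_combination -hNN
          rw [← h3]
          exact Subgroup.pow_mem _ (Subgroup.mem_zpowers _) 3
        · have hj : j = i := by linear_combination h
          rw [hj]
          exact Subgroup.mem_zpowers _
    exact Subgroup.isCyclic_of_le hle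
  · have hle : W ≤ Subgroup.zpowers (a N') := by
      intro y hy
      cases y with
      | a j =>
        rcases ha j hy with h | h
        · rw [h, ← one_def]; exact one_mem _
        · rw [h]; exact Subgroup.mem_zpowers _
      | xa j => exact absurd ⟨j, hy⟩ hx
    exact Subgroup.isCyclic_of_le hle

/-- Sylow `2`-subgroups of subgroups of the subgroup generated by the involutions are
cyclic. -/
theorem bs_cyclic_aux {G : Type u} [Group G] [Finite G] (S : Sylow 2 G) (n : ℕ)
    (e : (S : Subgroup G) ≃* QuaternionGroup (2 ^ (n + 2))) (H : Subgroup G)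
    (hH : H ≤ Subgroup.closure {g : G | orderOf g = 2})
    (Q : Sylow 2 ↥H) : IsCyclic Q := by
  classical
  haveI := Fintype.ofFinite G
  haveI : Fact (Nat.Prime 2) := ⟨Nat.prime_two⟩
  obtain ⟨m₁, m₂, ρ₁, ρ₂, hρ₁, hρ₂, hm, hm₂, h4, h7, hinv⟩ := bs_quat_reps S n e
  have hker : ∀ x ∈ H, ρ₁ x = 1 ∧ ρ₂ x = 1 := by
    intro x hx
    have h1 : Subgroup.closure {g : G | orderOf g = 2} ≤
        MonoidHom.ker ρ₁ ⊓ MonoidHom.ker ρ₂ := by
      rw [Subgroup.closure_le]
      intro u hu
      exact ⟨(hinv u hu).1, (hinv u hu).2⟩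
    exact h1 (hH hx)
  have hval : ∀ x ∈ H, ρ₁.character x - ρ₂.character x = 1 := by
    intro x hx
    obtain ⟨h1, h2⟩ := hker x hx
    have e1 : ρ₁.character x = (m₁ : ℂ) := by
      show LinearMap.trace ℂ _ (ρ₁ x) = _
      rw [h1, LinearMap.trace_one, Module.finrank_fin_fun]
    have e2 : ρ₂.character x = (m₂ : ℂ) := by
      show LinearMap.trace ℂ _ (ρ₂ x) = _
      rw [h2, LinearMap.trace_one, Module.finrank_fin_fun]
    rw [e1, e2, hm]
    push_cast
    ring
  have hQ : IsPGroup 2 (Q : Subgroup H) := Q.isPGroup'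
  have hTp : IsPGroup 2 ((Q : Subgroup H).map H.subtype) := hQ.map _
  obtain ⟨R, hR⟩ := hTp.exists_le_sylow
  obtain ⟨g, hg⟩ := MulAction.exists_smul_eq G S R
  have hmem : ∀ q : (Q : Subgroup H), g⁻¹ * ((q : H) : G) * g ∈ (S : Subgroup G) := by
    intro q
    have h1 : ((q : H) : G) ∈ (Q : Subgroup H).map H.subtype := ⟨q, q.2, rfl⟩
    have h2 := hR h1
    rw [← hg] at h2
    exact (mem_sylow_smul' g S _).mp h2
  let ψ : (Q : Subgroup H) →* QuaternionGroup (2 ^ (n + 2)) :=
    { toFun := fun q => e ⟨g⁻¹ * ((q : H) : G) * g, hmem q⟩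
      map_one' := by
        rw [← map_one e]
        congr 1
        apply Subtype.ext
        simp
      map_mul' := by
        intro q q'
        rw [← map_mul e]
        congr 1
        apply Subtype.ext
        simp only [Subgroup.coe_mul]
        group }
  have hψ : ∀ q, ψ q = e ⟨g⁻¹ * ((q : H) : G) * g, hmem q⟩ := fun q => rfl
  have hψinj : Function.Injective ψ := by
    intro q q' hqq
    rw [hψ, hψ] at hqq
    have h1 := e.injective hqq
    have h2 : g⁻¹ * ((q : H) : G) * g = g⁻¹ * ((q' : H) : G) * g := congrArg Subtype.val h1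
    have h3 : ((q : H) : G) = q' := mul_left_cancel (mul_right_cancel h2)
    exact Subtype.ext (Subtype.ext h3)
  have havoid : ∀ j : ZMod (2 * 2 ^ (n + 2)), j + j ≠ 0 → a j ∉ ψ.range := by
    intro j hj hmemr
    obtain ⟨q, hq⟩ := hmemr
    rw [hψ] at hq
    have h1 : e.symm (a j) = ⟨g⁻¹ * ((q : H) : G) * g, hmem q⟩ := by
      rw [← hq, MulEquiv.symm_apply_apply]
    apply h7 j hj
    rw [h1]
    show ρ₁.character (g⁻¹ * ((q : H) : G) * g) - ρ₂.character (g⁻¹ * ((q : H) : G) * g) = 1
    have h2 : ∀ {m : ℕ} (ρ : Representation ℂ G (Fin m → ℂ)) (x : G),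
        ρ.character (g⁻¹ * x * g) = ρ.character x := by
      intro m ρ x
      have h3 := Representation.char_conj ρ x g⁻¹
      rwa [inv_inv] at h3
    rw [h2, h2]
    exact hval _ (q : H).2
  haveI : IsCyclic ψ.range := quat_cyclic_of_avoid n ψ.range havoid
  exact (MonoidHom.ofInjective hψinj).isCyclic.mpr inferInstance

/-- Sylow `2`-subgroups of the subgroup generated by the involutions are cyclic. -/
theorem bs_cyclic {G : Type u} [Group G] [Finite G] (S : Sylow 2 G) (n : ℕ)
    (e : (S : Subgroup G) ≃* QuaternionGroup (2 ^ (n + 2)))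
    (Q : Sylow 2 ↥(Subgroup.closure {g : G | orderOf g = 2})) : IsCyclic Q :=
  bs_cyclic_aux S n e _ le_rfl Q

end Cfsg.Agent.Helper24
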