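import Cfsg.Agent.Helper24.BS6

/-!
# Brauer–Suzuki: the centre has order two (helper24)
-/

set_option autoImplicit false

namespace Cfsg.Agent.Helper24

open Cfsg QuaternionGroup Module

universe u

theorem closure_involutions_normal {G : Type*} [Group G] :
    (Subgroup.closure {g : G | orderOf g = 2}).Normal := by
  constructor
  intro x hx g
  induction hx using Subgroup.closure_induction with
  | mem u hu =>
    apply Subgroup.subset_closure
    show orderOf (g * u * g⁻¹) = 2
    rw [orderOf_conj_eq]; exact hu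
  | one => simp
  | mul a b _ _ ha hb =>
    have : g * (a * b) * g⁻¹ = (g * a * g⁻¹) * (g * b * g⁻¹) := by group
    rw [this]; exact mul_mem ha hb
  | inv a _ ha =>
    have : g * a⁻¹ * g⁻¹ = (g * a * g⁻¹)⁻¹ := by group
    rw [this]; exact inv_mem ha

/-- Under the hypotheses of the Brauer–Suzuki theorem, `G` has a unique involution. -/
theorem bs_involution_unique {G : Type u} [Group G] [Finite G] (S : Sylow 2 G) (n : ℕ)
    (e : (S : Subgroup G) ≃* QuaternionGroup (2 ^ (n + 2)))
    (hO : ∀ N : Subgroup G, N.Normal → Odd (Nat.card N) → N = ⊥) :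
    ∃ z : G, orderOf z = 2 ∧ ∀ u : G, orderOf u = 2 → u = z := by
  classical
  haveI : Fact (Nat.Prime 2) := ⟨Nat.prime_two⟩
  have h2 : 2 ∣ Nat.card G := by
    have h1 : Nat.card S ∣ Nat.card G := Subgroup.card_subgroup_dvd_card _
    have h3 : Nat.card S = 2 ^ (n + 4) := by
      rw [← quat_card n]
      exact Nat.card_congr e.toEquiv
    rw [h3] at h1
    exact (dvd_pow_self 2 (by omega)).trans h1
  obtain ⟨z, hz⟩ := exists_prime_orderOf_dvd_card' 2 h2
  refine ⟨z, hz, ?_⟩
  obtain ⟨H, hH⟩ : ∃ H : Subgroup G, H = Subgroup.closure {g : G | orderOf g = 2} := ⟨_, rfl⟩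
  have hHn : H.Normal := by rw [hH]; exact closure_involutions_normal
  have hinvH : ∀ u : G, orderOf u = 2 → u ∈ H := by
    intro u hu; rw [hH]; exact Subgroup.subset_closure hu
  obtain ⟨Q⟩ : Nonempty (Sylow 2 H) := inferInstance
  have hQcyc : IsCyclic (Q : Subgroup H) := bs_cyclic_aux S n e H (le_of_eq hH) Q
  have h2H : 2 ∣ Nat.card H := by
    have := Subgroup.orderOf_dvd_natCard H (hinvH z hz)
    rwa [hz] at this
  have hp : (Nat.card H).minFac = 2 := (Nat.minFac_eq_two_iff _).mpr h2H
  have hNC := hQcyc.normalizer_le_centralizer hp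
  obtain ⟨τ, hτ⟩ : ∃ τ : H →* ↥(Q : Subgroup H), τ = MonoidHom.transferSylow Q hNC := ⟨_, rfl⟩
  have hker : ¬ 2 ∣ Nat.card τ.ker := by
    rw [hτ]; exact MonoidHom.not_dvd_card_ker_transferSylow Q hNC
  have hodd1 : ∀ x : H, Odd (orderOf x) → τ x = 1 := by
    intro x hx
    have h1 : orderOf (τ x) ∣ orderOf x := orderOf_map_dvd τ x
    obtain ⟨k, hk⟩ := Q.isPGroup' (τ x)
    have h2 : orderOf (τ x) ∣ 2 ^ k := orderOf_dvd_of_pow_eq_one hk
    have h3 : Nat.Coprime (orderOf x) (2 ^ k) :=
      Nat.Coprime.pow_right _ (Nat.coprime_two_right.mpr hx)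
    exact orderOf_eq_one_iff.mp (Nat.eq_one_of_dvd_coprimes h3 h1 h2)
  have hkerodd : ∀ x : H, τ x = 1 → Odd (orderOf x) := by
    intro x hx
    have h1 : orderOf (⟨x, MonoidHom.mem_ker.mpr hx⟩ : τ.ker) ∣ Nat.card τ.ker :=
      orderOf_dvd_natCard _
    rw [Subgroup.orderOf_mk] at h1
    rw [← Nat.not_even_iff_odd]
    intro heven
    exact hker ((even_iff_two_dvd.mp heven).trans h1)
  have hKn : (τ.ker.map H.subtype).Normal := by
    constructor
    intro x hx g
    obtain ⟨y, hy, rfl⟩ := hx
    have hc : g * (y : G) * g⁻¹ ∈ H := hHn.conj_mem _ y.2 g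
    refine ⟨⟨g * (y : G) * g⁻¹, hc⟩, ?_, rfl⟩
    show _ ∈ τ.ker
    rw [MonoidHom.mem_ker]
    apply hodd1
    rw [Subgroup.orderOf_mk, orderOf_conj_eq, Subgroup.orderOf_coe]
    exact hkerodd y (MonoidHom.mem_ker.mp hy)
  have hKodd : Odd (Nat.card (τ.ker.map H.subtype)) := by
    rw [Subgroup.card_map_of_injective (Subgroup.subtype_injective H)]
    rw [← Nat.not_even_iff_odd]
    exact fun h => hker (even_iff_two_dvd.mp h)
  have hKbot := hO _ hKn hKodd
  have hτinj : Function.Injective τ := by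
    rw [← MonoidHom.ker_eq_bot_iff]
    exact (Subgroup.map_eq_bot_iff_of_injective _ (Subgroup.subtype_injective H)).mp hKbot
  have hHcomm : ∀ a b : H, a * b = b * a := by
    intro a b
    apply hτinj
    rw [map_mul, map_mul]
    exact (IsCyclic.isMulCommutative (α := ↥(Q : Subgroup H))).is_comm.comm (τ a) (τ b)
  intro u hu
  have h5 := hHcomm ⟨u, hinvH u hu⟩ ⟨z, hinvH z hz⟩
  have h6 : u * z = z * u := congrArg Subtype.val h5
  exact bs_unique_involution S n e u z hu hz h6

/-- The Brauer–Suzuki theorem for generalized quaternion Sylow `2`-subgroups of order at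
least `16`: the centre has order `2` when there is no nontrivial normal subgroup of odd
order. -/
theorem bs_center {G : Type u} [Group G] [Finite G] (S : Sylow 2 G) (n : ℕ)
    (e : (S : Subgroup G) ≃* QuaternionGroup (2 ^ (n + 2)))
    (hO : ∀ N : Subgroup G, N.Normal → Odd (Nat.card N) → N = ⊥) :
    Nat.card (Subgroup.center G) = 2 := by
  classical
  haveI : Fact (Nat.Prime 2) := ⟨Nat.prime_two⟩
  obtain ⟨z, hz, huniq⟩ := bs_involution_unique S n e hO
  have hzc : z ∈ Subgroup.center G := by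
    rw [Subgroup.mem_center_iff]
    intro g
    have h1 : g * z * g⁻¹ = z := huniq _ (by rw [orderOf_conj_eq, hz])
    calc g * z = g * z * g⁻¹ * g := by group
      _ = z * g := by rw [h1]
  let Z' : Subgroup G :=
    { carrier := {x | x ∈ Subgroup.center G ∧ Odd (orderOf x)}
      one_mem' := ⟨one_mem _, by rw [orderOf_one]; exact odd_one⟩
      mul_mem' := by
        rintro x y ⟨hx, hxo⟩ ⟨hy, hyo⟩
        refine ⟨mul_mem hx hy, ?_⟩
        have hcomm : Commute x y := Subgroup.mem_center_iff.mp hy x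
        have h1 : (x * y) ^ (orderOf x * orderOf y) = 1 := by
          rw [hcomm.mul_pow, pow_mul, pow_orderOf_eq_one, one_pow, mul_comm (orderOf x), pow_mul,
            pow_orderOf_eq_one, one_pow, mul_one]
        exact Odd.of_dvd_nat (hxo.mul hyo) (orderOf_dvd_of_pow_eq_one h1)
      inv_mem' := by
        rintro x ⟨hx, hxo⟩
        exact ⟨inv_mem hx, by rw [orderOf_inv]; exact hxo⟩ }
  have hZ'n : Z'.Normal := by
    constructor
    intro x hx g
    have h1 : g * x * g⁻¹ = x := by
      have := Subgroup.mem_center_iff.mp hx.1 g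
      rw [this]; group
    rw [h1]; exact hx
  have hZ'odd : Odd (Nat.card Z') := by
    rw [← Nat.not_even_iff_odd]
    intro heven
    obtain ⟨y, hy⟩ := exists_prime_orderOf_dvd_card' 2 (even_iff_two_dvd.mp heven)
    have h1 : Odd (orderOf (y : G)) := y.2.2
    rw [Subgroup.orderOf_coe, hy] at h1
    exact absurd h1 (by decide)
  have hZ'bot := hO Z' hZ'n hZ'odd
  have hsq : ∀ x ∈ Subgroup.center G, x ^ 2 = 1 := by
    intro x hx
    have hpos : 0 < orderOf x := orderOf_pos x
    obtain ⟨k, m, hm, hkm⟩ := Nat.exists_eq_two_pow_mul_odd hpos.ne'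
    have h1 : x ^ (2 ^ k) ∈ Z' := by
      refine ⟨Subgroup.pow_mem _ hx _, ?_⟩
      rw [orderOf_pow_of_dvd (by positivity) (by rw [hkm]; exact dvd_mul_right _ _), hkm,
        Nat.mul_div_cancel_left _ (by positivity)]
      exact hm
    rw [hZ'bot, Subgroup.mem_bot] at h1
    have hpg : IsPGroup 2 (Subgroup.zpowers x) := by
      obtain ⟨k', -, hk'⟩ := (Nat.dvd_prime_pow Nat.prime_two).mp (orderOf_dvd_of_pow_eq_one h1)
      exact IsPGroup.of_card (n := k') (by rw [Nat.card_zpowers, hk'])
    obtain ⟨R, hR⟩ := hpg.exists_le_sylow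
    obtain ⟨g, hg⟩ := MulAction.exists_smul_eq G S R
    have hxS : x ∈ (S : Subgroup G) := by
      have h2 := hR (Subgroup.mem_zpowers x)
      rw [← hg] at h2
      have h3 := (mem_sylow_smul' g S _).mp h2
      have h4 : g⁻¹ * x * g = x := by
        have := Subgroup.mem_center_iff.mp hx g
        rw [mul_assoc, ← this]; group
      rwa [h4] at h3
    by_contra hne
    have h5 : (e ⟨x, hxS⟩) ^ 2 ≠ 1 := by
      intro h
      apply hne
      have h' : e (⟨x, hxS⟩ ^ 2) = e 1 := by rw [map_pow, h, map_one]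
      exact congrArg Subtype.val (e.injective h')
    obtain ⟨s, hs⟩ := quat_not_central n _ h5
    apply hs
    have h6 : (e.symm s) * ⟨x, hxS⟩ = ⟨x, hxS⟩ * (e.symm s) := by
      apply Subtype.ext
      exact Subgroup.mem_center_iff.mp hx _
    have h7 := congrArg e h6
    rwa [map_mul, map_mul, MulEquiv.apply_symm_apply] at h7
  have hcz : Subgroup.center G = Subgroup.zpowers z := by
    apply le_antisymm
    · intro x hx
      by_cases hx1 : x = 1
      · rw [hx1]; exact one_mem _
      · have h1 : orderOf x = 2 := orderOf_eq_prime (hsq x hx) hx1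
        rw [huniq x h1]; exact Subgroup.mem_zpowers z
    · rw [Subgroup.zpowers_le]; exact hzc
  rw [hcz, Nat.card_zpowers, hz]

end Cfsg.Agent.Helper24
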