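import Cfsg.Agent.Helper24.Schur1

/-!
# Schur's bound for the Sylow subgroups of a group with a `p`-rational faithful character, part 2
-/

set_option autoImplicit false

namespace Cfsg.Agent.Helper24

open Cfsg Cfsg.Agent.Helper22
open scoped Classical

universe u

section
variable {G : Type u} [Group G] [Finite G]

/-- Galois-stability on `p`-elements. -/
def SchInv (p : ℕ) (χ : G → ℂ) : Prop :=
  ∀ (y : G) (i j : ℕ), y ^ (p ^ i) = 1 → ¬ p ∣ j → χ (y ^ j) = χ y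

theorem sch_int {χ : G → ℂ} (hχ : IsCharacter G χ) (p : ℕ) (hp : p.Prime) (h : SchInv p χ)
    (y : G) (i : ℕ) (hy : y ^ (p ^ i) = 1) : ∃ z : ℤ, χ y = z := by
  haveI : NeZero (p ^ (i + 1) * Nat.card G) :=
    ⟨(Nat.mul_pos (pow_pos hp.pos _) Nat.card_pos).ne'⟩
  have hn : ∀ g : G, g ^ (p ^ (i + 1) * Nat.card G) = 1 := by
    intro g
    rw [Nat.mul_comm, pow_mul, pow_card_eq_one', one_pow]
  have hfam := isCycFam_char (p ^ (i + 1) * Nat.card G) hn hχ y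
  have hc : ∀ k : (ZMod (p ^ (i + 1) * Nat.card G))ˣ,
      (fun k : (ZMod (p ^ (i + 1) * Nat.card G))ˣ =>
        χ (y ^ (k : ZMod (p ^ (i + 1) * Nat.card G)).val)) k =
      (fun k : (ZMod (p ^ (i + 1) * Nat.card G))ˣ =>
        χ (y ^ (k : ZMod (p ^ (i + 1) * Nat.card G)).val)) 1 := by
    intro k
    show χ (y ^ (k : ZMod (p ^ (i + 1) * Nat.card G)).val) =
      χ (y ^ ((1 : (ZMod (p ^ (i + 1) * Nat.card G))ˣ) : ZMod (p ^ (i + 1) * Nat.card G)).val)
    rw [pow_one_unit_val hn y]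
    apply h y i _ hy
    intro hdvd
    have hco := ZMod.val_coe_unit_coprime k
    have h2 : p ∣ p ^ (i + 1) * Nat.card G :=
      Dvd.dvd.mul_right (dvd_pow_self p (Nat.succ_ne_zero i)) _
    exact hp.one_lt.ne' (Nat.Coprime.eq_one_of_dvd (Nat.Coprime.coprime_dvd_left hdvd hco) h2)
  obtain ⟨z, hz⟩ := hfam.int_of_const hc
  refine ⟨z, ?_⟩
  have hz' : χ (y ^ ((1 : (ZMod (p ^ (i + 1) * Nat.card G))ˣ) :
      ZMod (p ^ (i + 1) * Nat.card G)).val) = z := hz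
  rwa [pow_one_unit_val hn y] at hz'

theorem sch_congr {χ : G → ℂ} (hχ : IsCharacter G χ) (p : ℕ) (hp : p.Prime)
    (y : G) (i : ℕ) (hy : y ^ (p ^ i) = 1) (z : ℤ) (hz : χ y = z) (n : ℕ) (hn : χ 1 = n) :
    (p : ℤ) ∣ z - n := by
  obtain ⟨m, ρ, rfl⟩ := hχ
  obtain ⟨γ, hγ⟩ := char_pow_sub_mem_span hp ρ y i
  rw [hy, hz, hn] at hγ
  have hp0 : (p : ℂ) ≠ 0 := Nat.cast_ne_zero.mpr hp.ne_zero
  have hq : (γ : ℂ) = ((((z ^ (p ^ i) - n : ℤ) : ℚ) / (p : ℚ) : ℚ) : ℂ) := by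
    push_cast
    rw [eq_div_iff hp0, mul_comm]
    exact hγ.symm
  have hint : IsIntegral ℤ ((((z ^ (p ^ i) - n : ℤ) : ℚ) / (p : ℚ) : ℚ) : ℂ) := by
    rw [← hq]; exact γ.2
  obtain ⟨w, hw⟩ := exists_int_of_isIntegral_ratCast hint
  have hpq : (p : ℚ) ≠ 0 := Nat.cast_ne_zero.mpr hp.ne_zero
  have h1 : z ^ (p ^ i) - n = w * p := by
    have h : ((z ^ (p ^ i) - n : ℤ) : ℚ) = (w : ℚ) * (p : ℚ) := by rw [hw]; field_simp
    exact_mod_cast h
  haveI : Fact p.Prime := ⟨hp⟩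
  have h2 : ((z ^ (p ^ i) - z : ℤ) : ZMod p) = 0 := by
    push_cast
    rw [ZMod.pow_card_pow, sub_self]
  have h3 : (p : ℤ) ∣ z ^ (p ^ i) - z := (ZMod.intCast_zmod_eq_zero_iff_dvd _ p).mp h2
  have h4 : (p : ℤ) ∣ z ^ (p ^ i) - n := ⟨w, by rw [h1, mul_comm]⟩
  have h5 : z - n = (z ^ (p ^ i) - n) - (z ^ (p ^ i) - z) := by ring
  rw [h5]
  exact dvd_sub h4 h3

theorem sch_sum_char {H : Type u} [Group H] [Fintype H] {χ : H → ℂ} (hχ : IsCharacter H χ) :
    ∃ k : ℕ, ∑ g : H, χ g = (Nat.card H : ℂ) * k := by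
  obtain ⟨k, hk⟩ := isCharacter_inner_irr hχ (⟨fun _ => 1, isIrrCharacter_one⟩ : IrrCharacter H)
  refine ⟨k, ?_⟩
  have hne : (Nat.card H : ℂ) ≠ 0 := Nat.cast_ne_zero.mpr Nat.card_pos.ne'
  have h3 : (Nat.card H : ℂ)⁻¹ * ∑ g : H, χ g = k := by
    rw [← hk, classInner_def']
    congr 1
    exact Finset.sum_congr rfl (fun g _ => by simp)
  rw [← h3, mul_inv_cancel_left₀ hne]

theorem sch_sum_zpowers {χ : G → ℂ} (hχ : IsCharacter G χ) (y : G) :
    ∃ k : ℕ, ∑ j ∈ Finset.range (orderOf y), χ (y ^ j) = (orderOf y : ℂ) * k := by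
  haveI : Fintype ↥(Subgroup.zpowers y) := Fintype.ofFinite _
  obtain ⟨k, hk⟩ := sch_sum_char (isCharacter_restrict (Subgroup.zpowers y) hχ)
  refine ⟨k, ?_⟩
  rw [Nat.card_zpowers] at hk
  rw [← hk, ← Fin.sum_univ_eq_sum_range (fun j => χ (y ^ j)) (orderOf y)]
  exact Fintype.sum_equiv (finEquivZPowers (isOfFinOrder_of_finite y)) _ _ (fun j => rfl)

theorem sch_sum_range_mul (f : ℕ → ℂ) (p q : ℕ) :
    ∑ j ∈ Finset.range (p * q), f j =
      ∑ t ∈ Finset.range q, ∑ r ∈ Finset.range p, f (p * t + r) := by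
  induction q with
  | zero => simp
  | succ q ih => rw [Nat.mul_succ, Finset.sum_range_add, ih, Finset.sum_range_succ]

theorem sch_sum_range_pred (f : ℕ → ℂ) (p : ℕ) (hp : 0 < p) (c : ℂ)
    (hc : ∀ r, 0 < r → r < p → f r = c) :
    ∑ r ∈ Finset.range p, f r = f 0 + ((p - 1 : ℕ) : ℂ) * c := by
  obtain ⟨p', rfl⟩ := Nat.exists_eq_succ_of_ne_zero hp.ne'
  rw [Finset.sum_range_succ', Nat.succ_sub_one,
    Finset.sum_congr rfl (fun r hr => hc (r + 1) (Nat.succ_pos r)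
      (Nat.succ_lt_succ (Finset.mem_range.mp hr))),
    Finset.sum_const, Finset.card_range, nsmul_eq_mul, add_comm]

theorem sch_lower {χ : G → ℂ} (hχ : IsCharacter G χ) (p : ℕ) (hp : p.Prime) (h : SchInv p χ)
    (y : G) (i : ℕ) (hy : y ^ (p ^ i) = 1) (z : ℤ) (hz : χ y = z) (n : ℕ) (hn : χ 1 = n)
    (hle : ∀ g : G, (χ g).re ≤ n) :
    0 ≤ (n : ℤ) + ((p - 1 : ℕ) : ℤ) * z := by
  by_cases hy1 : y = 1
  · have h1 : (z : ℂ) = n := by rw [← hz, hy1, hn]
    have h2 : z = n := by exact_mod_cast h1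
    rw [h2]
    positivity
  · obtain ⟨l, -, hl⟩ := (Nat.dvd_prime_pow hp).mp (orderOf_dvd_of_pow_eq_one hy)
    have hl0 : l ≠ 0 := by
      intro h0
      rw [h0, pow_zero] at hl
      exact hy1 (orderOf_eq_one_iff.mp hl)
    obtain ⟨l', rfl⟩ := Nat.exists_eq_succ_of_ne_zero hl0
    obtain ⟨q', hq'⟩ : ∃ q' : ℕ, q' = p ^ l' := ⟨_, rfl⟩
    have hq'pos : 0 < q' := by rw [hq']; exact pow_pos hp.pos _
    have hord : orderOf y = p * q' := by rw [hl, hq', pow_succ, mul_comm]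
    obtain ⟨k, hk⟩ := sch_sum_zpowers hχ y
    rw [hord, sch_sum_range_mul] at hk
    have hin : ∀ t, ∑ r ∈ Finset.range p, χ (y ^ (p * t + r)) =
        χ (y ^ (p * t)) + ((p - 1 : ℕ) : ℂ) * z := by
      intro t
      have hc : ∀ r, 0 < r → r < p → (fun r => χ (y ^ (p * t + r))) r = (z : ℂ) := by
        intro r hr0 hrp
        show χ (y ^ (p * t + r)) = z
        rw [← hz]
        apply h y i _ hy
        intro hdvd
        have h1 : p ∣ r := (Nat.dvd_add_right (dvd_mul_right p t)).mp hdvd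
        exact absurd (Nat.le_of_dvd hr0 h1) (not_le.mpr hrp)
      rw [sch_sum_range_pred (fun r => χ (y ^ (p * t + r))) p hp.pos (z : ℂ) hc]
      show χ (y ^ (p * t + 0)) + _ = _
      rw [Nat.add_zero]
    have hsum : ∑ t ∈ Finset.range q', χ (y ^ (p * t)) =
        ((((p * q' : ℕ) : ℝ) * k - (q' : ℝ) * (((p - 1 : ℕ) : ℝ) * z) : ℝ) : ℂ) := by
      rw [Finset.sum_congr rfl (fun t _ => hin t), Finset.sum_add_distrib, Finset.sum_const,
        Finset.card_range, nsmul_eq_mul] at hk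
      push_cast
      push_cast at hk
      rw [← hk]
      ring
    have hre := congrArg Complex.re hsum
    rw [Complex.re_sum, Complex.ofReal_re] at hre
    have hbound : ∑ t ∈ Finset.range q', (χ (y ^ (p * t))).re ≤ (q' : ℝ) * n := by
      have h1 := Finset.sum_le_sum (fun t (_ : t ∈ Finset.range q') => hle (y ^ (p * t)))
      rw [Finset.sum_const, Finset.card_range, nsmul_eq_mul] at h1
      exact h1
    rw [hre] at hbound
    have hk0 : (0 : ℝ) ≤ ((p * q' : ℕ) : ℝ) * k := by positivity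
    have h3 : (0 : ℝ) ≤ (q' : ℝ) * ((n : ℝ) + ((p - 1 : ℕ) : ℝ) * z) := by nlinarith
    have hq'R : (0 : ℝ) < q' := by exact_mod_cast hq'pos
    have h4 : (0 : ℝ) ≤ (n : ℝ) + ((p - 1 : ℕ) : ℝ) * z := nonneg_of_mul_nonneg_right h3 hq'R
    exact_mod_cast h4

theorem sch_isCharacter_pow {χ : G → ℂ} (hχ : IsCharacter G χ) (i : ℕ) :
    IsCharacter G (fun g => χ g ^ i) := by
  induction i with
  | zero =>
    have h : (fun g : G => χ g ^ 0) = fun _ => 1 := by funext g; rw [pow_zero]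
    rw [h]
    exact isCharacter_of_isIrrCharacter isIrrCharacter_one
  | succ i ih =>
    have h : (fun g : G => χ g ^ (i + 1)) = (fun g : G => χ g ^ i) * χ := by
      funext g; rw [pow_succ]; rfl
    rw [h]
    exact Helper5.isCharacter_mul ih hχ

theorem sch_blichfeldt {χ : G → ℂ} (hχ : IsCharacter G χ) (P : Subgroup G)
    (p n J : ℕ) (hn : χ 1 = n)
    (hval : ∀ u ∈ P, u ≠ 1 → ∃ j ∈ Finset.range J, χ u = (n : ℂ) - (p : ℂ) * ((j + 1 : ℕ) : ℂ)) :
    Nat.card P ∣ p ^ J * J.factorial := by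
  haveI : Fintype ↥P := Fintype.ofFinite _
  obtain ⟨q, hq⟩ : ∃ q : Polynomial ℤ, q = ∏ j ∈ Finset.range J,
      (Polynomial.X - Polynomial.C ((n : ℤ) - (p : ℤ) * ((j + 1 : ℕ) : ℤ))) := ⟨_, rfl⟩
  have heval : ∀ x : ℂ, Polynomial.aeval x q =
      ∏ j ∈ Finset.range J, (x - ((n : ℂ) - (p : ℂ) * ((j + 1 : ℕ) : ℂ))) := by
    intro x
    rw [hq, map_prod]
    refine Finset.prod_congr rfl (fun j _ => ?_)
    rw [map_sub, Polynomial.aeval_X, Polynomial.aeval_C]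
    simp
  have h1 : ∑ u : ↥P, Polynomial.aeval (χ u) q = ((p ^ J * J.factorial : ℕ) : ℂ) := by
    rw [Finset.sum_eq_single (1 : ↥P)]
    · rw [heval, Subgroup.coe_one, hn]
      have h : ∀ j ∈ Finset.range J,
          ((n : ℂ) - ((n : ℂ) - (p : ℂ) * ((j + 1 : ℕ) : ℂ))) = ((p * (j + 1) : ℕ) : ℂ) := by
        intro j _; push_cast; ring
      rw [Finset.prod_congr rfl h, ← Nat.cast_prod, Finset.prod_mul_distrib, Finset.prod_const,
        Finset.card_range, Finset.prod_range_add_one_eq_factorial]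
    · intro u _ hu
      rw [heval]
      obtain ⟨j, hj, hju⟩ := hval u u.2 (fun h => hu (Subtype.ext h))
      exact Finset.prod_eq_zero hj (by rw [hju, sub_self])
    · intro h; exact absurd (Finset.mem_univ _) h
  have h2 : ∀ i : ℕ, ∃ k : ℕ, ∑ u : ↥P, (χ u) ^ i = (Nat.card P : ℂ) * k :=
    fun i => sch_sum_char (isCharacter_restrict P (sch_isCharacter_pow hχ i))
  choose k hk using h2
  have h3 : ∑ u : ↥P, Polynomial.aeval (χ u) q = (Nat.card P : ℂ) *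
      ((∑ i ∈ Finset.range (q.natDegree + 1), q.coeff i * (k i : ℤ) : ℤ) : ℂ) := by
    simp only [Polynomial.aeval_eq_sum_range]
    rw [Finset.sum_comm]
    push_cast
    rw [Finset.mul_sum]
    refine Finset.sum_congr rfl (fun i _ => ?_)
    rw [← Finset.smul_sum, hk i, zsmul_eq_mul]
    ring
  rw [h1] at h3
  have h4 : ((p ^ J * J.factorial : ℕ) : ℤ) = (Nat.card P : ℤ) *
      (∑ i ∈ Finset.range (q.natDegree + 1), q.coeff i * (k i : ℤ)) := by
    exact_mod_cast h3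
  exact Int.natCast_dvd_natCast.mp ⟨_, h4⟩

end

end Cfsg.Agent.Helper24
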