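import Mathlib
import Cfsg.Agent.Helper5.BlkOrth2
import Cfsg.Agent.Helper5.BlkOsima
import Cfsg.Agent.Helper5.BlkLoc
import Cfsg.Agent.Helper24.Schur2
import Cfsg.Agent.Helper24.CharInd

/-!
helper24: the `p`-blocks do not depend on the maximal ideal `M` above `p`.
-/

set_option autoImplicit false

namespace Cfsg.Agent.Helper24

open Cfsg Cfsg.Agent.Helper22 Cfsg.Agent.Helper5

universe u

variable {G : Type u} [Group G] [Fintype G]

/-- the indicator of an `M'`-block is a spectral vector with local-integer class function for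
any other `p`-modular ideal `M`. -/
theorem bi_indicator_mem {p : ℕ} [Fact p.Prime] {M M' : Ideal AlgInt} (hM : IsPModular p M)
    (hM' : IsPModular p M') [hMp : M.IsPrime] [hMp' : M'.IsPrime] (χ : IrrCharacter G)
    (c : IrrCharacter G → ℂ)
    (hc1 : ∀ θ : IrrCharacter G, SameBlock M' (χ : G → ℂ) (θ : G → ℂ) → c θ = 1)
    (hc0 : ∀ θ : IrrCharacter G, ¬ SameBlock M' (χ : G → ℂ) (θ : G → ℂ) → c θ = 0) :
    c ∈ specRing M G := by
  classical
  intro g
  have hG0 : (Nat.card G : ℂ) ≠ 0 := Nat.cast_ne_zero.mpr Nat.card_pos.ne'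
  obtain ⟨B, hB⟩ : ∃ B : Finset (IrrCharacter G), B = Finset.univ.filter
      (fun θ : IrrCharacter G => SameBlock M' (χ : G → ℂ) (θ : G → ℂ)) := ⟨_, rfl⟩
  have hspec : specFun c g = (Nat.card G : ℂ)⁻¹ *
      ∑ θ ∈ B, (θ : G → ℂ) 1 * starRingEnd ℂ ((θ : G → ℂ) g) := by
    unfold specFun
    rw [hB, Finset.sum_filter]
    congr 1
    refine Finset.sum_congr rfl fun θ _ => ?_
    by_cases hθ : SameBlock M' (χ : G → ℂ) (θ : G → ℂ)
    · rw [if_pos hθ, hc1 θ hθ, one_mul]
    · rw [if_neg hθ, hc0 θ hθ, zero_mul]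
  rw [hspec]
  by_cases hg : p ∣ orderOf g
  · have h0 := weak_block_orth_sum hM' χ 1 g
      (by rw [orderOf_one]; exact fun h => (Fact.out : p.Prime).one_lt.ne' (Nat.dvd_one.mp h)) hg
    rw [← hB] at h0
    rw [h0, mul_zero]
    exact (locRing M).zero_mem
  · obtain ⟨Q⟩ : Nonempty (Sylow p G) := inferInstance
    have hk : ∀ θ : IrrCharacter G, ∃ k : ℕ, ∑ q : (Q : Subgroup G), (θ : G → ℂ) q
        = (Nat.card (Q : Subgroup G) : ℂ) * k := fun θ =>
      sch_sum_char (isCharacter_restrict (Q : Subgroup G) (isCharacter_of_isIrrCharacter θ.2))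
    choose k hk using hk
    have horth : ∀ q : (Q : Subgroup G), q ≠ 1 →
        ∑ θ ∈ B, (θ : G → ℂ) q * starRingEnd ℂ ((θ : G → ℂ) g) = 0 := by
      intro q hq
      have hpq : p ∣ orderOf (q : G) := by
        obtain ⟨j, hj⟩ := (IsPGroup.iff_orderOf.mp Q.isPGroup') q
        rw [Subgroup.orderOf_coe, hj]
        have hj0 : j ≠ 0 := by
          rintro rfl
          rw [pow_zero, orderOf_eq_one_iff] at hj
          exact hq hj
        exact dvd_pow_self p hj0
      have h0 := weak_block_orth_sum hM' χ g (q : G) hg hpq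
      rw [← hB] at h0
      have h1 := congrArg (starRingEnd ℂ) h0
      rw [map_sum, map_zero] at h1
      rw [← h1]
      refine Finset.sum_congr rfl fun θ _ => ?_
      rw [map_mul, Complex.conj_conj, mul_comm]
    have hsum : ∑ θ ∈ B, (θ : G → ℂ) 1 * starRingEnd ℂ ((θ : G → ℂ) g)
        = (Nat.card (Q : Subgroup G) : ℂ) *
          ∑ θ ∈ B, (k θ : ℂ) * starRingEnd ℂ ((θ : G → ℂ) g) := by
      have h1 : ∑ q : (Q : Subgroup G), ∑ θ ∈ B,
          (θ : G → ℂ) q * starRingEnd ℂ ((θ : G → ℂ) g)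
          = ∑ θ ∈ B, (θ : G → ℂ) 1 * starRingEnd ℂ ((θ : G → ℂ) g) := by
        rw [Finset.sum_eq_single (1 : (Q : Subgroup G)) (fun q _ hq => horth q hq)
          (fun h => absurd (Finset.mem_univ _) h)]
        rfl
      rw [← h1, Finset.sum_comm, Finset.mul_sum]
      refine Finset.sum_congr rfl fun θ _ => ?_
      rw [← Finset.sum_mul, hk θ]
      ring
    rw [hsum]
    obtain ⟨m, hm⟩ : ∃ m, m = (Q : Subgroup G).index := ⟨_, rfl⟩
    have hcard : Nat.card G = Nat.card (Q : Subgroup G) * m := by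
      rw [hm]; exact ((Q : Subgroup G).card_mul_index).symm
    have hQ0 : (Nat.card (Q : Subgroup G) : ℂ) ≠ 0 := Nat.cast_ne_zero.mpr Nat.card_pos.ne'
    have hpm : ¬ p ∣ m := by rw [hm]; exact Q.not_dvd_index
    have hm0 : (m : ℂ) ≠ 0 := by
      intro h0
      rw [Nat.cast_eq_zero] at h0
      exact hpm (h0 ▸ dvd_zero p)
    have e : (Nat.card G : ℂ)⁻¹ * ((Nat.card (Q : Subgroup G) : ℂ) *
          ∑ θ ∈ B, (k θ : ℂ) * starRingEnd ℂ ((θ : G → ℂ) g))
        = (m : ℂ)⁻¹ * ∑ θ ∈ B, (k θ : ℂ) * starRingEnd ℂ ((θ : G → ℂ) g) := by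
      rw [hcard]
      push_cast
      field_simp
    rw [e]
    refine (locRing M).mul_mem (natCast_inv_memLocalRing hM hpm) ?_
    refine (locRing M).sum_mem fun θ _ => ?_
    refine (locRing M).mul_mem (natCast_memLocalRing _) ?_
    rw [← irr_inv]
    exact integral_mem_locRing (irr_isIntegral θ g⁻¹)

/-- **the block relation does not depend on the maximal ideal above `p`**. -/
theorem bi_sameBlock {G : Type u} [Group G] [Finite G] (p : ℕ) [Fact p.Prime]
    {M M' : Ideal AlgInt} (hM : IsPModular p M) (hM' : IsPModular p M') (χ ψ : IrrCharacter G)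
    (h : SameBlock M (χ : G → ℂ) (ψ : G → ℂ)) : SameBlock M' (χ : G → ℂ) (ψ : G → ℂ) := by
  classical
  haveI : Fintype G := Fintype.ofFinite G
  haveI hMp : M.IsPrime := hM.2.1.isPrime
  haveI hMp' : M'.IsPrime := hM'.2.1.isPrime
  by_contra hne
  have hc := bi_indicator_mem hM hM' χ
    (fun θ : IrrCharacter G => if SameBlock M' (χ : G → ℂ) (θ : G → ℂ) then (1 : ℂ) else 0)
    (fun θ hθ => if_pos hθ) (fun θ hθ => if_neg hθ)
  have h1 : MemLocalIdeal M ((if SameBlock M' (χ : G → ℂ) (χ : G → ℂ) then (1 : ℂ) else 0)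
      - (if SameBlock M' (χ : G → ℂ) (ψ : G → ℂ) then (1 : ℂ) else 0)) := spec_congr hc h
  rw [if_pos (sameBlock_refl _), if_neg hne, sub_zero] at h1
  exact not_memLocalIdeal_one h1

theorem bi_main {G : Type u} [Group G] [Finite G] (p : ℕ) [Fact p.Prime]
    (M : Ideal AlgInt) (hM : IsPModular p M) (χ ψ : IrrCharacter G)
    (h : SameBlock M (χ : G → ℂ) (ψ : G → ℂ)) (M' : Ideal AlgInt) (hM' : IsPModular p M')
    (g : G) : ∃ r : AlgInt, r ∈ M' ∧
      (r : ℂ) = centralChar (χ : G → ℂ) g - centralChar (ψ : G → ℂ) g := by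
  haveI : Fintype G := Fintype.ofFinite G
  haveI hMp' : M'.IsPrime := hM'.2.1.isPrime
  have h' := bi_sameBlock p hM hM' χ ψ h g
  have hint : IsIntegral ℤ (centralChar (χ : G → ℂ) g - centralChar (ψ : G → ℂ) g) :=
    (centralChar_isIntegral χ g).sub (centralChar_isIntegral ψ g)
  refine ⟨⟨_, hint⟩, ?_, rfl⟩
  exact (algInt_memLocalIdeal_iff (⟨_, hint⟩ : AlgInt)).mp h'

end Cfsg.Agent.Helper24
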