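import Cfsg.Agent.Helper24.CharCodeg
import Cfsg.Agent.Helper24.CharIto

/-!
# Broline–Garrison: group-theoretic part

Frattini argument for Sylow subgroups of normal subgroups given as subgroups of `G`, and the
existence of the subgroups used in the proof of the Broline–Garrison theorem.
-/

set_option autoImplicit false

namespace Cfsg.Agent.Helper24

open Cfsg
open scoped commutatorElement

universe u

variable {G : Type u} [Group G]

/-- Frattini argument: `R ≤ N ⊴ G` a `p`-subgroup with `p ∤ |N : R|`. -/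
theorem frattini_of_sylow_sub [Finite G] (p : ℕ) [Fact p.Prime] (N R : Subgroup G) [N.Normal]
    (hRN : R ≤ N) (hR : IsPGroup p R) (hidx : ¬ p ∣ R.relIndex N) :
    Subgroup.normalizer (R : Set G) ⊔ N = ⊤ := by
  have hR' : IsPGroup p (R.subgroupOf N) := hR.comap_subtype
  have hidx' : ¬ p ∣ (R.subgroupOf N).index := hidx
  have h := Sylow.normalizer_sup_eq_top (hR'.toSylow hidx')
  have e : ((hR'.toSylow hidx' : Sylow p N) : Subgroup N).map N.subtype = R := by
    rw [IsPGroup.toSylow_coe]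
    exact Subgroup.map_subgroupOf_eq_of_le hRN
  rw [← e]
  exact h

theorem not_dvd_relIndex_of_le (p : ℕ) (R N N' : Subgroup G) (hRN : R ≤ N)
    (hNN' : N ≤ N') (h : ¬ p ∣ R.relIndex N') : ¬ p ∣ R.relIndex N := by
  intro hd
  apply h
  rw [← Subgroup.relIndex_mul_relIndex R N N' hRN hNN']
  exact dvd_mul_of_dvd_left hd _

/-- If the normal subgroup `K` is not contained in the Fitting subgroup, some Sylow subgroup
of `K` is not normal in `G`. -/
theorem exists_sylow_not_normal_of_not_le_fitting [Finite G] (K : Subgroup G) [hK : K.Normal]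
    (h : ¬ K ≤ fittingSubgroup G) :
    ∃ (p : ℕ) (_ : Fact p.Prime) (R : Subgroup G), R ≤ K ∧ IsPGroup p R ∧
      ¬ p ∣ R.relIndex K ∧ Subgroup.normalizer (R : Set G) ≠ ⊤ := by
  have hnil : ¬ Group.IsNilpotent K := by
    intro hn
    apply h
    exact le_sSup ⟨hK, hn⟩
  have htfae := (Group.isNilpotent_of_finite_tfae (G := K)).out 0 3
  rw [htfae] at hnil
  push Not at hnil
  obtain ⟨p, hp, P, hP⟩ := hnil
  haveI := hp
  refine ⟨p, hp, (P : Subgroup K).map K.subtype, Subgroup.map_subtype_le _,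
    P.isPGroup'.map _, ?_, ?_⟩
  · have e : ((P : Subgroup K).map K.subtype).relIndex K = (P : Subgroup K).index := by
      unfold Subgroup.relIndex
      rw [Subgroup.subgroupOf, Subgroup.comap_map_eq_self_of_injective K.subtype_injective]
    rw [e]
    exact P.not_dvd_index
  · intro htop
    apply hP
    have hn : ((P : Subgroup K).map K.subtype).Normal :=
      Subgroup.normalizer_eq_top_iff.mp htop
    have e : (P : Subgroup K) = ((P : Subgroup K).map K.subtype).comap K.subtype :=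
      (Subgroup.comap_map_eq_self_of_injective K.subtype_injective _).symm
    rw [e]
    exact hn.comap _


/-- A nontrivial finite solvable group has a nontrivial normal subgroup of prime power order. -/
theorem exists_normal_pgroup_of_solvable {X : Type u} [Group X] [Finite X]
    (hs : Group.IsSolvable X) (hX : (⊥ : Subgroup X) ≠ ⊤) :
    ∃ (q : ℕ) (_ : Fact q.Prime) (T : Subgroup X), T.Normal ∧ T ≠ ⊥ ∧ IsPGroup q T := by
  classical
  have hex : ∃ k, derivedSeries X k = ⊥ := (Group.isSolvable_def X).mp hs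
  obtain ⟨k, hk, hmin⟩ : ∃ k, derivedSeries X k = ⊥ ∧ ∀ m < k, derivedSeries X m ≠ ⊥ :=
    ⟨Nat.find hex, Nat.find_spec hex, fun m hm => Nat.find_min hex hm⟩
  have hk0' : k ≠ 0 := by
    rintro rfl
    rw [derivedSeries_zero] at hk
    exact hX hk.symm
  obtain ⟨j, rfl⟩ := Nat.exists_eq_succ_of_ne_zero hk0'
  obtain ⟨A, hA⟩ : ∃ A : Subgroup X, A = derivedSeries X j := ⟨_, rfl⟩
  have hAn : A.Normal := by rw [hA]; exact derivedSeries_normal X j
  have hAbot : A ≠ ⊥ := by rw [hA]; exact hmin j (Nat.lt_succ_self j)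
  have hAab : ∀ a ∈ A, ∀ b ∈ A, a * b = b * a := by
    intro a ha b hb
    have h1 : ⁅a, b⁆ ∈ ⁅A, A⁆ := Subgroup.commutator_mem_commutator ha hb
    have h2 : ⁅A, A⁆ = ⊥ := by rw [hA, ← derivedSeries_succ]; exact hk
    rw [h2, Subgroup.mem_bot] at h1
    exact (commutatorElement_eq_one_iff_commute.mp h1).eq
  have hAcard : 1 < Nat.card A := (Subgroup.one_lt_card_iff_ne_bot A).mpr hAbot
  obtain ⟨p, hp, hpd⟩ := Nat.exists_prime_and_dvd hAcard.ne'
  haveI : Fact p.Prime := ⟨hp⟩
  let T : Subgroup X :=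
    { carrier := {a | a ∈ A ∧ ∃ k : ℕ, a ^ p ^ k = 1}
      mul_mem' := by
        rintro a b ⟨ha, ka, hka⟩ ⟨hb, kb, hkb⟩
        refine ⟨A.mul_mem ha hb, ka + kb, ?_⟩
        have hc : Commute a b := hAab a ha b hb
        rw [hc.mul_pow, pow_add, pow_mul, hka, one_pow, mul_comm (p ^ ka) (p ^ kb), pow_mul,
          hkb, one_pow, one_mul]
      one_mem' := ⟨A.one_mem, 0, one_pow _⟩
      inv_mem' := by
        rintro a ⟨ha, ka, hka⟩
        exact ⟨A.inv_mem ha, ka, by rw [inv_pow, hka, inv_one]⟩ }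
  have hTmem : ∀ a : X, a ∈ T ↔ a ∈ A ∧ ∃ k : ℕ, a ^ p ^ k = 1 := fun a => Iff.rfl
  have hTn : T.Normal := by
    constructor
    intro a ha g
    rw [hTmem] at ha ⊢
    obtain ⟨haA, ka, hka⟩ := ha
    refine ⟨hAn.conj_mem a haA g, ka, ?_⟩
    rw [conj_pow, hka, mul_one, mul_inv_cancel]
  have hTp : IsPGroup p T := by
    intro t
    obtain ⟨-, kt, hkt⟩ := (hTmem t).mp t.2
    exact ⟨kt, Subtype.ext hkt⟩
  refine ⟨p, ⟨hp⟩, T, hTn, ?_, hTp⟩
  intro hT
  obtain ⟨a, ha⟩ := exists_prime_orderOf_dvd_card' p hpd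
  have ha1 : (a : X) ∈ T := by
    rw [hTmem]
    refine ⟨a.2, 1, ?_⟩
    have h := pow_orderOf_eq_one a
    rw [ha] at h
    rw [pow_one]
    exact congrArg Subtype.val h
  rw [hT, Subgroup.mem_bot] at ha1
  have ha2 : a = 1 := Subtype.ext ha1
  rw [ha2, orderOf_one] at ha
  exact hp.one_lt.ne ha

/-- The configuration above a Fitting subgroup `K` with `G ⧸ K` solvable and nontrivial. -/
theorem exists_chief_above [Finite G] (K : Subgroup G) [hK : K.Normal]
    (hKF : K = fittingSubgroup G) (hsolv : Group.IsSolvable (G ⧸ K)) (hKtop : K ≠ ⊤) :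
    ∃ (q : ℕ) (_ : Fact q.Prime) (L R : Subgroup G), L.Normal ∧ K < L ∧
      (∀ X : Subgroup G, X.Normal → K ≤ X → X ≤ L → X = K ∨ X = L) ∧
      R ≤ L ∧ IsPGroup q R ∧ ¬ q ∣ R.relIndex L ∧ K ⊔ R = L ∧
      Subgroup.normalizer (R : Set G) ≠ ⊤ := by
  have hX : (⊥ : Subgroup (G ⧸ K)) ≠ ⊤ := by
    intro h
    apply hKtop
    refine eq_top_iff.mpr fun g _ => (QuotientGroup.eq_one_iff g).mp ?_
    have h1 : (g : G ⧸ K) ∈ (⊤ : Subgroup (G ⧸ K)) := Subgroup.mem_top _
    rw [← h] at h1
    exact Subgroup.mem_bot.mp h1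
  obtain ⟨q, hq, T, hTn, hTbot, hTq⟩ := exists_normal_pgroup_of_solvable hsolv hX
  haveI := hq
  have hne : {L' : Subgroup G | L'.Normal ∧ K < L' ∧ ∃ k : ℕ, K.relIndex L' = q ^ k}.Nonempty := by
    refine ⟨T.comap (QuotientGroup.mk' K), hTn.comap _, ?_, ?_⟩
    · refine lt_of_le_of_ne ?_ ?_
      · intro g hg
        rw [Subgroup.mem_comap, QuotientGroup.mk'_apply, (QuotientGroup.eq_one_iff g).mpr hg]
        exact T.one_mem
      · intro heq
        obtain ⟨t, ht, ht1⟩ := (Subgroup.ne_bot_iff_exists_ne_one).mp hTbot |>.imp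
          (fun a ha => ha) |> fun ⟨a, ha⟩ => (⟨(a : G ⧸ K), a.2, fun h => ha (Subtype.ext h)⟩ :
            ∃ t : G ⧸ K, t ∈ T ∧ t ≠ 1)
        obtain ⟨g, rfl⟩ := QuotientGroup.mk'_surjective K t
        have hg : g ∈ T.comap (QuotientGroup.mk' K) := ht
        rw [← heq] at hg
        exact ht1 ((QuotientGroup.eq_one_iff g).mpr hg)
    · have h1 := Subgroup.relIndex_comap (⊥ : Subgroup (G ⧸ K)) (QuotientGroup.mk' K)
        (T.comap (QuotientGroup.mk' K))
      rw [MonoidHom.comap_bot, QuotientGroup.ker_mk',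
        Subgroup.map_comap_eq_self_of_surjective (QuotientGroup.mk'_surjective K),
        Subgroup.relIndex_bot_left] at h1
      rw [h1]
      exact IsPGroup.iff_card.mp hTq
  obtain ⟨L, ⟨hLn, hKL, k, hk⟩, hLmin⟩ := Set.exists_min_image
    {L' : Subgroup G | L'.Normal ∧ K < L' ∧ ∃ k : ℕ, K.relIndex L' = q ^ k}
    (fun L' => Nat.card L') (Set.toFinite _) hne
  obtain ⟨Q⟩ : Nonempty (Sylow q L) := inferInstance
  have hRL : (Q : Subgroup L).map L.subtype ≤ L := Subgroup.map_subtype_le _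
  have hRq : IsPGroup q ((Q : Subgroup L).map L.subtype) := Q.isPGroup'.map _
  have hRidx : ¬ q ∣ ((Q : Subgroup L).map L.subtype).relIndex L := by
    have e : ((Q : Subgroup L).map L.subtype).relIndex L = (Q : Subgroup L).index := by
      unfold Subgroup.relIndex
      rw [Subgroup.subgroupOf, Subgroup.comap_map_eq_self_of_injective L.subtype_injective]
    rw [e]
    exact Q.not_dvd_index
  have hsup : K ⊔ (Q : Subgroup L).map L.subtype = L := by
    apply le_antisymm (sup_le hKL.le hRL)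
    rw [← Subgroup.relIndex_eq_one]
    have h1 := Subgroup.relIndex_mul_relIndex K (K ⊔ (Q : Subgroup L).map L.subtype) L
      le_sup_left (sup_le hKL.le hRL)
    have h2 := Subgroup.relIndex_mul_relIndex ((Q : Subgroup L).map L.subtype)
      (K ⊔ (Q : Subgroup L).map L.subtype) L le_sup_right (sup_le hKL.le hRL)
    have h3 : (K ⊔ (Q : Subgroup L).map L.subtype).relIndex L ∣ q ^ k := by
      rw [← hk, ← h1]; exact dvd_mul_left _ _
    obtain ⟨j, -, hj⟩ := (Nat.dvd_prime_pow hq.out).mp h3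
    have h4 : (K ⊔ (Q : Subgroup L).map L.subtype).relIndex L ∣
        ((Q : Subgroup L).map L.subtype).relIndex L := by
      rw [← h2]; exact dvd_mul_left _ _
    rw [hj] at h4 ⊢
    have hj0 : j = 0 := by
      by_contra hj0
      exact hRidx ((dvd_pow_self q hj0).trans h4)
    rw [hj0, pow_zero]
  refine ⟨q, hq, L, (Q : Subgroup L).map L.subtype, hLn, hKL, ?_, hRL, hRq, hRidx, hsup, ?_⟩
  · intro X hXn hKX hXL
    by_cases hXK : X = K
    · exact Or.inl hXK
    · right
      have hlt : K < X := lt_of_le_of_ne hKX (Ne.symm hXK)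
      have h1 := Subgroup.relIndex_mul_relIndex K X L hKX hXL
      have h3 : K.relIndex X ∣ q ^ k := by
        rw [← hk, ← h1]; exact dvd_mul_right _ _
      obtain ⟨j, -, hj⟩ := (Nat.dvd_prime_pow hq.out).mp h3
      have h5 := hLmin X ⟨hXn, hlt, j, hj⟩
      exact Subgroup.eq_of_le_of_card_ge hXL h5
  · intro htop
    have hn : ((Q : Subgroup L).map L.subtype).Normal :=
      Subgroup.normalizer_eq_top_iff.mp htop
    have hnil : Group.IsNilpotent ((Q : Subgroup L).map L.subtype) := hRq.isNilpotent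
    have hle : (Q : Subgroup L).map L.subtype ≤ fittingSubgroup G := le_sSup ⟨hn, hnil⟩
    rw [← hKF] at hle
    rw [sup_eq_left.mpr hle] at hsup
    exact hKL.ne hsup

end Cfsg.Agent.Helper24
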