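import Cfsg.Agent.Helper24.BrolGar1
import Cfsg.Agent.Helper24.CharPerm
import Cfsg.Agent.Helper22.Ito
import Cfsg.Agent.Helper22.Brauer3
import Cfsg.Agent.Helper5.Cliff

/-!
# Broline–Garrison theorem

`brolGar` : `χ ∈ Irr(G)` with kernel `K`.  If `K ⊄ F(G)`, or `K = F(G) < G` with `G ⧸ K`
solvable, there is `ψ ∈ Irr(G)` with `ψ(1) > χ(1)` and `ker ψ < K`.
-/

set_option autoImplicit false

namespace Cfsg.Agent.Helper24

open Cfsg Representation Module
open scoped Classical

universe u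

variable {G : Type u} [Group G]

/-- Restriction of an irreducible character to a supplement of a normal subgroup in its kernel
is irreducible. -/
theorem isIrrCharacter_restrict_of_sup_eq_top [Finite G] (ψ : IrrCharacter G) (N M : Subgroup G)
    [N.Normal] (hN : ∀ g ∈ N, (ψ : G → ℂ) g = (ψ : G → ℂ) 1) (hNM : N ⊔ M = ⊤) :
    IsIrrCharacter M (fun m : M => (ψ : G → ℂ) m) := by
  obtain ⟨n, ρ, hρ, hψ⟩ := ψ.2
  haveI : ρ.IsIrreducible := hρ
  have hmem := (codeg_char_eq ρ).2.2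
  have hirr : IsIrrCharacter (G ⧸ MonoidHom.ker ρ) (kerLiftRep ρ).character := by
    haveI := kerLiftRep_isIrreducible ρ
    exact isIrrCharacter_of_irreducible (kerLiftRep ρ)
  have hsurj : Function.Surjective
      ((QuotientGroup.mk' (MonoidHom.ker ρ)).comp M.subtype) := by
    intro x
    obtain ⟨g, rfl⟩ := QuotientGroup.mk'_surjective _ x
    have hg : g ∈ N ⊔ M := by rw [hNM]; exact Subgroup.mem_top g
    have hset : g ∈ ((N ⊔ M : Subgroup G) : Set G) := hg
    rw [Subgroup.normal_mul] at hset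
    obtain ⟨a, ha, b, hb, rfl⟩ := Set.mem_mul.mp hset
    refine ⟨⟨b, hb⟩, ?_⟩
    show (QuotientGroup.mk' (MonoidHom.ker ρ)) b = (QuotientGroup.mk' (MonoidHom.ker ρ)) (a * b)
    rw [map_mul]
    have h1 : (QuotientGroup.mk' (MonoidHom.ker ρ)) a = 1 := by
      rw [QuotientGroup.mk'_apply, QuotientGroup.eq_one_iff, hmem, hψ]
      exact hN a ha
    rw [h1, one_mul]
  have h := isIrrCharacter_comp_surj _ hsurj _ hirr
  have e : (fun m : M => (kerLiftRep ρ).character
      (((QuotientGroup.mk' (MonoidHom.ker ρ)).comp M.subtype) m)) =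
      fun m : M => (ψ : G → ℂ) m := by
    funext m
    rw [← hψ]
    rfl
  rw [e] at h
  exact h

/-- Values of the character induced from the restriction of a class function. -/
theorem indFun_restrict_apply [Fintype G] (χ : IrrCharacter G) (M : Subgroup G) (y : G) :
    indFun M (fun m : M => (χ : G → ℂ) m) y =
      (Nat.card M : ℂ)⁻¹ * ((Finset.univ.filter (fun x : G => x⁻¹ * y * x ∈ M)).card : ℂ) *
        (χ : G → ℂ) y := by
  rw [Helper5.indFun_apply, mul_assoc]
  congr 1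
  have h1 : ∀ x : G, extendByZero M (fun m : M => (χ : G → ℂ) m) (x⁻¹ * y * x) =
      if x⁻¹ * y * x ∈ M then (χ : G → ℂ) y else 0 := by
    intro x
    by_cases h : x⁻¹ * y * x ∈ M
    · rw [if_pos h, extendByZero_apply_mem M _ h]
      have h2 := irr_conj χ y x⁻¹
      rw [inv_inv] at h2
      exact h2
    · rw [if_neg h, extendByZero_apply_not_mem M _ h]
  rw [Finset.sum_congr rfl (fun x _ => h1 x), Finset.sum_ite, Finset.sum_const_zero, add_zero,
    Finset.sum_const, nsmul_eq_mul]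

/-- If `θ ∈ Irr(M)` is a constituent of `ψ|_M` and `ψ(1) ≤ θ(1)` then `ψ|_M = θ`. -/
theorem restrict_eq_of_degree_le [Fintype G] (M : Subgroup G) [Fintype M] (ψ : IrrCharacter G)
    (θ : IrrCharacter M)
    (hc : classInner (θ : M → ℂ) (fun m : M => (ψ : G → ℂ) m) ≠ 0)
    (hdeg : charDegree (ψ : G → ℂ) ≤ charDegree (θ : M → ℂ)) :
    (fun m : M => (ψ : G → ℂ) m) = (θ : M → ℂ) := by
  have hres : IsCharacter M (fun m : M => (ψ : G → ℂ) m) :=
    isCharacter_restrict M (isCharacter_of_isIrrCharacter ψ.2)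
  have hc' : classInner (fun m : M => (ψ : G → ℂ) m) (θ : M → ℂ) ≠ 0 := by
    rw [classInner_conj_symm]
    intro h0
    apply hc
    have h1 := congrArg (starRingEnd ℂ) h0
    rwa [Complex.conj_conj, map_zero] at h1
  obtain ⟨a, ha⟩ := isCharacter_inner_irr hres θ
  have ha0 : a ≠ 0 := by
    rintro rfl
    rw [Nat.cast_zero] at ha
    exact hc' ha
  have hΔ : IsCharacter M ((fun m : M => (ψ : G → ℂ) m) - (θ : M → ℂ)) := by
    apply isCharacter_of_classFunction_of_inner_nat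
    · intro g h
      simp only [Pi.sub_apply]
      have e1 : (ψ : G → ℂ) ((h * g * h⁻¹ : M) : G) = (ψ : G → ℂ) (g : G) :=
        isCharacter_isClassFunction hres g h
      rw [e1, irr_conj θ g h]
    · intro φ
      obtain ⟨b, hb⟩ := isCharacter_inner_irr hres φ
      rw [classInner_sub_left, hb, irr_orthonormal]
      by_cases hφ : θ = φ
      · rw [if_pos hφ]
        subst hφ
        rw [ha] at hb
        have hab : a = b := by exact_mod_cast hb
        refine ⟨b - 1, ?_⟩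
        rw [Nat.cast_sub (by omega), Nat.cast_one]
      · rw [if_neg hφ, sub_zero]
        exact ⟨b, rfl⟩
  obtain ⟨n, ρ, hρ⟩ := hΔ
  have h1 : ((fun m : M => (ψ : G → ℂ) m) - (θ : M → ℂ)) 1 = (n : ℂ) := by
    rw [← hρ]; exact char_one_fin ρ
  obtain ⟨hψ1, -, -⟩ := Helper22.irr_charDegree_spec ψ
  obtain ⟨hθ1, -, -⟩ := Helper22.irr_charDegree_spec θ
  have h2 : (charDegree (ψ : G → ℂ) : ℂ) - (charDegree (θ : M → ℂ) : ℂ) = (n : ℂ) := by
    rw [← h1, Pi.sub_apply, ← hθ1, ← hψ1]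
    rfl
  have h3 : charDegree (ψ : G → ℂ) = n + charDegree (θ : M → ℂ) := by
    have h4 : (charDegree (ψ : G → ℂ) : ℂ) = ((n + charDegree (θ : M → ℂ) : ℕ) : ℂ) := by
      push_cast; linear_combination h2
    exact_mod_cast h4
  have hn : n = 0 := by omega
  subst hn
  have hzero : ((fun m : M => (ψ : G → ℂ) m) - (θ : M → ℂ)) = 0 := by
    rw [← hρ]
    funext g
    show LinearMap.trace ℂ (Fin 0 → ℂ) (ρ g) = 0
    have h5 : ρ g = 0 := Subsingleton.elim _ _
    rw [h5, map_zero]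
  exact sub_eq_zero.mp hzero


/-- Core lemma: `G = KM`, `M` maximal, `θ = χ|_M`.  If no constituent of `θ^G` has degree larger
than `χ(1)`, then `K ∩ M ⊴ G` and `χ` vanishes on `M` outside the core of `M`. -/
theorem brolGar_core [Fintype G] (χ : IrrCharacter G) (K M : Subgroup G) [hKn : K.Normal]
    [Fintype M]
    (hK : ∀ g : G, g ∈ K ↔ (χ : G → ℂ) g = (χ : G → ℂ) 1) (hKM : K ⊔ M = ⊤) (hM : IsCoatom M)
    (hdeg : ∀ ψ : IrrCharacter G,
      classInner (indFun M (fun m : M => (χ : G → ℂ) m)) (ψ : G → ℂ) ≠ 0 →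
      charDegree (ψ : G → ℂ) ≤ charDegree (χ : G → ℂ)) :
    (K ⊓ M).Normal ∧ ∀ y ∈ M, (χ : G → ℂ) y ≠ 0 → y ∈ M.normalCore := by
  have hθ : IsIrrCharacter M (fun m : M => (χ : G → ℂ) m) :=
    isIrrCharacter_restrict_of_sup_eq_top χ K M (fun g hg => (hK g).mp hg) hKM
  obtain ⟨Φ, hΦdef⟩ : ∃ Φ : G → ℂ, Φ = indFun M (fun m : M => (χ : G → ℂ) m) := ⟨_, rfl⟩
  rw [← hΦdef] at hdeg
  have hΦ : IsCharacter G Φ := by
    rw [hΦdef]; exact isCharacter_induced M _ (isCharacter_of_isIrrCharacter hθ)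
  have hΦcf := isCharacter_isClassFunction hΦ
  choose n hn using fun ψ : IrrCharacter G => isCharacter_inner_irr hΦ ψ
  have hdec : ∀ g : G, Φ g = ∑ ψ : IrrCharacter G, (n ψ : ℂ) * (ψ : G → ℂ) g := by
    intro g
    have h1 := congrFun (classFunction_eq_sum_irr Φ hΦcf) g
    rw [Finset.sum_apply] at h1
    rw [h1]
    refine Finset.sum_congr rfl fun ψ _ => ?_
    rw [Pi.smul_apply, smul_eq_mul, hn]
  have hχ1 : (χ : G → ℂ) 1 ≠ 0 := irr_one_ne_zero χ
  have hMc : (Nat.card M : ℂ) ≠ 0 := Nat.cast_ne_zero.mpr Nat.card_pos.ne'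
  -- constituents restrict to `θ`
  have hkey : ∀ ψ : IrrCharacter G, n ψ ≠ 0 →
      (fun m : M => (ψ : G → ℂ) m) = fun m : M => (χ : G → ℂ) m := by
    intro ψ hψ
    have h1 : classInner Φ (ψ : G → ℂ) ≠ 0 := by
      rw [hn]; exact Nat.cast_ne_zero.mpr hψ
    have h2 : classInner (fun m : M => (χ : G → ℂ) m) (fun m : M => (ψ : G → ℂ) m) ≠ 0 := by
      rw [← classInner_indFun M _ (ψ : G → ℂ) (irr_isClassFunction ψ), ← hΦdef]; exact h1
    exact restrict_eq_of_degree_le M ψ ⟨_, hθ⟩ h2 (hdeg ψ h1)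
  have hkey' : ∀ ψ : IrrCharacter G, n ψ ≠ 0 → ∀ y ∈ M, (ψ : G → ℂ) y = (χ : G → ℂ) y := by
    intro ψ hψ y hy
    exact congrFun (hkey ψ hψ) ⟨y, hy⟩
  have hΦ1 : Φ 1 = (M.index : ℂ) * (χ : G → ℂ) 1 := by
    rw [hΦdef, Helper5.indFun_one]; rfl
  -- `Φ = [G : M] χ` on `M`
  have hΦM : ∀ y ∈ M, Φ y = (M.index : ℂ) * (χ : G → ℂ) y := by
    have hsum : ∑ ψ : IrrCharacter G, (n ψ : ℂ) = (M.index : ℂ) := by
      have h1 := hdec 1
      have h2 : ∀ ψ : IrrCharacter G, (n ψ : ℂ) * (ψ : G → ℂ) 1 = (n ψ : ℂ) * (χ : G → ℂ) 1 := by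
        intro ψ
        by_cases hψ : n ψ = 0
        · rw [hψ, Nat.cast_zero, zero_mul, zero_mul]
        · rw [hkey' ψ hψ 1 M.one_mem]
      rw [Finset.sum_congr rfl (fun ψ _ => h2 ψ), ← Finset.sum_mul, hΦ1] at h1
      exact (mul_right_cancel₀ hχ1 h1).symm
    intro y hy
    rw [hdec y]
    have h2 : ∀ ψ : IrrCharacter G, (n ψ : ℂ) * (ψ : G → ℂ) y = (n ψ : ℂ) * (χ : G → ℂ) y := by
      intro ψ
      by_cases hψ : n ψ = 0
      · rw [hψ, Nat.cast_zero, zero_mul, zero_mul]
      · rw [hkey' ψ hψ y hy]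
    rw [Finset.sum_congr rfl (fun ψ _ => h2 ψ), ← Finset.sum_mul, hsum]
  -- counting
  have hcount : ∀ y : G, (χ : G → ℂ) y ≠ 0 → Φ y = (M.index : ℂ) * (χ : G → ℂ) y →
      ∀ x : G, x⁻¹ * y * x ∈ M := by
    intro y hy hΦy
    rw [hΦdef, indFun_restrict_apply χ M y] at hΦy
    have h1 := mul_right_cancel₀ hy hΦy
    have h2 : ((Finset.univ.filter (fun x : G => x⁻¹ * y * x ∈ M)).card : ℂ) =
        ((Nat.card M * M.index : ℕ) : ℂ) := by
      rw [Nat.cast_mul, ← h1, ← mul_assoc, mul_inv_cancel₀ hMc, one_mul]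
    have h3 : (Finset.univ.filter (fun x : G => x⁻¹ * y * x ∈ M)).card = Fintype.card G := by
      rw [← Nat.card_eq_fintype_card, ← Subgroup.card_mul_index M]
      exact_mod_cast h2
    have h4 := Finset.eq_univ_of_card _ h3
    intro x
    have h5 : x ∈ Finset.univ.filter (fun x : G => x⁻¹ * y * x ∈ M) := by
      rw [h4]; exact Finset.mem_univ x
    exact (Finset.mem_filter.mp h5).2
  refine ⟨?_, ?_⟩
  · -- `K ⊓ M` is normal
    have hKM' : ¬ K ≤ M := by
      intro hle
      rw [sup_eq_right.mpr hle] at hKM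
      exact hM.1 hKM
    obtain ⟨k₀, hk₀K, hk₀M⟩ := SetLike.not_le_iff_exists.mp hKM'
    have hk₀χ : (χ : G → ℂ) k₀ = (χ : G → ℂ) 1 := (hK k₀).mp hk₀K
    have hΦk : Φ k₀ ≠ Φ 1 := by
      intro heq
      rw [hΦ1, ← hk₀χ] at heq
      have h1 := hcount k₀ (by rw [hk₀χ]; exact hχ1) heq 1
      apply hk₀M
      simpa using h1
    obtain ⟨ψ, hψn, hψk⟩ : ∃ ψ : IrrCharacter G, n ψ ≠ 0 ∧
        (ψ : G → ℂ) k₀ ≠ (ψ : G → ℂ) 1 := by
      by_contra hcon
      push Not at hcon
      apply hΦk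
      rw [hdec k₀, hdec 1]
      refine Finset.sum_congr rfl fun ψ _ => ?_
      by_cases hψ : n ψ = 0
      · rw [hψ, Nat.cast_zero, zero_mul, zero_mul]
      · rw [hcon ψ hψ]
    obtain ⟨Nψ, -, hNψn, hNψ, -, -, -⟩ := codeg_spec ψ
    haveI := hNψn
    have hle : K ⊓ M ≤ K ⊓ Nψ := by
      intro g hg
      refine ⟨hg.1, (hNψ g).mpr ?_⟩
      rw [hkey' ψ hψn g hg.2, hkey' ψ hψn 1 M.one_mem]
      exact (hK g).mp hg.1
    have hk₀N : k₀ ∉ K ⊓ Nψ := by
      intro h
      exact hψk ((hNψ k₀).mp h.2)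
    have hNM : K ⊓ Nψ ≤ M := by
      by_contra hcon
      have hlt : M < (K ⊓ Nψ) ⊔ M := by
        refine lt_of_le_of_ne le_sup_right ?_
        intro heq
        apply hcon
        rw [heq]
        exact le_sup_left
      have htop := hM.2 _ hlt
      have hk : k₀ ∈ (((K ⊓ Nψ) ⊔ M : Subgroup G) : Set G) := by
        rw [htop]; exact Set.mem_univ k₀
      rw [Subgroup.normal_mul] at hk
      obtain ⟨a, ha, b, hb, hab⟩ := Set.mem_mul.mp hk
      have hbK : b ∈ K := by
        have e : b = a⁻¹ * k₀ := by rw [← hab]; group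
        rw [e]
        exact K.mul_mem (K.inv_mem ha.1) hk₀K
      apply hk₀N
      rw [← hab]
      exact (K ⊓ Nψ).mul_mem ha (hle ⟨hbK, hb⟩)
    have heq : K ⊓ M = K ⊓ Nψ := le_antisymm hle (le_inf inf_le_left hNM)
    rw [heq]
    infer_instance
  · intro y hyM hy
    have h1 := hcount y hy (hΦM y hyM)
    intro b
    have h2 := h1 b⁻¹
    rw [inv_inv] at h2
    exact h2

/-- A constituent `ψ` of `θ^G` of degree larger than `χ(1)` has kernel properly contained in
`K`. -/
theorem brolGar_ker [Fintype G] (χ : IrrCharacter G) (K M : Subgroup G) [hKn : K.Normal]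
    [Fintype M]
    (hK : ∀ g : G, g ∈ K ↔ (χ : G → ℂ) g = (χ : G → ℂ) 1) (hKM : K ⊔ M = ⊤) (hM : IsCoatom M)
    (ψ : IrrCharacter G)
    (hψ : classInner (indFun M (fun m : M => (χ : G → ℂ) m)) (ψ : G → ℂ) ≠ 0)
    (hdeg : charDegree (χ : G → ℂ) < charDegree (ψ : G → ℂ)) (L : Subgroup G) [hLn : L.Normal]
    (hL : ∀ g : G, g ∈ L ↔ (ψ : G → ℂ) g = (ψ : G → ℂ) 1) : L < K := by
  have hθ : IsIrrCharacter M (fun m : M => (χ : G → ℂ) m) :=
    isIrrCharacter_restrict_of_sup_eq_top χ K M (fun g hg => (hK g).mp hg) hKM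
  have hc : classInner (fun m : M => (χ : G → ℂ) m) (fun m : M => (ψ : G → ℂ) m) ≠ 0 := by
    rw [← classInner_indFun M _ (ψ : G → ℂ) (irr_isClassFunction ψ)]; exact hψ
  have hKM' : ¬ K ≤ M := by
    intro hle
    rw [sup_eq_right.mpr hle] at hKM
    exact hM.1 hKM
  have hLM : L ≤ M := by
    by_contra hcon
    have hlt : M < L ⊔ M := by
      refine lt_of_le_of_ne le_sup_right ?_
      intro heq
      apply hcon
      rw [heq]
      exact le_sup_left
    have htop := hM.2 _ hlt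
    have hψM : IsIrrCharacter M (fun m : M => (ψ : G → ℂ) m) :=
      isIrrCharacter_restrict_of_sup_eq_top ψ L M (fun g hg => (hL g).mp hg) htop
    have h1 := irr_orthonormal (⟨_, hθ⟩ : IrrCharacter M) ⟨_, hψM⟩
    by_cases heq : (⟨_, hθ⟩ : IrrCharacter M) = ⟨_, hψM⟩
    · have h2 := congrFun (congrArg Subtype.val heq) 1
      have h3 : (χ : G → ℂ) 1 = (ψ : G → ℂ) 1 := h2
      have h4 : charDegree (χ : G → ℂ) = charDegree (ψ : G → ℂ) := by
        unfold charDegree; rw [h3]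
      omega
    · rw [if_neg heq] at h1
      exact hc h1
  have hLK : L ≤ K := by
    intro g hg
    rw [hK]
    by_contra hne
    have hgM : g ∈ M := hLM hg
    haveI : (L.subgroupOf M).Normal := inferInstance
    haveI : Fintype (L.subgroupOf M) := Fintype.ofFinite _
    have hzero := irr_sum_mul_normal_eq_zero (⟨_, hθ⟩ : IrrCharacter M) (L.subgroupOf M)
      ⟨⟨g, hgM⟩, Subgroup.mem_subgroupOf.mpr hg, hne⟩
    apply hc
    rw [classInner, mul_eq_zero]
    right
    have hLc : (Nat.card (L.subgroupOf M) : ℂ) ≠ 0 := Nat.cast_ne_zero.mpr Nat.card_pos.ne'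
    have h1 : ∀ x : L.subgroupOf M,
        ∑ m : M, (χ : G → ℂ) m * starRingEnd ℂ ((ψ : G → ℂ) m) =
        ∑ m : M, (χ : G → ℂ) ((m * (x : M) : M) : G) *
          starRingEnd ℂ ((ψ : G → ℂ) ((m * (x : M) : M) : G)) := by
      intro x
      exact (Equiv.sum_comp (Equiv.mulRight (x : M))
        (fun m : M => (χ : G → ℂ) m * starRingEnd ℂ ((ψ : G → ℂ) m))).symm
    have h2 : (Nat.card (L.subgroupOf M) : ℂ) *
        ∑ m : M, (χ : G → ℂ) m * starRingEnd ℂ ((ψ : G → ℂ) m) = 0 := by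
      have h3 : (Nat.card (L.subgroupOf M) : ℂ) *
          ∑ m : M, (χ : G → ℂ) m * starRingEnd ℂ ((ψ : G → ℂ) m) =
          ∑ x : L.subgroupOf M, ∑ m : M, (χ : G → ℂ) ((m * (x : M) : M) : G) *
            starRingEnd ℂ ((ψ : G → ℂ) ((m * (x : M) : M) : G)) := by
        rw [← Finset.sum_congr rfl (fun x _ => h1 x), Finset.sum_const, Finset.card_univ,
          nsmul_eq_mul, Nat.card_eq_fintype_card]
      rw [h3, Finset.sum_comm]
      refine Finset.sum_eq_zero fun m _ => ?_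
      have h4 : ∀ x : L.subgroupOf M, (ψ : G → ℂ) ((m * (x : M) : M) : G) = (ψ : G → ℂ) m := by
        intro x
        have hx : ((x : M) : G) ∈ L := Subgroup.mem_subgroupOf.mp x.2
        exact irr_mul_of_eq_one ψ _ ((hL _).mp hx) m
      rw [Finset.sum_congr rfl (fun x _ => by rw [h4 x]), ← Finset.sum_mul]
      have h5 := hzero m
      have h6 : ∑ x : L.subgroupOf M, (χ : G → ℂ) ((m * (x : M) : M) : G) = 0 := h5
      rw [h6, zero_mul]
    exact (mul_eq_zero.mp h2).resolve_left hLc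
  refine lt_of_le_of_ne hLK ?_
  intro heq
  apply hKM'
  rw [← heq]
  exact hLM


/-- The maximal subgroup used in the Broline–Garrison theorem. -/
theorem brolGar_exists_max [Finite G] (χ : IrrCharacter G) (K : Subgroup G) [hKn : K.Normal]
    (hK : ∀ g : G, g ∈ K ↔ (χ : G → ℂ) g = (χ : G → ℂ) 1)
    (h : ¬ K ≤ fittingSubgroup G ∨
      (K = fittingSubgroup G ∧ Group.IsSolvable (G ⧸ K) ∧ K ≠ ⊤)) :
    ∃ M : Subgroup G, IsCoatom M ∧ K ⊔ M = ⊤ ∧
      ((K ⊓ M).Normal → (∀ y ∈ M, (χ : G → ℂ) y ≠ 0 → y ∈ M.normalCore) → False) := by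
  haveI := Fintype.ofFinite G
  rcases h with h | ⟨hKF, hsolv, hKtop⟩
  · obtain ⟨p, hp, R, hRK, hRp, hRidx, hRn⟩ := exists_sylow_not_normal_of_not_le_fitting K h
    haveI := hp
    obtain ⟨M, hM, hNM⟩ := (eq_top_or_exists_le_coatom _).resolve_left hRn
    have hfr := frattini_of_sylow_sub p K R hRK hRp hRidx
    refine ⟨M, hM, ?_, ?_⟩
    · apply top_le_iff.mp
      rw [← hfr, sup_comm]
      exact sup_le_sup_left hNM K
    · intro hn _
      haveI := hn
      have hRM : R ≤ M := Subgroup.le_normalizer.trans hNM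
      have hfr2 := frattini_of_sylow_sub p (K ⊓ M) R (le_inf hRK hRM) hRp
        (not_dvd_relIndex_of_le p R (K ⊓ M) K (le_inf hRK hRM) inf_le_left hRidx)
      apply hM.1
      apply top_le_iff.mp
      rw [← hfr2]
      exact sup_le hNM inf_le_right
  · obtain ⟨q, hq, L, R, hLn, hKL, hchief, hRL, hRq, hRidx, hsup, hRn⟩ :=
      exists_chief_above K hKF hsolv hKtop
    haveI := hq
    haveI := hLn
    obtain ⟨M, hM, hNM⟩ := (eq_top_or_exists_le_coatom _).resolve_left hRn
    have hfr := frattini_of_sylow_sub q L R hRL hRq hRidx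
    have hRM : R ≤ M := Subgroup.le_normalizer.trans hNM
    refine ⟨M, hM, ?_, ?_⟩
    · apply top_le_iff.mp
      rw [← hfr, ← hsup]
      refine sup_le (hNM.trans le_sup_right) (sup_le le_sup_left (hRM.trans le_sup_right))
    · intro hn hv
      haveI := hn
      haveI hDn : (M.normalCore).Normal := Subgroup.normalCore_normal M
      have hDM : M.normalCore ≤ M := Subgroup.normalCore_le M
      -- step a
      have hDL : M.normalCore ⊓ L ≤ K := by
        rcases hchief (K ⊔ (M.normalCore ⊓ L)) inferInstance le_sup_left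
          (sup_le hKL.le inf_le_right) with hX | hX
        · rw [← hX]; exact le_sup_right
        · exfalso
          have hle : L ⊓ M ≤ (K ⊓ M) ⊔ (M.normalCore ⊓ L) := by
            intro l hl
            have hl1 : l ∈ ((K ⊔ (M.normalCore ⊓ L) : Subgroup G) : Set G) := by
              rw [hX]; exact hl.1
            rw [Subgroup.normal_mul] at hl1
            obtain ⟨a, ha, b, hb, hab⟩ := Set.mem_mul.mp hl1
            have haM : a ∈ M := by
              have e : a = l * b⁻¹ := by rw [← hab]; group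
              rw [e]
              exact M.mul_mem hl.2 (M.inv_mem (hDM hb.1))
            rw [← hab]
            exact Subgroup.mul_mem_sup ⟨ha, haM⟩ hb
          have hNL : (K ⊓ M) ⊔ (M.normalCore ⊓ L) ≤ L :=
            sup_le (inf_le_left.trans hKL.le) inf_le_right
          have hNM' : (K ⊓ M) ⊔ (M.normalCore ⊓ L) ≤ M :=
            sup_le inf_le_right (inf_le_left.trans hDM)
          have hRN : R ≤ (K ⊓ M) ⊔ (M.normalCore ⊓ L) := (le_inf hRL hRM).trans hle
          have hfr2 := frattini_of_sylow_sub q ((K ⊓ M) ⊔ (M.normalCore ⊓ L)) R hRN hRq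
            (not_dvd_relIndex_of_le q R _ L hRN hNL hRidx)
          apply hM.1
          apply top_le_iff.mp
          rw [← hfr2]
          exact sup_le hNM hNM'
      -- step b
      have hvan : ∀ y ∈ R, y ∉ K → (χ : G → ℂ) y = 0 := by
        intro y hyR hyK
        by_contra hne
        exact hyK (hDL ⟨hv y (hRM hyR) hne, hRL hyR⟩)
      -- step c
      obtain ⟨x, hxL, hxK⟩ := SetLike.exists_of_lt hKL
      haveI : Fintype L := Fintype.ofFinite L
      have hsum := irr_sum_mul_normal_eq_zero χ L ⟨x, hxL, fun h => hxK ((hK x).mpr h)⟩ 1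
      have hterm : ∀ l : L, (χ : G → ℂ) (1 * (l : G)) =
          if (l : G) ∈ K then (χ : G → ℂ) 1 else 0 := by
        intro l
        rw [one_mul]
        by_cases hlK : (l : G) ∈ K
        · rw [if_pos hlK]; exact (hK _).mp hlK
        · rw [if_neg hlK]
          have hl1 : (l : G) ∈ ((R ⊔ K : Subgroup G) : Set G) := by
            rw [sup_comm, hsup]; exact l.2
          rw [Subgroup.mul_normal] at hl1
          obtain ⟨r, hr, k, hk, hrk⟩ := Set.mem_mul.mp hl1
          have hrK : r ∉ K := by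
            intro hrK
            apply hlK
            rw [← hrk]
            exact K.mul_mem hrK hk
          rw [← hrk, irr_mul_of_eq_one χ k ((hK k).mp hk) r]
          exact hvan r hr hrK
      rw [Finset.sum_congr rfl (fun l _ => hterm l), Finset.sum_ite, Finset.sum_const_zero,
        add_zero, Finset.sum_const, nsmul_eq_mul] at hsum
      rcases mul_eq_zero.mp hsum with h0 | h0
      · have h1 : (Finset.univ.filter (fun l : L => (l : G) ∈ K)).card = 0 := by
          exact_mod_cast h0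
        have h2 : (1 : L) ∈ Finset.univ.filter (fun l : L => (l : G) ∈ K) := by
          rw [Finset.mem_filter]
          exact ⟨Finset.mem_univ _, K.one_mem⟩
        rw [Finset.card_eq_zero] at h1
        rw [h1] at h2
        exact absurd h2 (Finset.notMem_empty _)
      · exact irr_one_ne_zero χ h0

/-- **Broline–Garrison.** -/
theorem brolGar [Finite G] (χ : IrrCharacter G) (K : Subgroup G) [hKn : K.Normal]
    (hK : ∀ g : G, g ∈ K ↔ (χ : G → ℂ) g = (χ : G → ℂ) 1)
    (h : ¬ K ≤ fittingSubgroup G ∨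
      (K = fittingSubgroup G ∧ Group.IsSolvable (G ⧸ K) ∧ K ≠ ⊤)) :
    ∃ ψ : IrrCharacter G, charDegree (χ : G → ℂ) < charDegree (ψ : G → ℂ) ∧
      ∃ L : Subgroup G, (∀ g : G, g ∈ L ↔ (ψ : G → ℂ) g = (ψ : G → ℂ) 1) ∧ L < K := by
  haveI := Fintype.ofFinite G
  obtain ⟨M, hM, hKM, hfin⟩ := brolGar_exists_max χ K hK h
  haveI : Fintype M := Fintype.ofFinite M
  by_contra hcon
  have hdeg : ∀ ψ : IrrCharacter G,
      classInner (indFun M (fun m : M => (χ : G → ℂ) m)) (ψ : G → ℂ) ≠ 0 →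
      charDegree (ψ : G → ℂ) ≤ charDegree (χ : G → ℂ) := by
    intro ψ hψ
    by_contra hlt
    push Not at hlt
    obtain ⟨L, -, hLn, hL, -, -, -⟩ := codeg_spec ψ
    haveI := hLn
    exact hcon ⟨ψ, hlt, L, hL, brolGar_ker χ K M hK hKM hM ψ hψ hlt L hL⟩
  obtain ⟨h1, h2⟩ := brolGar_core χ K M hK hKM hM hdeg
  exact hfin h1 h2

end Cfsg.Agent.Helper24
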