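import Cfsg.Agent.Helper24.Coh3

/-!
# Coherence (helper24): Feit's criterion for irreducible characters
-/

set_option autoImplicit false

namespace Cfsg.Agent.Helper24

open Cfsg

universe u v

variable {G : Type v} [Group G]

theorem feit_criterion [Fintype G] (N : Subgroup G) [Fintype N] (S₀ : Finset (N → ℂ))
    (χ : N → ℂ) (hirr : ∀ ξ ∈ S₀, IsIrrCharacter N ξ) (hχ : IsIrrCharacter N χ) (hχS : χ ∉ S₀)
    (d : (N → ℂ) → ℕ) (hd : ∀ ξ ∈ insert χ S₀, ξ 1 = (d ξ : ℂ)) (τ : (N → ℂ) → (G → ℂ))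
    (hτ : IsLinearIsometryOn (zspanOn (↑(insert χ S₀) : Set (N → ℂ)) {1}ᶜ) τ)
    (hτ1 : ∀ α ∈ zspanOn (↑(insert χ S₀) : Set (N → ℂ)) {1}ᶜ, τ α 1 = 0)
    (hcoh : IsCoherent (↑S₀ : Set (N → ℂ)) {1}ᶜ τ) (ψ : N → ℂ) (hψ : ψ ∈ S₀)
    (hdvd : d ψ ∣ d χ) (hlt : 2 * d ψ * d χ < ∑ ξ ∈ S₀, d ξ ^ 2) :
    IsCoherent (↑(insert χ S₀) : Set (N → ℂ)) {1}ᶜ τ := by
  classical
  obtain ⟨-, τs, hτs, hτsag⟩ := hcoh
  obtain ⟨a, ha⟩ := hdvd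
  obtain ⟨S, hSdef⟩ : ∃ S : Finset (N → ℂ), S = insert χ S₀ := ⟨_, rfl⟩
  rw [← hSdef] at hd hτ hτ1 ⊢
  have hχm : χ ∈ S := by rw [hSdef]; exact Finset.mem_insert_self _ _
  have hsub : ∀ ξ ∈ S₀, ξ ∈ S := fun ξ h => by rw [hSdef]; exact Finset.mem_insert_of_mem h
  have hirrS : ∀ ξ ∈ S, IsIrrCharacter N ξ := by
    intro ξ hξ
    rw [hSdef] at hξ
    rcases Finset.mem_insert.mp hξ with rfl | h
    · exact hχ
    · exact hirr ξ h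
  have hdpos : ∀ ξ ∈ S, d ξ ≠ 0 := by
    intro ξ hξ h0
    apply irr_one_ne_zero (⟨ξ, hirrS ξ hξ⟩ : IrrCharacter N)
    show ξ 1 = 0
    rw [hd ξ hξ, h0, Nat.cast_zero]
  have hψS : ψ ∈ S := hsub ψ hψ
  have hψ0 : d ψ ≠ 0 := hdpos ψ hψS
  have hχξ : ∀ ξ ∈ S₀, χ ≠ ξ := fun ξ hξ h => hχS (h ▸ hξ)
  have hχψ : χ ≠ ψ := hχξ ψ hψ
  have hmem0 : ∀ ξ ∈ S₀, ξ ∈ zspan (↑S₀ : Set (N → ℂ)) :=
    fun ξ h => Submodule.subset_span (Finset.mem_coe.mpr h)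
  have hS0on : zspanOn (↑S₀ : Set (N → ℂ)) {1}ᶜ ⊆ zspanOn (↑S : Set (N → ℂ)) {1}ᶜ :=
    zspanOn_mono (fun x hx => Finset.mem_coe.mpr (hsub x (Finset.mem_coe.mp hx)))
  have hβm : (1 : ℤ) • χ - (a : ℤ) • ψ ∈ zspanOn (↑S : Set (N → ℂ)) {1}ᶜ :=
    mem_zspanOn_sub (Finset.mem_coe.mpr hχm) (Finset.mem_coe.mpr hψS) 1 a
      (by rw [hd χ hχm, hd ψ hψS, ha]; push_cast; ring)
  have hγm : ∀ ξ ∈ S₀, (d ψ : ℤ) • ξ - (d ξ : ℤ) • ψ ∈ zspanOn (↑S₀ : Set (N → ℂ)) {1}ᶜ :=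
    fun ξ hξ => mem_zspanOn_sub (Finset.mem_coe.mpr hξ) (Finset.mem_coe.mpr hψ) _ _
      (by rw [hd ξ (hsub ξ hξ), hd ψ hψS]; push_cast; ring)
  have hτγ : ∀ ξ ∈ S₀, τ ((d ψ : ℤ) • ξ - (d ξ : ℤ) • ψ) =
      (d ψ : ℤ) • τs ξ - (d ξ : ℤ) • τs ψ := by
    intro ξ hξ
    rw [← hτsag _ (hγm ξ hξ)]
    exact isom_sub_smul hτs (Finset.mem_coe.mpr hξ) (Finset.mem_coe.mpr hψ) _ _
  obtain ⟨X, hX⟩ : ∃ X : G → ℂ, X = τ ((1 : ℤ) • χ - (a : ℤ) • ψ) := ⟨_, rfl⟩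
  have hXv : IsGeneralizedCharacter G X := by rw [hX]; exact hτ.2.2.2 _ hβm
  have hX1 : X 1 = 0 := by rw [hX]; exact hτ1 _ hβm
  have hin : ∀ ξ ∈ S, ∀ ξ' ∈ S, classInner ξ ξ' = if ξ = ξ' then 1 else 0 :=
    fun ξ h ξ' h' => irr_inner_eq (hirrS ξ h) (hirrS ξ' h')
  have hXX : classInner X X = 1 + (a : ℂ) ^ 2 := by
    rw [hX, hτ.2.2.1 _ hβm _ hβm]
    simp only [classInner_sub_left, classInner_sub_right, classInner_zsmul_left,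
      classInner_zsmul_right]
    rw [hin χ hχm χ hχm, hin χ hχm ψ hψS, hin ψ hψS χ hχm, hin ψ hψS ψ hψS, if_pos rfl,
      if_pos rfl, if_neg hχψ, if_neg (Ne.symm hχψ)]
    push_cast
    ring
  have hτsv : ∀ ξ ∈ S₀, IsGeneralizedCharacter G (τs ξ) := fun ξ h => hτs.2.2.2 ξ (hmem0 ξ h)
  have hτso : ∀ ξ ∈ S₀, ∀ ξ' ∈ S₀, classInner (τs ξ) (τs ξ') = if ξ = ξ' then 1 else 0 := by
    intro ξ h ξ' h'
    rw [hτs.2.2.1 ξ (hmem0 ξ h) ξ' (hmem0 ξ' h')]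
    exact hin ξ (hsub ξ h) ξ' (hsub ξ' h')
  have hex : ∀ ξ : N → ℂ, ∃ z : ℤ, ξ ∈ S₀ → classInner X (τs ξ) = (z : ℂ) := by
    intro ξ
    by_cases h : ξ ∈ S₀
    · obtain ⟨z, hz⟩ := genChar_inner_int hXv (hτsv ξ h)
      exact ⟨z, fun _ => hz⟩
    · exact ⟨0, fun h' => absurd h' h⟩
  choose x hx using hex
  obtain ⟨y, hy⟩ : ∃ y : ℤ, y = x ψ + a := ⟨_, rfl⟩
  have hrel : ∀ ξ ∈ S₀, (d ψ : ℤ) * x ξ =
      (d ξ : ℤ) * y - (if ξ = ψ then (a : ℤ) * d ψ else 0) := by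
    intro ξ hξ
    have h1 : classInner X (τ ((d ψ : ℤ) • ξ - (d ξ : ℤ) • ψ)) =
        classInner ((1 : ℤ) • χ - (a : ℤ) • ψ) ((d ψ : ℤ) • ξ - (d ξ : ℤ) • ψ) := by
      rw [hX]
      exact hτ.2.2.1 _ hβm _ (hS0on (hγm ξ hξ))
    rw [hτγ ξ hξ] at h1
    simp only [classInner_sub_left, classInner_sub_right, classInner_zsmul_left,
      classInner_zsmul_right] at h1
    rw [hx ξ hξ, hx ψ hψ, hin χ hχm ξ (hsub ξ hξ), hin χ hχm ψ hψS, hin ψ hψS ξ (hsub ξ hξ),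
      hin ψ hψS ψ hψS, if_pos rfl, if_neg hχψ, if_neg (hχξ ξ hξ)] at h1
    push_cast at h1
    rw [hy]
    by_cases hξψ : ξ = ψ
    · rw [if_pos hξψ.symm] at h1
      rw [if_pos hξψ]
      have h2 : (((d ψ : ℤ) * x ξ : ℤ) : ℂ) =
          (((d ξ : ℤ) * (x ψ + a) - (a : ℤ) * d ψ : ℤ) : ℂ) := by
        push_cast
        linear_combination h1
      exact_mod_cast h2
    · rw [if_neg (Ne.symm hξψ)] at h1
      rw [if_neg hξψ]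
      have h2 : (((d ψ : ℤ) * x ξ : ℤ) : ℂ) = (((d ξ : ℤ) * (x ψ + a) - 0 : ℤ) : ℂ) := by
        push_cast
        linear_combination h1
      exact_mod_cast h2
  obtain ⟨hB1, hB2⟩ := bessel_idx S₀ τs (fun i hi j hj => by
    rw [hτso i hi j hj]
    by_cases hij : i = j
    · rw [if_pos hij, if_pos hij]
    · rw [if_neg hij, if_neg hij]) X
  obtain ⟨Δ, hΔ⟩ : ∃ Δ : G → ℂ, Δ = X - ∑ ξ ∈ S₀, classInner X (τs ξ) • τs ξ := ⟨_, rfl⟩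
  rw [← hΔ] at hB1 hB2
  have hΔv : IsGeneralizedCharacter G Δ := by
    rw [hΔ]
    refine isGenChar_sub hXv (isGenChar_sum _ _ fun ξ hξ => ?_)
    rw [hx ξ hξ]
    exact isGenChar_intsmul (hτsv ξ hξ) _
  obtain ⟨n, hn⟩ := genChar_inner_int hΔv hΔv
  have hn0 : 0 ≤ n := by
    have h := classInner_self_re_nonneg Δ
    rw [hn, Complex.intCast_re] at h
    exact_mod_cast h
  have hnorm : (1 : ℤ) + (a : ℤ) ^ 2 = ∑ ξ ∈ S₀, x ξ ^ 2 + n := by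
    have h := hB2
    rw [hn, hXX] at h
    have e : ∑ ξ ∈ S₀, classInner X (τs ξ) * starRingEnd ℂ (classInner X (τs ξ)) =
        ((∑ ξ ∈ S₀, x ξ ^ 2 : ℤ) : ℂ) := by
      push_cast
      refine Finset.sum_congr rfl fun ξ hξ => ?_
      rw [hx ξ hξ, map_intCast]
      ring
    rw [e] at h
    have h2 : (((1 : ℤ) + (a : ℤ) ^ 2 : ℤ) : ℂ) = ((∑ ξ ∈ S₀, x ξ ^ 2 + n : ℤ) : ℂ) := by
      push_cast
      push_cast at h
      linear_combination (-1 : ℂ) * h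
    exact_mod_cast h2
  obtain ⟨D, hD⟩ : ∃ D : ℤ, D = ∑ ξ ∈ S₀, (d ξ : ℤ) ^ 2 := ⟨_, rfl⟩
  have hterm : ∀ ξ ∈ S₀, (d ψ : ℤ) ^ 2 * x ξ ^ 2 = (d ξ : ℤ) ^ 2 * y ^ 2 -
      (if ξ = ψ then 2 * (a : ℤ) * (d ψ : ℤ) ^ 2 * y - (a : ℤ) ^ 2 * (d ψ : ℤ) ^ 2 else 0) := by
    intro ξ hξ
    have h := hrel ξ hξ
    by_cases hξψ : ξ = ψ
    · rw [if_pos hξψ] at h ⊢
      rw [hξψ] at h ⊢
      linear_combination ((d ψ : ℤ) * x ψ + (d ψ : ℤ) * y - (a : ℤ) * d ψ) * h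
    · rw [if_neg hξψ] at h ⊢
      linear_combination ((d ψ : ℤ) * x ξ + (d ξ : ℤ) * y) * h
  have hsum1 : (d ψ : ℤ) ^ 2 * ∑ ξ ∈ S₀, x ξ ^ 2 =
      D * y ^ 2 - (2 * (a : ℤ) * (d ψ : ℤ) ^ 2 * y - (a : ℤ) ^ 2 * (d ψ : ℤ) ^ 2) := by
    rw [Finset.mul_sum, Finset.sum_congr rfl hterm, Finset.sum_sub_distrib, ← Finset.sum_mul,
      Finset.sum_ite_eq' S₀ ψ, if_pos hψ, hD]
  have hstar : (d ψ : ℤ) ^ 2 = D * y ^ 2 - 2 * (a : ℤ) * (d ψ : ℤ) ^ 2 * y +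
      (d ψ : ℤ) ^ 2 * n := by
    linear_combination (d ψ : ℤ) ^ 2 * hnorm + hsum1
  have hlt' : 2 * (a : ℤ) * (d ψ : ℤ) ^ 2 < D := by
    have h := hlt
    rw [ha] at h
    have h2 : ((2 * d ψ * (d ψ * a) : ℕ) : ℤ) < ((∑ ξ ∈ S₀, d ξ ^ 2 : ℕ) : ℤ) := by
      exact_mod_cast h
    push_cast at h2
    rw [hD]
    have e : 2 * (a : ℤ) * (d ψ : ℤ) ^ 2 = 2 * (d ψ : ℤ) * ((d ψ : ℤ) * a) := by ring
    rw [e]
    exact h2
  have hdψ2 : (0 : ℤ) < (d ψ : ℤ) ^ 2 := by positivity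
  have ha0 : (0 : ℤ) ≤ 2 * (a : ℤ) * (d ψ : ℤ) ^ 2 := by positivity
  have hD0 : 0 < D := lt_of_le_of_lt ha0 hlt'
  -- the values of `τs` at 1
  have hdeg : ∀ ξ ∈ S₀, (d ψ : ℂ) * τs ξ 1 = (d ξ : ℂ) * τs ψ 1 := by
    intro ξ hξ
    have h := hτ1 _ (hS0on (hγm ξ hξ))
    rw [hτγ ξ hξ, zsmul_fun_eq, zsmul_fun_eq, Pi.sub_apply, Pi.smul_apply, Pi.smul_apply,
      smul_eq_mul, smul_eq_mul] at h
    push_cast at h
    linear_combination h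
  have ht : τs ψ 1 ≠ 0 := by
    have h1 : classInner (τs ψ) (τs ψ) = 1 := by rw [hτso ψ hψ ψ hψ, if_pos rfl]
    obtain ⟨μ, hμ | hμ⟩ := genChar_norm_one (hτsv ψ hψ) h1
    · rw [hμ]
      exact irr_one_ne_zero μ
    · rw [hμ, Pi.neg_apply]
      exact neg_ne_zero.mpr (irr_one_ne_zero μ)
  have hy0 : y = 0 := by
    by_contra hy0
    have hysq : 0 < y ^ 2 := lt_of_le_of_ne (sq_nonneg y) (Ne.symm (pow_ne_zero 2 hy0))
    have hy2 : y ≤ y ^ 2 := Int.le_self_sq y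
    have e : D * y ^ 2 - 2 * (a : ℤ) * (d ψ : ℤ) ^ 2 * y =
        y ^ 2 * (D - 2 * (a : ℤ) * (d ψ : ℤ) ^ 2) +
          2 * (a : ℤ) * (d ψ : ℤ) ^ 2 * (y ^ 2 - y) := by ring
    have h1 : 0 < y ^ 2 * (D - 2 * (a : ℤ) * (d ψ : ℤ) ^ 2) :=
      mul_pos hysq (sub_pos.mpr hlt')
    have h2 : 0 ≤ 2 * (a : ℤ) * (d ψ : ℤ) ^ 2 * (y ^ 2 - y) :=
      mul_nonneg ha0 (sub_nonneg.mpr hy2)
    have h3 : (d ψ : ℤ) ^ 2 * (1 - n) = D * y ^ 2 - 2 * (a : ℤ) * (d ψ : ℤ) ^ 2 * y := by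
      linear_combination hstar
    have hn1 : n < 1 := by
      by_contra hcon
      push Not at hcon
      have h4 : (d ψ : ℤ) ^ 2 * (1 - n) ≤ 0 :=
        mul_nonpos_of_nonneg_of_nonpos (sq_nonneg _) (by linarith)
      linarith
    have hn00 : n = 0 := le_antisymm (by linarith) hn0
    rw [hn00] at hn hstar
    have hΔ0 : Δ = 0 := Helper5.classInner_self_eq_zero (by rw [hn]; simp)
    have hXsum : X = ∑ ξ ∈ S₀, (x ξ : ℂ) • τs ξ := by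
      have h5 : X - ∑ ξ ∈ S₀, classInner X (τs ξ) • τs ξ = 0 := by rw [← hΔ, hΔ0]
      rw [sub_eq_zero.mp h5]
      exact Finset.sum_congr rfl fun ξ hξ => by rw [hx ξ hξ]
    have h6 : ∑ ξ ∈ S₀, (x ξ : ℂ) * τs ξ 1 = 0 := by
      rw [← hX1]
      conv_rhs => rw [hXsum]
      rw [Finset.sum_apply]
      rfl
    have h7 : (∑ ξ ∈ S₀, ((d ψ : ℂ) * (x ξ : ℂ)) * (d ξ : ℂ)) * τs ψ 1 = 0 := by
      rw [Finset.sum_mul]
      have h8 : ∀ ξ ∈ S₀, ((d ψ : ℂ) * (x ξ : ℂ)) * (d ξ : ℂ) * τs ψ 1 =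
          (d ψ : ℂ) ^ 2 * ((x ξ : ℂ) * τs ξ 1) := by
        intro ξ hξ
        linear_combination (-(d ψ : ℂ) * (x ξ : ℂ)) * hdeg ξ hξ
      rw [Finset.sum_congr rfl h8, ← Finset.mul_sum, h6, mul_zero]
    have h9 : ∑ ξ ∈ S₀, ((d ψ : ℤ) * x ξ) * (d ξ : ℤ) = 0 := by
      rcases mul_eq_zero.mp h7 with h | h
      · have h10 : ((∑ ξ ∈ S₀, ((d ψ : ℤ) * x ξ) * (d ξ : ℤ) : ℤ) : ℂ) = ((0 : ℤ) : ℂ) := by
          push_cast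
          exact h
        exact_mod_cast h10
      · exact absurd h ht
    have hterm2 : ∀ ξ ∈ S₀, ((d ψ : ℤ) * x ξ) * (d ξ : ℤ) = (d ξ : ℤ) ^ 2 * y -
        (if ξ = ψ then (a : ℤ) * (d ψ : ℤ) ^ 2 else 0) := by
      intro ξ hξ
      have h := hrel ξ hξ
      by_cases hξψ : ξ = ψ
      · rw [if_pos hξψ] at h ⊢
        rw [hξψ] at h ⊢
        linear_combination (d ψ : ℤ) * h
      · rw [if_neg hξψ] at h ⊢
        linear_combination (d ξ : ℤ) * h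
    have hDy : D * y = (a : ℤ) * (d ψ : ℤ) ^ 2 := by
      rw [Finset.sum_congr rfl hterm2, Finset.sum_sub_distrib, ← Finset.sum_mul,
        Finset.sum_ite_eq' S₀ ψ, if_pos hψ, ← hD] at h9
      linarith
    have h11 : (d ψ : ℤ) ^ 2 * (1 + (a : ℤ) * y) = 0 := by
      linear_combination hstar + y * hDy
    have h12 : 1 + (a : ℤ) * y = 0 := by
      rcases mul_eq_zero.mp h11 with h | h
      · exact absurd h hdψ2.ne'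
      · exact h
    have hy0' : 0 ≤ y := by
      by_contra hneg
      push Not at hneg
      have h13 : D * y < 0 := mul_neg_of_pos_of_neg hD0 hneg
      have h14 : (0 : ℤ) ≤ (a : ℤ) * (d ψ : ℤ) ^ 2 := by positivity
      linarith
    have h15 : (0 : ℤ) ≤ (a : ℤ) * y := mul_nonneg (Int.natCast_nonneg a) hy0'
    linarith
  -- now `y = 0`
  rw [hy0] at hrel hstar
  have hn1 : n = 1 := by
    have h1 : (d ψ : ℤ) ^ 2 * (n - 1) = 0 := by linear_combination (-1 : ℤ) * hstar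
    rcases mul_eq_zero.mp h1 with h | h
    · exact absurd h hdψ2.ne'
    · linarith
  have hxψ : x ψ = -(a : ℤ) := by linarith
  have hxξ : ∀ ξ ∈ S₀, ξ ≠ ψ → x ξ = 0 := by
    intro ξ hξ hne
    have h := hrel ξ hξ
    rw [if_neg hne, mul_zero, sub_zero] at h
    rcases mul_eq_zero.mp h with h | h
    · exact absurd h (Int.natCast_ne_zero.mpr hψ0)
    · exact h
  have hXΔ : X = Δ - (a : ℤ) • τs ψ := by
    have h1 : ∑ ξ ∈ S₀, classInner X (τs ξ) • τs ξ = (x ψ : ℂ) • τs ψ := by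
      rw [Finset.sum_eq_single ψ]
      · rw [hx ψ hψ]
      · intro ξ hξ hne
        rw [hx ξ hξ, hxξ ξ hξ hne, Int.cast_zero, zero_smul]
      · intro h
        exact absurd hψ h
    rw [h1, hxψ] at hΔ
    rw [hΔ, zsmul_fun_eq]
    push_cast
    rw [neg_smul]
    abel
  obtain ⟨T, hTχ, hTS⟩ : ∃ T : (N → ℂ) → (G → ℂ), T χ = Δ ∧ ∀ ξ ∈ S₀, T ξ = τs ξ :=
    ⟨fun φ => if φ = χ then Δ else τs φ, if_pos rfl,
      fun ξ hξ => if_neg (Ne.symm (hχξ ξ hξ))⟩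
  have hSmem : ∀ φ ∈ S, φ = χ ∨ φ ∈ S₀ := by
    intro φ hφ
    rw [hSdef] at hφ
    exact Finset.mem_insert.mp hφ
  have horth : ∀ φ ∈ S, ∀ φ' ∈ S, φ ≠ φ' → classInner φ φ' = 0 := by
    intro φ hφ φ' hφ' hne
    rw [hin φ hφ φ' hφ', if_neg hne]
  have hne : ∀ φ ∈ S, classInner φ φ ≠ 0 := by
    intro φ hφ
    rw [hin φ hφ φ hφ, if_pos rfl]
    exact one_ne_zero
  have hTv : ∀ φ ∈ S, IsGeneralizedCharacter G (T φ) := by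
    intro φ hφ
    rcases hSmem φ hφ with rfl | h
    · rw [hTχ]
      exact hΔv
    · rw [hTS φ h]
      exact hτsv φ h
  have hTi : ∀ φ ∈ S, ∀ φ' ∈ S, classInner (T φ) (T φ') = classInner φ φ' := by
    intro φ hφ φ' hφ'
    rcases hSmem φ hφ with h | h <;> rcases hSmem φ' hφ' with h' | h'
    · rw [h, h', hTχ, hn, hn1, hin χ hχm χ hχm, if_pos rfl]
      simp
    · rw [h, hTχ, hTS φ' h', hB1 φ' h', hin χ hχm φ' hφ', if_neg (hχξ φ' h')]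
    · rw [h', hTχ, hTS φ h, classInner_conj_symm, hB1 φ h, map_zero, hin φ hφ χ hχm,
        if_neg (Ne.symm (hχξ φ h))]
    · rw [hTS φ h, hTS φ' h', hτso φ h φ' h']
      exact (hin φ hφ φ' hφ').symm
  have hcompat : ∀ φ ∈ S, τ ((d ψ : ℤ) • φ - (d φ : ℤ) • ψ) =
      (d ψ : ℤ) • T φ - (d φ : ℤ) • T ψ := by
    intro φ hφ
    rcases hSmem φ hφ with h | h
    · rw [h]
      have e1 : (d ψ : ℤ) • χ - (d χ : ℤ) • ψ = (d ψ : ℤ) • ((1 : ℤ) • χ - (a : ℤ) • ψ) := by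
        rw [ha]
        push_cast
        module
      rw [e1, hτ.2.1 _ hβm, ← hX, hXΔ, hTχ, hTS ψ hψ, ha]
      push_cast
      module
    · rw [hτγ φ h, hTS φ h, hTS ψ hψ]
  obtain ⟨τ₁, hτ₁, hag, -⟩ := coherent_ext S horth hne T hTv hTi d hd ψ hψS hψ0 τ hτ hcompat
  refine ⟨⟨_, hβm, fun h0 => ?_⟩, τ₁, hτ₁, hag⟩
  have h1 : classInner ((1 : ℤ) • χ - (a : ℤ) • ψ) χ = 1 := by
    rw [classInner_sub_left, classInner_zsmul_left, classInner_zsmul_left, hin χ hχm χ hχm,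
      hin ψ hψS χ hχm, if_pos rfl, if_neg (Ne.symm hχψ)]
    push_cast
    ring
  rw [h0, classInner_zero_left] at h1
  exact zero_ne_one h1

end Cfsg.Agent.Helper24
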