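import Cfsg.Agent.Helper24.CharBasic
import Cfsg.Prelude.Def_OddOrderChar

/-!
# The Dade hypothesis: elementary group-theoretic consequences (helper24)
-/

set_option autoImplicit false

namespace Cfsg.Agent.Helper24

open Cfsg

section DadeSec

variable {G : Type*} [Group G] {A : Set G} {L : Subgroup G} {H : G → Subgroup G}

/-- Under the Dade hypothesis every element of `C_G(a)` is a product `h * k` with `h ∈ H a` and
`k ∈ C_L(a)`. -/
theorem dade_decomp (hD : DadeHypothesis A L H) {a : G} (ha : a ∈ A) {c : G}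
    (hc : c ∈ Subgroup.centralizer ({a} : Set G)) :
    ∃ h ∈ H a, ∃ k ∈ L ⊓ Subgroup.centralizer ({a} : Set G), c = h * k := by
  let M : Subgroup G :=
    { carrier := {c | ∃ h ∈ H a, ∃ k ∈ L ⊓ Subgroup.centralizer ({a} : Set G), c = h * k}
      one_mem' := ⟨1, one_mem _, 1, one_mem _, by simp⟩
      mul_mem' := by
        rintro x y ⟨h, hh, k, hk, rfl⟩ ⟨h', hh', k', hk', rfl⟩
        refine ⟨h * (k * h' * k⁻¹), mul_mem hh (hD.conj_mem_H a ha k hk.2 h' hh'), k * k',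
          mul_mem hk hk', by group⟩
      inv_mem' := by
        rintro x ⟨h, hh, k, hk, rfl⟩
        refine ⟨k⁻¹ * h⁻¹ * (k⁻¹)⁻¹,
          hD.conj_mem_H a ha k⁻¹ (inv_mem hk.2) h⁻¹ (inv_mem hh), k⁻¹, inv_mem hk, by group⟩ }
  have h1 : H a ≤ M := fun h hh => ⟨h, hh, 1, one_mem _, by simp⟩
  have h2 : L ⊓ Subgroup.centralizer ({a} : Set G) ≤ M := fun k hk => ⟨1, one_mem _, k, hk, by simp⟩
  have h3 : Subgroup.centralizer ({a} : Set G) ≤ M := by
    rw [← hD.sup_eq a ha]; exact sup_le h1 h2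
  exact h3 hc

/-- The decomposition in the other order. -/
theorem dade_decomp' (hD : DadeHypothesis A L H) {a : G} (ha : a ∈ A) {c : G}
    (hc : c ∈ Subgroup.centralizer ({a} : Set G)) :
    ∃ k ∈ L ⊓ Subgroup.centralizer ({a} : Set G), ∃ h ∈ H a, c = k * h := by
  obtain ⟨h, hh, k, hk, e⟩ := dade_decomp hD ha (inv_mem hc)
  refine ⟨k⁻¹, inv_mem hk, h⁻¹, inv_mem hh, ?_⟩
  rw [← mul_inv_rev, ← e, inv_inv]

/-- Conjugation by elements of `L` carries `H a` into `H (l a l⁻¹)`. -/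
theorem dade_conj_H [Finite G] (hD : DadeHypothesis A L H) {a : G} (ha : a ∈ A) {l : G}
    (hl : l ∈ L) {u : G} (hu : u ∈ H a) : l * u * l⁻¹ ∈ H (l * a * l⁻¹) := by
  have ha' : l * a * l⁻¹ ∈ A := hD.conj_mem l hl a ha
  have hua : u ∈ Subgroup.centralizer ({a} : Set G) := hD.le_centralizer a ha hu
  have hc : l * u * l⁻¹ ∈ Subgroup.centralizer ({l * a * l⁻¹} : Set G) := by
    rw [Subgroup.mem_centralizer_singleton_iff] at hua ⊢
    calc l * u * l⁻¹ * (l * a * l⁻¹) = l * (u * a) * l⁻¹ := by group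
      _ = l * (a * u) * l⁻¹ := by rw [hua]
      _ = l * a * l⁻¹ * (l * u * l⁻¹) := by group
  obtain ⟨h', hh', k, hk, hck⟩ := dade_decomp hD ha' hc
  have hpow : ∀ j : ℕ, ∃ h'' ∈ H (l * a * l⁻¹), (h' * k) ^ j = h'' * k ^ j := by
    intro j
    induction j with
    | zero => exact ⟨1, one_mem _, by simp⟩
    | succ j ih =>
      obtain ⟨h'', hh'', e⟩ := ih
      refine ⟨h'' * (k ^ j * h' * (k ^ j)⁻¹),
        mul_mem hh'' (hD.conj_mem_H _ ha' _ (pow_mem hk.2 j) _ hh'), ?_⟩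
      rw [pow_succ, e, pow_succ]; group
  obtain ⟨h'', hh'', e⟩ := hpow (Nat.card (H a))
  have hu1 : u ^ Nat.card (H a) = 1 :=
    orderOf_dvd_iff_pow_eq_one.mp (Subgroup.orderOf_dvd_natCard _ hu)
  have hum : (l * u * l⁻¹) ^ Nat.card (H a) = 1 := by
    rw [conj_pow, hu1]; group
  rw [hck, e] at hum
  have hkm : k ^ Nat.card (H a) ∈
      H (l * a * l⁻¹) ⊓ (L ⊓ Subgroup.centralizer ({l * a * l⁻¹} : Set G)) := by
    have h5 : k ^ Nat.card (H a) = h''⁻¹ := eq_inv_of_mul_eq_one_right hum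
    rw [Subgroup.mem_inf]
    exact ⟨by rw [h5]; exact inv_mem hh'', pow_mem hk _⟩
  rw [hD.inf_eq_bot _ ha', Subgroup.mem_bot] at hkm
  have hk2 : k ^ Nat.card ↥(L ⊓ Subgroup.centralizer ({l * a * l⁻¹} : Set G)) = 1 :=
    orderOf_dvd_iff_pow_eq_one.mp (Subgroup.orderOf_dvd_natCard _ hk)
  have hcop := hD.coprime a ha (l * a * l⁻¹) ha'
  have hk1 : k = 1 := by
    have h1 := orderOf_dvd_of_pow_eq_one hkm
    have h2 := orderOf_dvd_of_pow_eq_one hk2
    exact orderOf_eq_one_iff.mp (Nat.eq_one_of_dvd_coprimes hcop h1 h2)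
  rw [hck, hk1, mul_one]; exact hh'

/-- `H (l a l⁻¹)` and `H a` have the same order for `l ∈ L`. -/
theorem dade_card_H [Finite G] (hD : DadeHypothesis A L H) {a : G} (ha : a ∈ A) {l : G}
    (hl : l ∈ L) : Nat.card (H (l * a * l⁻¹)) = Nat.card (H a) := by
  have ha' : l * a * l⁻¹ ∈ A := hD.conj_mem l hl a ha
  have hback : ∀ v ∈ H (l * a * l⁻¹), l⁻¹ * v * l ∈ H a := by
    intro v hv
    have h1 := dade_conj_H hD ha' (inv_mem hl) hv
    have h2 : l⁻¹ * (l * a * l⁻¹) * l⁻¹⁻¹ = a := by group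
    rw [h2] at h1
    rwa [inv_inv] at h1
  symm
  refine Nat.card_congr
    { toFun := fun u => ⟨l * (u : G) * l⁻¹, dade_conj_H hD ha hl u.2⟩
      invFun := fun v => ⟨l⁻¹ * (v : G) * l, hback v v.2⟩
      left_inv := fun u => Subtype.ext (by simp only []; group)
      right_inv := fun v => Subtype.ext (by simp only []; group) }

/-- Dade's lemma: if `y` conjugates `a * u` to `a' * u'` then it conjugates `a` to `a'` and `u`
to `u'`. -/
theorem dade_lemma [Finite G] (hD : DadeHypothesis A L H) {a a' : G} (ha : a ∈ A) (ha' : a' ∈ A)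
    {u u' : G} (hu : u ∈ H a) (hu' : u' ∈ H a') {y : G}
    (hy : y * (a * u) * y⁻¹ = a' * u') : y * a * y⁻¹ = a' ∧ y * u * y⁻¹ = u' := by
  obtain ⟨m, hm⟩ : ∃ m : ℕ, m = Nat.card (H a) * Nat.card (H a') := ⟨_, rfl⟩
  obtain ⟨n, hn⟩ : ∃ n : ℕ, n = Nat.card ↥(L ⊓ Subgroup.centralizer ({a} : Set G)) *
      Nat.card ↥(L ⊓ Subgroup.centralizer ({a'} : Set G)) := ⟨_, rfl⟩
  have hcop : Nat.Coprime m n := by
    rw [hm, hn]
    exact Nat.Coprime.mul_left
      (Nat.Coprime.mul_right (hD.coprime a ha a ha) (hD.coprime a ha a' ha'))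
      (Nat.Coprime.mul_right (hD.coprime a' ha' a ha) (hD.coprime a' ha' a' ha'))
  have haL : a ∈ L ⊓ Subgroup.centralizer ({a} : Set G) :=
    ⟨hD.subset ha, Subgroup.mem_centralizer_singleton_iff.mpr rfl⟩
  have haL' : a' ∈ L ⊓ Subgroup.centralizer ({a'} : Set G) :=
    ⟨hD.subset ha', Subgroup.mem_centralizer_singleton_iff.mpr rfl⟩
  have han : a ^ n = 1 := by
    rw [hn, pow_mul, orderOf_dvd_iff_pow_eq_one.mp (Subgroup.orderOf_dvd_natCard _ haL), one_pow]
  have han' : a' ^ n = 1 := by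
    rw [hn, mul_comm, pow_mul,
      orderOf_dvd_iff_pow_eq_one.mp (Subgroup.orderOf_dvd_natCard _ haL'), one_pow]
  have hum : u ^ m = 1 := by
    rw [hm, pow_mul, orderOf_dvd_iff_pow_eq_one.mp (Subgroup.orderOf_dvd_natCard _ hu), one_pow]
  have hum' : u' ^ m = 1 := by
    rw [hm, mul_comm, pow_mul,
      orderOf_dvd_iff_pow_eq_one.mp (Subgroup.orderOf_dvd_natCard _ hu'), one_pow]
  have hcomm : Commute a u :=
    (Subgroup.mem_centralizer_singleton_iff.mp (hD.le_centralizer a ha hu)).symm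
  have hcomm' : Commute a' u' :=
    (Subgroup.mem_centralizer_singleton_iff.mp (hD.le_centralizer a' ha' hu')).symm
  obtain ⟨k, hk1, hk2⟩ : ∃ k : ℕ, (∀ z : G, z ^ n = 1 → z ^ k = z) ∧
      (∀ z : G, z ^ m = 1 → z ^ k = 1) := by
    by_cases hn1 : n = 1
    · refine ⟨m, ?_, fun z hz => hz⟩
      intro z hz
      rw [hn1, pow_one] at hz
      rw [hz, one_pow]
    · have hn0 : n ≠ 0 := by
        rw [hn]
        exact Nat.mul_ne_zero Nat.card_pos.ne' Nat.card_pos.ne'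
      have hn2 : 1 < n := by omega
      obtain ⟨s, -, hs⟩ := Nat.exists_mul_mod_eq_one_of_coprime hcop hn2
      refine ⟨m * s, ?_, ?_⟩
      · intro z hz
        have h1 : m * s = n * (m * s / n) + 1 := by
          have := Nat.div_add_mod (m * s) n
          omega
        rw [h1, pow_succ, pow_mul, hz, one_pow, one_mul]
      · intro z hz
        rw [pow_mul, hz, one_pow]
  have e1 : (a * u) ^ k = a := by rw [hcomm.mul_pow, hk1 a han, hk2 u hum, mul_one]
  have e2 : (a' * u') ^ k = a' := by rw [hcomm'.mul_pow, hk1 a' han', hk2 u' hum', mul_one]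
  have e3 : y * a * y⁻¹ = a' := by
    calc y * a * y⁻¹ = y * (a * u) ^ k * y⁻¹ := by rw [e1]
      _ = (y * (a * u) * y⁻¹) ^ k := by rw [conj_pow]
      _ = a' := by rw [hy, e2]
  refine ⟨e3, ?_⟩
  calc y * u * y⁻¹ = (y * a * y⁻¹)⁻¹ * (y * (a * u) * y⁻¹) := by group
    _ = u' := by rw [e3, hy]; group

end DadeSec

end Cfsg.Agent.Helper24
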