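import Cfsg.Agent.Helper24.Dade1

/-!
# The Dade hypothesis: the fibre-counting identity (helper24)
-/

set_option autoImplicit false

namespace Cfsg.Agent.Helper24

open Cfsg

open scoped Classical

noncomputable section DadeSec2

variable {G : Type*} [Group G] [Fintype G] {A : Set G} {L : Subgroup G} {H : G → Subgroup G}

/-- The weighted number of triples `(a, u, x)` with `x⁻¹ * (a * u) * x = g` is one. -/
theorem dade_fiber (hD : DadeHypothesis A L H) {R : Type*} [Field R] [CharZero R] (g : G)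
    (hg : ∃ a ∈ A, ∃ u ∈ H a, ∃ x : G, x * g * x⁻¹ = a * u) :
    ∑ t ∈ (Finset.univ : Finset (G × G × G)).filter
        (fun t => (t.1 ∈ A ∧ t.2.1 ∈ H t.1) ∧ t.2.2⁻¹ * (t.1 * t.2.1) * t.2.2 = g),
      ((Nat.card L : R) * (Nat.card (H t.1) : R))⁻¹ = 1 := by
  obtain ⟨a₀, ha₀, u₀, hu₀, x₀, hx₀⟩ := hg
  obtain ⟨ι, hιdef⟩ : ∃ ι : ↥L × ↥(H a₀) → G × G × G, ι = fun p =>
      ((p.1 : G) * a₀ * (p.1 : G)⁻¹, ((p.1 : G) * (p.2 : G)) * u₀ * ((p.1 : G) * (p.2 : G))⁻¹,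
        (p.1 : G) * (p.2 : G) * x₀) := ⟨_, rfl⟩
  have hι1 : ∀ p, (ι p).1 = (p.1 : G) * a₀ * (p.1 : G)⁻¹ := fun p => by rw [hιdef]
  have hι2 : ∀ p, (ι p).2.1 = ((p.1 : G) * (p.2 : G)) * u₀ * ((p.1 : G) * (p.2 : G))⁻¹ :=
    fun p => by rw [hιdef]
  have hι3 : ∀ p, (ι p).2.2 = (p.1 : G) * (p.2 : G) * x₀ := fun p => by rw [hιdef]
  have hcen : ∀ h ∈ H a₀, h * a₀ = a₀ * h := fun h hh =>
    Subgroup.mem_centralizer_singleton_iff.mp (hD.le_centralizer a₀ ha₀ hh)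
  have hι : Function.Injective ι := by
    intro p q hpq
    have h3 : (p.1 : G) * (p.2 : G) * x₀ = (q.1 : G) * (q.2 : G) * x₀ := by
      rw [← hι3, ← hι3, hpq]
    have h4 : (p.1 : G) * (p.2 : G) = (q.1 : G) * (q.2 : G) := mul_right_cancel h3
    have h5 : (q.1 : G)⁻¹ * (p.1 : G) = (q.2 : G) * (p.2 : G)⁻¹ := by
      rw [eq_mul_inv_iff_mul_eq, mul_assoc, h4]; group
    have h6 : (q.1 : G)⁻¹ * (p.1 : G) ∈ H a₀ ⊓ (L ⊓ Subgroup.centralizer ({a₀} : Set G)) := by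
      rw [Subgroup.mem_inf, Subgroup.mem_inf]
      refine ⟨?_, ?_, ?_⟩
      · rw [h5]; exact mul_mem q.2.2 (inv_mem p.2.2)
      · exact mul_mem (inv_mem q.1.2) p.1.2
      · rw [h5]; exact hD.le_centralizer a₀ ha₀ (mul_mem q.2.2 (inv_mem p.2.2))
    rw [hD.inf_eq_bot a₀ ha₀, Subgroup.mem_bot] at h6
    have h7 : (p.1 : G) = q.1 := (inv_mul_eq_one.mp h6).symm
    have h8 : (p.2 : G) = q.2 := by
      rw [h7] at h4; exact mul_left_cancel h4
    exact Prod.ext (Subtype.ext h7) (Subtype.ext h8)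
  have hfib : (Finset.univ : Finset (G × G × G)).filter
        (fun t => (t.1 ∈ A ∧ t.2.1 ∈ H t.1) ∧ t.2.2⁻¹ * (t.1 * t.2.1) * t.2.2 = g) =
      Finset.univ.image ι := by
    ext t
    simp only [Finset.mem_filter, Finset.mem_univ, true_and, Finset.mem_image]
    constructor
    · rintro ⟨⟨hta, htu⟩, htg⟩
      obtain ⟨a, u, x⟩ := t
      simp only at hta htu htg
      obtain ⟨y, hydef⟩ : ∃ y : G, y = x * x₀⁻¹ := ⟨_, rfl⟩
      have hy : y * (a₀ * u₀) * y⁻¹ = a * u := by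
        rw [hydef, ← hx₀, ← htg]; group
      obtain ⟨e1, e2⟩ := dade_lemma hD ha₀ hta hu₀ htu hy
      obtain ⟨l₀, hl₀, e3⟩ := hD.fusion a₀ ha₀ y (by rw [e1]; exact hta)
      have hc : l₀⁻¹ * y ∈ Subgroup.centralizer ({a₀} : Set G) := by
        rw [Subgroup.mem_centralizer_singleton_iff]
        calc l₀⁻¹ * y * a₀ = l₀⁻¹ * (y * a₀ * y⁻¹) * y := by group
          _ = l₀⁻¹ * (l₀ * a₀ * l₀⁻¹) * y := by rw [e3]
          _ = a₀ * (l₀⁻¹ * y) := by group
      obtain ⟨k, hk, h, hh, e4⟩ := dade_decomp' hD ha₀ hc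
      have hyl : y = l₀ * k * h := by rw [mul_assoc, ← e4]; group
      have hkL : l₀ * k ∈ L := mul_mem hl₀ hk.1
      refine ⟨(⟨l₀ * k, hkL⟩, ⟨h, hh⟩), ?_⟩
      refine Prod.ext ?_ (Prod.ext ?_ ?_)
      · rw [hι1]
        show l₀ * k * a₀ * (l₀ * k)⁻¹ = a
        calc l₀ * k * a₀ * (l₀ * k)⁻¹ = l₀ * k * (a₀ * h) * h⁻¹ * (l₀ * k)⁻¹ := by group
          _ = l₀ * k * (h * a₀) * h⁻¹ * (l₀ * k)⁻¹ := by rw [hcen h hh]
          _ = (l₀ * k * h) * a₀ * (l₀ * k * h)⁻¹ := by group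
          _ = a := by rw [← hyl]; exact e1
      · rw [hι2]
        show l₀ * k * h * u₀ * (l₀ * k * h)⁻¹ = u
        rw [← hyl]; exact e2
      · rw [hι3]
        show l₀ * k * h * x₀ = x
        rw [← hyl, hydef]; group
    · rintro ⟨⟨l, h⟩, rfl⟩
      have hA' : (l : G) * a₀ * (l : G)⁻¹ ∈ A := hD.conj_mem l l.2 a₀ ha₀
      refine ⟨⟨?_, ?_⟩, ?_⟩
      · rw [hι1]; exact hA'
      · rw [hι1, hι2]
        show (l : G) * (h : G) * u₀ * ((l : G) * (h : G))⁻¹ ∈ H ((l : G) * a₀ * (l : G)⁻¹)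
        have h1 : (h : G) * u₀ * (h : G)⁻¹ ∈ H a₀ := mul_mem (mul_mem h.2 hu₀) (inv_mem h.2)
        have h2 := dade_conj_H hD ha₀ l.2 h1
        have h3 : (l : G) * (h : G) * u₀ * ((l : G) * (h : G))⁻¹ =
            (l : G) * ((h : G) * u₀ * (h : G)⁻¹) * (l : G)⁻¹ := by group
        rw [h3]; exact h2
      · rw [hι1, hι2, hι3]
        show ((l : G) * (h : G) * x₀)⁻¹ * ((l : G) * a₀ * (l : G)⁻¹ *
          ((l : G) * (h : G) * u₀ * ((l : G) * (h : G))⁻¹)) * ((l : G) * (h : G) * x₀) = g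
        calc ((l : G) * (h : G) * x₀)⁻¹ * ((l : G) * a₀ * (l : G)⁻¹ *
              ((l : G) * (h : G) * u₀ * ((l : G) * (h : G))⁻¹)) * ((l : G) * (h : G) * x₀)
            = x₀⁻¹ * ((h : G)⁻¹ * (a₀ * (h : G))) * u₀ * x₀ := by group
          _ = x₀⁻¹ * ((h : G)⁻¹ * ((h : G) * a₀)) * u₀ * x₀ := by rw [hcen h h.2]
          _ = x₀⁻¹ * (a₀ * u₀) * x₀ := by group
          _ = x₀⁻¹ * (x₀ * g * x₀⁻¹) * x₀ := by rw [hx₀]
          _ = g := by group
  rw [hfib, Finset.sum_image (fun p _ q _ hpq => hι hpq)]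
  have hterm : ∀ p : ↥L × ↥(H a₀), ((Nat.card L : R) * (Nat.card (H (ι p).1) : R))⁻¹ =
      ((Nat.card L : R) * (Nat.card (H a₀) : R))⁻¹ := by
    intro p
    rw [hι1, dade_card_H hD ha₀ p.1.2]
  rw [Finset.sum_congr rfl (fun p _ => hterm p), Finset.sum_const, Finset.card_univ,
    Fintype.card_prod, nsmul_eq_mul, ← Nat.card_eq_fintype_card, ← Nat.card_eq_fintype_card]
  push_cast
  have h1 : (Nat.card L : R) ≠ 0 := Nat.cast_ne_zero.mpr Nat.card_pos.ne'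
  have h2 : (Nat.card (H a₀) : R) ≠ 0 := Nat.cast_ne_zero.mpr Nat.card_pos.ne'
  field_simp

/-- The fibre-counting identity: a sum over the elements conjugate into some coset `a * H a`
is a weighted sum over the pairs `(a, u)`. -/
theorem dade_sum (hD : DadeHypothesis A L H) {R : Type*} [Field R] [CharZero R] (F : G → R)
    (f : G → G → R) (hF : ∀ a ∈ A, ∀ u ∈ H a, ∀ x : G, F (x⁻¹ * (a * u) * x) = f a u) :
    ∑ g ∈ (Finset.univ : Finset G).filter
        (fun g => ∃ a ∈ A, ∃ u ∈ H a, ∃ x : G, x * g * x⁻¹ = a * u), F g =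
      ∑ a ∈ (Finset.univ : Finset G).filter (· ∈ A),
        ∑ u ∈ (Finset.univ : Finset G).filter (· ∈ H a),
          (Nat.card G : R) * ((Nat.card L : R) * (Nat.card (H a) : R))⁻¹ * f a u := by
  have h1 : ∑ t ∈ (Finset.univ : Finset (G × G × G)).filter (fun t => t.1 ∈ A ∧ t.2.1 ∈ H t.1),
        ((Nat.card L : R) * (Nat.card (H t.1) : R))⁻¹ * F (t.2.2⁻¹ * (t.1 * t.2.1) * t.2.2) =
      ∑ g ∈ (Finset.univ : Finset G).filter
        (fun g => ∃ a ∈ A, ∃ u ∈ H a, ∃ x : G, x * g * x⁻¹ = a * u), F g := by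
    rw [← Finset.sum_fiberwise _ (fun t : G × G × G => t.2.2⁻¹ * (t.1 * t.2.1) * t.2.2)]
    rw [Finset.sum_filter]
    refine Finset.sum_congr rfl fun g _ => ?_
    split_ifs with hg
    · have h2 : ∀ t ∈ ((Finset.univ : Finset (G × G × G)).filter
            (fun t => t.1 ∈ A ∧ t.2.1 ∈ H t.1)).filter
            (fun t => t.2.2⁻¹ * (t.1 * t.2.1) * t.2.2 = g),
          ((Nat.card L : R) * (Nat.card (H t.1) : R))⁻¹ * F (t.2.2⁻¹ * (t.1 * t.2.1) * t.2.2) =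
          ((Nat.card L : R) * (Nat.card (H t.1) : R))⁻¹ * F g := by
        intro t ht
        rw [(Finset.mem_filter.mp ht).2]
      rw [Finset.sum_congr rfl h2, ← Finset.sum_mul, Finset.filter_filter,
        dade_fiber hD g hg, one_mul]
    · apply Finset.sum_eq_zero
      intro t ht
      exfalso
      apply hg
      obtain ⟨ht1, ht2⟩ := Finset.mem_filter.mp ht
      obtain ⟨hta, htu⟩ := (Finset.mem_filter.mp ht1).2
      exact ⟨t.1, hta, t.2.1, htu, t.2.2, by rw [← ht2]; group⟩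
  rw [← h1, Finset.sum_filter, Fintype.sum_prod_type, Finset.sum_filter]
  refine Finset.sum_congr rfl fun a _ => ?_
  by_cases ha : a ∈ A
  · rw [if_pos ha, Fintype.sum_prod_type, Finset.sum_filter]
    refine Finset.sum_congr rfl fun u _ => ?_
    by_cases hu : u ∈ H a
    · rw [if_pos hu]
      have h3 : ∀ x ∈ (Finset.univ : Finset G),
          (if (a, u, x).1 ∈ A ∧ (a, u, x).2.1 ∈ H (a, u, x).1 then
            ((Nat.card L : R) * (Nat.card (H (a, u, x).1) : R))⁻¹ *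
              F ((a, u, x).2.2⁻¹ * ((a, u, x).1 * (a, u, x).2.1) * (a, u, x).2.2) else 0) =
          ((Nat.card L : R) * (Nat.card (H a) : R))⁻¹ * f a u := by
        intro x _
        rw [if_pos ⟨ha, hu⟩]
        show ((Nat.card L : R) * (Nat.card (H a) : R))⁻¹ * F (x⁻¹ * (a * u) * x) = _
        rw [hF a ha u hu x]
      rw [Finset.sum_congr rfl h3, Finset.sum_const, Finset.card_univ, nsmul_eq_mul,
        ← Nat.card_eq_fintype_card]
      ring
    · rw [if_neg hu]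
      apply Finset.sum_eq_zero
      intro x _
      exact if_neg (fun h => hu h.2)
  · rw [if_neg ha]
    apply Finset.sum_eq_zero
    intro t' _
    exact if_neg (fun h => ha h.1)

end DadeSec2

end Cfsg.Agent.Helper24
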