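import Cfsg.Agent.Helper24.Dade2

/-!
# The Dade hypothesis: the Dade inequality and the inner products of Dade images (helper24)
-/

set_option autoImplicit false

namespace Cfsg.Agent.Helper24

open Cfsg

open scoped Classical

noncomputable section DadeSec3

theorem finsum_mem_setOf_eq_sum_filter {α M : Type*} [Fintype α] [AddCommMonoid M] (p : α → Prop)
    [DecidablePred p] (f : α → M) :
    ∑ᶠ a ∈ {a | p a}, f a = ∑ a ∈ (Finset.univ : Finset α).filter p, f a := by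
  rw [finsum_mem_eq_finite_toFinset_sum _ (Set.toFinite _)]
  apply Finset.sum_congr
  · ext x; simp
  · intros; rfl

theorem finsum_mem_subgroup_eq_sum_filter {G M : Type*} [Group G] [Fintype G] [AddCommMonoid M]
    (K : Subgroup G) (f : G → M) :
    ∑ᶠ u ∈ (K : Set G), f u = ∑ u ∈ (Finset.univ : Finset G).filter (fun u => u ∈ K), f u := by
  rw [finsum_mem_eq_finite_toFinset_sum _ (Set.toFinite _)]
  apply Finset.sum_congr
  · ext x; simp
  · intros; rfl

theorem card_filter_mem_subgroup {G : Type*} [Group G] [Fintype G] (K : Subgroup G) :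
    ((Finset.univ : Finset G).filter (fun x => x ∈ K)).card = Nat.card K := by
  rw [← Fintype.card_subtype, Nat.card_eq_fintype_card]

variable {G : Type*} [Group G] [Fintype G] {A : Set G} {L : Subgroup G} {H : G → Subgroup G}

theorem sum_subtype_mem_eq [Fintype L] (hA : A ⊆ (L : Set G)) {M : Type*} [AddCommMonoid M]
    (φ : G → M) :
    ∑ a ∈ (Finset.univ : Finset L).filter (fun a : L => (a : G) ∈ A), φ (a : G) =
      ∑ b ∈ (Finset.univ : Finset G).filter (fun b : G => b ∈ A), φ b := by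
  refine Finset.sum_bij (fun (a : L) _ => (a : G)) ?_ ?_ ?_ ?_
  · intro a ha
    simp only [Finset.mem_filter, Finset.mem_univ, true_and] at ha ⊢
    exact ha
  · intro a _ b _ hab
    exact Subtype.ext hab
  · intro b hb
    simp only [Finset.mem_filter, Finset.mem_univ, true_and] at hb
    exact ⟨⟨b, hA hb⟩, by simp [hb], rfl⟩
  · intro a _
    rfl

/-- The Dade inequality. -/
theorem dade_ineq (A : Set G) (L : Subgroup G) [Fintype L] (H : G → Subgroup G)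
    (hD : DadeHypothesis A L H) (χ : G → ℂ) (hχ : IsClassFunction G χ) (ψ : L → ℂ)
    (hψ : ∀ a : L, (a : G) ∈ A →
      ψ a = (Nat.card (H a) : ℂ)⁻¹ * ∑ᶠ u ∈ (H a : Set G), χ (a * u)) :
    (Nat.card L : ℝ)⁻¹ * ∑ᶠ a ∈ {a : L | (a : G) ∈ A}, ‖ψ a‖ ^ 2 ≤
      (Nat.card G : ℝ)⁻¹ * ∑ᶠ g ∈ {g : G | ∃ a ∈ A, ∃ u ∈ H a, ∃ x : G, x * g * x⁻¹ = a * u},
        ‖χ g‖ ^ 2 := by
  have hG0 : (Nat.card G : ℝ) ≠ 0 := Nat.cast_ne_zero.mpr Nat.card_pos.ne'
  have hL0 : (Nat.card L : ℝ) ≠ 0 := Nat.cast_ne_zero.mpr Nat.card_pos.ne'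
  have hF : ∀ a ∈ A, ∀ u ∈ H a, ∀ x : G, ‖χ (x⁻¹ * (a * u) * x)‖ ^ 2 = ‖χ (a * u)‖ ^ 2 := by
    intro a _ u _ x
    have h1 := hχ (a * u) x⁻¹
    rw [inv_inv] at h1
    rw [h1]
  have h1 := dade_sum hD (R := ℝ) (fun g => ‖χ g‖ ^ 2) (fun a u => ‖χ (a * u)‖ ^ 2) hF
  rw [finsum_mem_setOf_eq_sum_filter (fun a : L => (a : G) ∈ A),
    finsum_mem_setOf_eq_sum_filter (fun g : G => ∃ a ∈ A, ∃ u ∈ H a, ∃ x : G, x * g * x⁻¹ = a * u),
    h1]
  -- bound each term on the left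
  obtain ⟨φ, hφ⟩ : ∃ φ : G → ℝ, φ = fun b => (Nat.card (H b) : ℝ)⁻¹ *
      ∑ u ∈ (Finset.univ : Finset G).filter (fun u => u ∈ H b), ‖χ (b * u)‖ ^ 2 := ⟨_, rfl⟩
  have hle : ∀ a ∈ (Finset.univ : Finset L).filter (fun a : L => (a : G) ∈ A),
      ‖ψ a‖ ^ 2 ≤ φ (a : G) := by
    intro a ha
    have haA : (a : G) ∈ A := (Finset.mem_filter.mp ha).2
    have hH0 : (Nat.card (H (a : G)) : ℝ) ≠ 0 := Nat.cast_ne_zero.mpr Nat.card_pos.ne'
    have hHpos : (0 : ℝ) < (Nat.card (H (a : G)) : ℝ) := Nat.cast_pos.mpr Nat.card_pos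
    rw [hψ a haA, finsum_mem_subgroup_eq_sum_filter, norm_mul, norm_inv, Complex.norm_natCast,
      mul_pow, hφ]
    have h3 : ‖∑ u ∈ (Finset.univ : Finset G).filter (fun u => u ∈ H (a : G)),
        χ ((a : G) * u)‖ ≤
        ∑ u ∈ (Finset.univ : Finset G).filter (fun u => u ∈ H (a : G)), ‖χ ((a : G) * u)‖ :=
      norm_sum_le _ _
    have h4 := sq_sum_le_card_mul_sum_sq
      (s := (Finset.univ : Finset G).filter (fun u => u ∈ H (a : G)))
      (f := fun u => ‖χ ((a : G) * u)‖)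
    rw [card_filter_mem_subgroup] at h4
    have h5 : ‖∑ u ∈ (Finset.univ : Finset G).filter (fun u => u ∈ H (a : G)),
        χ ((a : G) * u)‖ ^ 2 ≤ (Nat.card (H (a : G)) : ℝ) *
        ∑ u ∈ (Finset.univ : Finset G).filter (fun u => u ∈ H (a : G)), ‖χ ((a : G) * u)‖ ^ 2 :=
      le_trans (pow_le_pow_left₀ (norm_nonneg _) h3 2) h4
    calc ((Nat.card (H (a : G)) : ℝ)⁻¹) ^ 2 *
          ‖∑ u ∈ (Finset.univ : Finset G).filter (fun u => u ∈ H (a : G)),
            χ ((a : G) * u)‖ ^ 2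
        ≤ ((Nat.card (H (a : G)) : ℝ)⁻¹) ^ 2 * ((Nat.card (H (a : G)) : ℝ) *
          ∑ u ∈ (Finset.univ : Finset G).filter (fun u => u ∈ H (a : G)),
            ‖χ ((a : G) * u)‖ ^ 2) :=
          mul_le_mul_of_nonneg_left h5 (by positivity)
      _ = (Nat.card (H (a : G)) : ℝ)⁻¹ *
          ∑ u ∈ (Finset.univ : Finset G).filter (fun u => u ∈ H (a : G)),
            ‖χ ((a : G) * u)‖ ^ 2 := by
          field_simp
  have h6 : ∑ a ∈ (Finset.univ : Finset L).filter (fun a : L => (a : G) ∈ A),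
      ‖ψ a‖ ^ 2 ≤ ∑ b ∈ (Finset.univ : Finset G).filter (fun b : G => b ∈ A), φ b := by
    rw [← sum_subtype_mem_eq hD.subset φ]
    exact Finset.sum_le_sum hle
  calc (Nat.card L : ℝ)⁻¹ *
        ∑ a ∈ (Finset.univ : Finset L).filter (fun a : L => (a : G) ∈ A), ‖ψ a‖ ^ 2
      ≤ (Nat.card L : ℝ)⁻¹ * ∑ b ∈ (Finset.univ : Finset G).filter (fun b : G => b ∈ A), φ b :=
        mul_le_mul_of_nonneg_left h6 (by positivity)
    _ = (Nat.card G : ℝ)⁻¹ * ∑ a ∈ (Finset.univ : Finset G).filter (fun a => a ∈ A),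
          ∑ u ∈ (Finset.univ : Finset G).filter (fun u => u ∈ H a),
            (Nat.card G : ℝ) * ((Nat.card L : ℝ) * (Nat.card (H a) : ℝ))⁻¹ * ‖χ (a * u)‖ ^ 2 := by
        rw [Finset.mul_sum, Finset.mul_sum]
        refine Finset.sum_congr rfl fun b _ => ?_
        rw [hφ]
        beta_reduce
        rw [Finset.mul_sum, Finset.mul_sum, Finset.mul_sum]
        refine Finset.sum_congr rfl fun u _ => ?_
        have hH0 : (Nat.card (H b) : ℝ) ≠ 0 := Nat.cast_ne_zero.mpr Nat.card_pos.ne'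
        field_simp

end DadeSec3

end Cfsg.Agent.Helper24
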