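import Cfsg.Agent.Helper24.Dade3

/-!
# The Dade hypothesis: inner products of Dade images (helper24)
-/

set_option autoImplicit false

namespace Cfsg.Agent.Helper24

open Cfsg

open scoped Classical

noncomputable section DadeSec4

variable {G : Type*} [Group G] [Fintype G] {A : Set G} {L : Subgroup G} {H : G → Subgroup G}

/-- The value of the Dade image of a class function at an element conjugate into `a * H a`. -/
theorem dadeIsometry_apply (hD : DadeHypothesis A L H) (α : L → ℂ) (hα : IsClassFunction L α)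
    {g : G} {a : L} (ha : (a : G) ∈ A) {u x : G} (hu : u ∈ H (a : G))
    (hx : x * g * x⁻¹ = (a : G) * u) : dadeIsometry A L H α g = α a := by
  have h : ∃ a : ↥L, (a : G) ∈ A ∧ ∃ x : G, ∃ u ∈ H (a : G), x * g * x⁻¹ = (a : G) * u :=
    ⟨a, ha, x, u, hu, hx⟩
  unfold dadeIsometry
  rw [dif_pos h]
  obtain ⟨ha', x', u', hu', hx'⟩ := Classical.choose_spec h
  obtain ⟨a', ha'def⟩ : ∃ a' : ↥L, a' = Classical.choose h := ⟨_, rfl⟩
  rw [← ha'def] at ha' hu' hx' ⊢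
  have hy : (x' * x⁻¹) * ((a : G) * u) * (x' * x⁻¹)⁻¹ = (a' : G) * u' := by
    rw [← hx, ← hx']; group
  obtain ⟨e1, -⟩ := dade_lemma hD ha ha' hu hu' hy
  obtain ⟨l, hl, e3⟩ := hD.fusion (a : G) ha (x' * x⁻¹) (by rw [e1]; exact ha')
  have e4 : a' = ⟨l, hl⟩ * a * ⟨l, hl⟩⁻¹ := by
    apply Subtype.ext
    simp only [Subgroup.coe_mul, Subgroup.coe_inv]
    rw [e3, e1]
  rw [e4]
  exact hα a ⟨l, hl⟩

omit [Fintype G] in
theorem dadeIsometry_apply_zero (α : L → ℂ) {g : G}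
    (hg : ¬ ∃ a ∈ A, ∃ u ∈ H a, ∃ x : G, x * g * x⁻¹ = a * u) :
    dadeIsometry A L H α g = 0 := by
  unfold dadeIsometry
  rw [dif_neg]
  rintro ⟨a, ha, x, u, hu, hx⟩
  exact hg ⟨a, ha, u, hu, x, hx⟩

theorem dade_avg (hD : DadeHypothesis A L H) (Fc : G → ℂ) (f : G → G → ℂ)
    (hF : ∀ a ∈ A, ∀ u ∈ H a, ∀ x : G, Fc (x⁻¹ * (a * u) * x) = f a u)
    (h0 : ∀ g, (¬ ∃ a ∈ A, ∃ u ∈ H a, ∃ x : G, x * g * x⁻¹ = a * u) → Fc g = 0) :
    (Nat.card G : ℂ)⁻¹ * ∑ g : G, Fc g =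
      (Nat.card L : ℂ)⁻¹ * ∑ a ∈ (Finset.univ : Finset G).filter (fun a : G => a ∈ A),
        (Nat.card (H a) : ℂ)⁻¹ *
          ∑ u ∈ (Finset.univ : Finset G).filter (fun u => u ∈ H a), f a u := by
  have h1 := dade_sum hD (R := ℂ) Fc f hF
  have h2 : ∑ g : G, Fc g = ∑ g ∈ (Finset.univ : Finset G).filter
      (fun g => ∃ a ∈ A, ∃ u ∈ H a, ∃ x : G, x * g * x⁻¹ = a * u), Fc g := by
    symm
    apply Finset.sum_filter_of_ne
    intro g _ hne
    by_contra hcon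
    exact hne (h0 g hcon)
  have hG0 : (Nat.card G : ℂ) ≠ 0 := Nat.cast_ne_zero.mpr Nat.card_pos.ne'
  have hL0 : (Nat.card L : ℂ) ≠ 0 := Nat.cast_ne_zero.mpr Nat.card_pos.ne'
  rw [h2, h1, Finset.mul_sum, Finset.mul_sum]
  refine Finset.sum_congr rfl fun a _ => ?_
  rw [Finset.mul_sum, Finset.mul_sum, Finset.mul_sum]
  refine Finset.sum_congr rfl fun u _ => ?_
  have hH0 : (Nat.card (H a) : ℂ) ≠ 0 := Nat.cast_ne_zero.mpr Nat.card_pos.ne'
  field_simp

theorem dade_inner_aux [Fintype L] (hA : A ⊆ (L : Set G)) (α ψ' : L → ℂ)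
    (hαA : ∀ x : L, (x : G) ∉ A → α x = 0) (φ : G → ℂ)
    (hφ : ∀ a : L, (a : G) ∈ A → φ (a : G) = α a * (starRingEnd ℂ) (ψ' a)) :
    (Nat.card L : ℂ)⁻¹ * ∑ b ∈ (Finset.univ : Finset G).filter (fun b : G => b ∈ A), φ b =
      classInner α ψ' := by
  rw [← sum_subtype_mem_eq hA φ]
  show _ = (Nat.card L : ℂ)⁻¹ * ∑ a : L, α a * (starRingEnd ℂ) (ψ' a)
  congr 1
  rw [Finset.sum_congr rfl (fun a ha => hφ a (Finset.mem_filter.mp ha).2)]
  apply Finset.sum_filter_of_ne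
  intro a _ hne
  by_contra hcon
  exact hne (by rw [hαA a hcon, zero_mul])

/-- Inner products of Dade images. -/
theorem dade_inner (A : Set G) (L : Subgroup G) [Fintype L] (H : G → Subgroup G)
    (hD : DadeHypothesis A L H) (α : L → ℂ) (hα : IsClassFunction L α)
    (hαA : ∀ x : L, (x : G) ∉ A → α x = 0) :
    (∀ β : L → ℂ, IsClassFunction L β → (∀ x : L, (x : G) ∉ A → β x = 0) →
      classInner (dadeIsometry A L H α) (dadeIsometry A L H β) = classInner α β) ∧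
    (∀ (χ : G → ℂ) (ψ : L → ℂ), IsClassFunction G χ →
      (∀ a : L, (a : G) ∈ A →
        ψ a = (Nat.card (H a) : ℂ)⁻¹ * ∑ᶠ u ∈ (H a : Set G), χ (a * u)) →
      classInner (dadeIsometry A L H α) χ = classInner α ψ) := by
  constructor
  · intro β hβ _
    obtain ⟨f, hf⟩ : ∃ f : G → G → ℂ, f = fun a _ =>
        if h : a ∈ L then α ⟨a, h⟩ * (starRingEnd ℂ) (β ⟨a, h⟩) else 0 := ⟨_, rfl⟩
    have hF : ∀ a ∈ A, ∀ u ∈ H a, ∀ x : G,
        dadeIsometry A L H α (x⁻¹ * (a * u) * x) *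
          (starRingEnd ℂ) (dadeIsometry A L H β (x⁻¹ * (a * u) * x)) = f a u := by
      intro a ha u hu x
      have haL : a ∈ L := hD.subset ha
      have hx : x * (x⁻¹ * (a * u) * x) * x⁻¹ = ((⟨a, haL⟩ : L) : G) * u := by
        show x * (x⁻¹ * (a * u) * x) * x⁻¹ = a * u
        group
      rw [dadeIsometry_apply hD α hα (a := ⟨a, haL⟩) ha hu hx,
        dadeIsometry_apply hD β hβ (a := ⟨a, haL⟩) ha hu hx, hf]
      beta_reduce
      rw [dif_pos haL]
    have h0 : ∀ g, (¬ ∃ a ∈ A, ∃ u ∈ H a, ∃ x : G, x * g * x⁻¹ = a * u) →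
        dadeIsometry A L H α g * (starRingEnd ℂ) (dadeIsometry A L H β g) = 0 := by
      intro g hg
      rw [dadeIsometry_apply_zero α hg, zero_mul]
    have h1 := dade_avg hD _ f hF h0
    show (Nat.card G : ℂ)⁻¹ * ∑ g : G, dadeIsometry A L H α g *
      (starRingEnd ℂ) (dadeIsometry A L H β g) = _
    rw [h1]
    apply dade_inner_aux hD.subset α β hαA
    intro a ha
    have hH0 : (Nat.card (H (a : G)) : ℂ) ≠ 0 := Nat.cast_ne_zero.mpr Nat.card_pos.ne'
    have h2 : ∀ u ∈ (Finset.univ : Finset G).filter (fun u => u ∈ H (a : G)),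
        f (a : G) u = α a * (starRingEnd ℂ) (β a) := by
      intro u _
      rw [hf]
      exact dif_pos a.2
    rw [Finset.sum_congr rfl h2, Finset.sum_const, card_filter_mem_subgroup, nsmul_eq_mul]
    field_simp
  · intro χ ψ hχ hψ
    obtain ⟨f, hf⟩ : ∃ f : G → G → ℂ, f = fun a u =>
        if h : a ∈ L then α ⟨a, h⟩ * (starRingEnd ℂ) (χ (a * u)) else 0 := ⟨_, rfl⟩
    have hF : ∀ a ∈ A, ∀ u ∈ H a, ∀ x : G,
        dadeIsometry A L H α (x⁻¹ * (a * u) * x) *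
          (starRingEnd ℂ) (χ (x⁻¹ * (a * u) * x)) = f a u := by
      intro a ha u hu x
      have haL : a ∈ L := hD.subset ha
      have hx : x * (x⁻¹ * (a * u) * x) * x⁻¹ = ((⟨a, haL⟩ : L) : G) * u := by
        show x * (x⁻¹ * (a * u) * x) * x⁻¹ = a * u
        group
      have h3 := hχ (a * u) x⁻¹
      rw [inv_inv] at h3
      rw [dadeIsometry_apply hD α hα (a := ⟨a, haL⟩) ha hu hx, h3, hf]
      beta_reduce
      rw [dif_pos haL]
    have h0 : ∀ g, (¬ ∃ a ∈ A, ∃ u ∈ H a, ∃ x : G, x * g * x⁻¹ = a * u) →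
        dadeIsometry A L H α g * (starRingEnd ℂ) (χ g) = 0 := by
      intro g hg
      rw [dadeIsometry_apply_zero α hg, zero_mul]
    have h1 := dade_avg hD _ f hF h0
    show (Nat.card G : ℂ)⁻¹ * ∑ g : G, dadeIsometry A L H α g * (starRingEnd ℂ) (χ g) = _
    rw [h1]
    apply dade_inner_aux hD.subset α ψ hαA
    intro a ha
    have h2 : ∀ u ∈ (Finset.univ : Finset G).filter (fun u => u ∈ H (a : G)),
        f (a : G) u = α a * (starRingEnd ℂ) (χ ((a : G) * u)) := by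
      intro u _
      rw [hf]
      exact dif_pos a.2
    rw [Finset.sum_congr rfl h2, hψ a ha, finsum_mem_subgroup_eq_sum_filter, map_mul, map_inv₀,
      Complex.conj_natCast, map_sum, ← Finset.mul_sum]
    ring

end DadeSec4

end Cfsg.Agent.Helper24
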