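import Mathlib

/-!
# Counting lemmas for the class number of a coprime split extension `V ⋊ G`, `V` abelian
-/

set_option autoImplicit false

namespace Cfsg.Agent.Helper24

/-- If `v = [u, g]` commutes with `g` then `v ^ k = [u, g ^ k]`. -/
theorem kgv_fix_comm {X : Type*} [Group X] (g u v : X) (hv : g * v = v * g)
    (huv : v = u * g * u⁻¹ * g⁻¹) (k : ℕ) : v ^ k = u * g ^ k * u⁻¹ * (g ^ k)⁻¹ := by
  induction k with
  | zero => simp
  | succ k ih =>
    have hc : Commute (g ^ k)⁻¹ v := ((Commute.pow_left (show Commute g v from hv) k)).inv_left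
    calc v ^ (k + 1) = u * g ^ k * u⁻¹ * ((g ^ k)⁻¹ * v) := by rw [pow_succ, ih]; group
      _ = u * g ^ k * u⁻¹ * (v * (g ^ k)⁻¹) := by rw [hc.eq]
      _ = u * g ^ k * u⁻¹ * (u * g * u⁻¹ * g⁻¹ * (g ^ k)⁻¹) := by rw [← huv]
      _ = u * g ^ (k + 1) * u⁻¹ * (g ^ (k + 1))⁻¹ := by rw [pow_succ]; group

/-- Abstract count: for commuting endomorphisms `α, β` of a finite abelian group with
`ker α ∩ range α = 1`, the number of pairs `(v, w)` with `β v = α w` is `|A| · |ker α ∩ ker β|`. -/
theorem kgv_count {A : Type*} [CommGroup A] [Finite A] (α β : A →* A)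
    (hcomm : ∀ x, α (β x) = β (α x))
    (hα : ∀ x, α (α x) = 1 → α x = 1) :
    Nat.card {p : A × A // β p.1 = α p.2} =
      Nat.card A * Nat.card {x : A // α x = 1 ∧ β x = 1} := by
  classical
  -- decomposition
  have hdec : ∀ v : A, ∃ c, α (α c) = α v := by
    intro v
    let f : α.range → α.range := fun r => ⟨α r, ⟨r, rfl⟩⟩
    have hf : Function.Injective f := by
      rintro ⟨r, c, rfl⟩ ⟨r', c', rfl⟩ h
      have h1 : α (α c) = α (α c') := congrArg Subtype.val h
      have h2 : α (α (c / c')) = 1 := by rw [map_div, map_div, h1, div_self']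
      have h3 := hα _ h2
      rw [map_div, div_eq_one] at h3
      exact Subtype.ext h3
    obtain ⟨⟨r, c, rfl⟩, hr⟩ := Finite.surjective_of_injective hf ⟨α v, ⟨v, rfl⟩⟩
    exact ⟨c, congrArg Subtype.val hr⟩
  -- (1)
  have e1 : Nat.card {p : A × A // β p.1 = α p.2} =
      Nat.card {v : A // ∃ c, β v = α c} * Nat.card α.ker := by
    rw [← Nat.card_prod]
    apply Nat.card_congr
    exact
      { toFun := fun p => (⟨p.1.1, ⟨p.1.2, p.2⟩⟩,
          ⟨p.1.2 / Classical.choose (show ∃ c, β p.1.1 = α c from ⟨p.1.2, p.2⟩), by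
            rw [MonoidHom.mem_ker, map_div,
              ← Classical.choose_spec (show ∃ c, β p.1.1 = α c from ⟨p.1.2, p.2⟩), ← p.2,
              div_self']⟩)
        invFun := fun q => ⟨(q.1.1, Classical.choose q.1.2 * q.2.1), by
          show β q.1.1 = α (Classical.choose q.1.2 * q.2.1)
          rw [map_mul, MonoidHom.mem_ker.mp q.2.2, mul_one]
          exact Classical.choose_spec q.1.2⟩
        left_inv := by
          rintro ⟨⟨v, w⟩, h⟩
          apply Subtype.ext
          simp
        right_inv := by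
          rintro ⟨⟨v, hv⟩, ⟨k, hk⟩⟩
          simp }
  -- (2)
  have e2 : Nat.card {v : A // ∃ c, β v = α c} =
      Nat.card α.range * Nat.card {x : A // α x = 1 ∧ β x = 1} := by
    rw [← Nat.card_prod]
    symm
    let f : α.range × {x : A // α x = 1 ∧ β x = 1} → {v : A // ∃ c, β v = α c} :=
      fun q => ⟨q.1.1 * q.2.1, by
        obtain ⟨c, hc⟩ := q.1.2
        refine ⟨β c, ?_⟩
        rw [map_mul, q.2.2.2, mul_one, ← hc, hcomm]⟩
    apply Nat.card_congr (Equiv.ofBijective f ⟨?_, ?_⟩)
    · rintro ⟨⟨r, c, rfl⟩, ⟨z, hz1, hz2⟩⟩ ⟨⟨r', c', rfl⟩, ⟨z', hz1', hz2'⟩⟩ h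
      have h1 : α c * z = α c' * z' := congrArg Subtype.val h
      have h2 : α (c / c') = z' / z := by
        rw [map_div, div_eq_div_iff_mul_eq_mul, h1, mul_comm]
      have h3 : α (α (c / c')) = 1 := by rw [h2, map_div, hz1, hz1', div_self']
      have h4 := hα _ h3
      have h5 : α c = α c' := by rwa [map_div, div_eq_one] at h4
      have h6 : z = z' := by
        rw [h4] at h2
        exact (div_eq_one.mp h2.symm).symm
      simp [h5, h6]
    · rintro ⟨v, c', hv⟩
      obtain ⟨c, hc⟩ := hdec v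
      have hk1 : α (v / α c) = 1 := by rw [map_div, hc, div_self']
      have hk2 : β (v / α c) = 1 := by
        have h1 : β (v / α c) = α (c' / β c) := by
          rw [map_div, map_div, hv, hcomm]
        have h2 : α (α (c' / β c)) = 1 := by rw [← h1, hcomm, hk1, map_one]
        rw [h1]
        exact hα _ h2
      refine ⟨(⟨α c, ⟨c, rfl⟩⟩, ⟨v / α c, hk1, hk2⟩), ?_⟩
      apply Subtype.ext
      show α c * (v / α c) = v
      rw [mul_div_cancel]
  rw [e1, e2, ← Subgroup.card_mul_index α.ker, Subgroup.index_ker]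
  ring

end Cfsg.Agent.Helper24
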