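import Cfsg.Agent.Helper24.KGV1

/-!
# Class number of a coprime split extension `V ⋊ G` with `V` abelian: commuting pairs
-/

set_option autoImplicit false

namespace Cfsg.Agent.Helper24

section

variable {X : Type*} [Group X] [Finite X] (V : Subgroup X) [V.Normal]

/-- Count of pairs `(v, w)` with `v g` and `w h` commuting, for commuting `g, h` of order prime
to `|V|`. -/
theorem kgv_pair_count (hab : ∀ a ∈ V, ∀ b ∈ V, a * b = b * a) (m : ℕ)
    (hm : (Nat.card V).Coprime m) (g h : X) (hg : g ^ m = 1) (hgh : g * h = h * g) :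
    Nat.card {p : ↥V × ↥V // (p.1 : X) * g * (p.2 * h) = p.2 * h * (p.1 * g)} =
      Nat.card V * Nat.card {v : ↥V // g * (v : X) = v * g ∧ h * (v : X) = v * h} := by
  classical
  letI : CommGroup ↥V :=
    { (inferInstance : Group ↥V) with mul_comm := fun a b => Subtype.ext (hab a a.2 b b.2) }
  let cg : ↥V →* ↥V := (MulAut.conjNormal g : MulAut ↥V).toMonoidHom
  let ch : ↥V →* ↥V := (MulAut.conjNormal h : MulAut ↥V).toMonoidHom
  have hcg : ∀ x : ↥V, ((cg x : ↥V) : X) = g * x * g⁻¹ := fun x => MulAut.conjNormal_apply g x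
  have hch : ∀ x : ↥V, ((ch x : ↥V) : X) = h * x * h⁻¹ := fun x => MulAut.conjNormal_apply h x
  let α : ↥V →* ↥V := MonoidHom.id _ / cg
  let β : ↥V →* ↥V := MonoidHom.id _ / ch
  have hα' : ∀ x : ↥V, α x = x / cg x := fun x => rfl
  have hβ' : ∀ x : ↥V, β x = x / ch x := fun x => rfl
  have hcomm : ∀ x, α (β x) = β (α x) := by
    intro x
    have h1 : cg (ch x) = ch (cg x) := by
      apply Subtype.ext
      rw [hcg, hch, hch, hcg]
      calc g * (h * ↑x * h⁻¹) * g⁻¹ = (g * h) * x * (g * h)⁻¹ := by group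
        _ = (h * g) * x * (h * g)⁻¹ := by rw [hgh]
        _ = h * (g * ↑x * g⁻¹) * h⁻¹ := by group
    rw [hα', hβ', hβ', hα', map_div, map_div, h1]
    exact div_div_div_comm _ _ _ _
  have hfix : ∀ x : ↥V, α x = 1 ↔ g * (x : X) = x * g := by
    intro x
    rw [hα', div_eq_one, Subtype.ext_iff, hcg, eq_mul_inv_iff_mul_eq]
    exact eq_comm
  have hfixh : ∀ x : ↥V, β x = 1 ↔ h * (x : X) = x * h := by
    intro x
    rw [hβ', div_eq_one, Subtype.ext_iff, hch, eq_mul_inv_iff_mul_eq]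
    exact eq_comm
  have hα : ∀ x, α (α x) = 1 → α x = 1 := by
    intro x hx
    have h1 : g * ((α x : ↥V) : X) = (α x : ↥V) * g := (hfix _).mp hx
    have h2 : ((α x : ↥V) : X) = x * g * (x : X)⁻¹ * g⁻¹ := by
      have : ((α x : ↥V) : X) = x * (g * x * g⁻¹)⁻¹ := by
        rw [hα', div_eq_mul_inv, ← hcg]; rfl
      rw [this]; group
    have h3 := kgv_fix_comm g (x : X) _ h1 h2 m
    rw [hg] at h3
    have h4 : ((α x : ↥V) : X) ^ m = 1 := by rw [h3]; group
    have h5 : ((α x : ↥V) : X) ^ Nat.card V = 1 := by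
      have : ((α x) ^ Nat.card V : ↥V) = 1 := pow_card_eq_one'
      have h6 := congrArg (Subtype.val) this
      exact h6
    have h7 : orderOf ((α x : ↥V) : X) ∣ Nat.gcd (Nat.card V) m :=
      Nat.dvd_gcd (orderOf_dvd_of_pow_eq_one h5) (orderOf_dvd_of_pow_eq_one h4)
    rw [hm.gcd_eq_one] at h7
    apply Subtype.ext
    exact orderOf_eq_one_iff.mp (Nat.dvd_one.mp h7)
  have key := kgv_count α β hcomm hα
  have e1 : Nat.card {p : ↥V × ↥V // (p.1 : X) * g * (p.2 * h) = p.2 * h * (p.1 * g)} =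
      Nat.card {p : ↥V × ↥V // β p.1 = α p.2} := by
    apply Nat.card_congr
    apply Equiv.subtypeEquivRight
    rintro ⟨v, w⟩
    show (v : X) * g * (w * h) = w * h * (v * g) ↔ β v = α w
    rw [hβ', hα', div_eq_div_iff_mul_eq_mul, Subtype.ext_iff]
    show _ ↔ (v : X) * ((cg w : ↥V) : X) = w * ((ch v : ↥V) : X)
    rw [hcg, hch]
    constructor
    · intro e
      calc (v : X) * (g * w * g⁻¹) = ((v : X) * g * (w * h)) * (g * h)⁻¹ := by group
        _ = ((w : X) * h * (v * g)) * (h * g)⁻¹ := by rw [e, hgh]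
        _ = w * (h * v * h⁻¹) := by group
    · intro e
      calc (v : X) * g * (w * h) = ((v : X) * (g * w * g⁻¹)) * (g * h) := by group
        _ = ((w : X) * (h * v * h⁻¹)) * (h * g) := by rw [e, hgh]
        _ = w * h * (v * g) := by group
  have e2 : Nat.card {v : ↥V // g * (v : X) = v * g ∧ h * (v : X) = v * h} =
      Nat.card {x : ↥V // α x = 1 ∧ β x = 1} := by
    apply Nat.card_congr
    apply Equiv.subtypeEquivRight
    intro x
    rw [hfix, hfixh]
  rw [e1, e2]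
  exact key

end

section Main

variable {X : Type*} [Group X] [Finite X] (V : Subgroup X) [V.Normal] (G : Subgroup X)

/-- The number of commuting pairs of `X = V ⋊ G`. -/
theorem kgv_comm_pairs [Fintype ↥V] (hab : ∀ a ∈ V, ∀ b ∈ V, a * b = b * a)
    (hGV : Subgroup.IsComplement' V G) (hcop : (Nat.card V).Coprime (Nat.card G)) :
    Nat.card {p : X × X // Commute p.1 p.2} = Nat.card V *
      ∑ v : ↥V, Nat.card {gh : ↥G × ↥G // (gh.1 : X) * gh.2 = gh.2 * gh.1 ∧
        (gh.1 : X) * v = v * gh.1 ∧ (gh.2 : X) * v = v * gh.2} := by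
  classical
  haveI : Fintype ↥G := Fintype.ofFinite _
  have aux : ∀ a b c d : X, a * (b * c * b⁻¹) * (b * d) = a * b * (c * d) := by
    intros; group
  let E : ↥V × ↥G ≃ X := Equiv.ofBijective (fun x : ↥V × ↥G => (x.1 : X) * x.2) hGV
  let e : (↥G × ↥G) × (↥V × ↥V) ≃ X × X :=
    (Equiv.prodProdProdComm ↥G ↥G ↥V ↥V).trans
      (((Equiv.prodComm ↥G ↥V).trans E).prodCongr ((Equiv.prodComm ↥G ↥V).trans E))
  have he : ∀ q : (↥G × ↥G) × (↥V × ↥V),
      e q = ((q.2.1 : X) * q.1.1, (q.2.2 : X) * q.1.2) := fun q => rfl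
  have s1 : Nat.card {p : X × X // Commute p.1 p.2} =
      Nat.card {q : (↥G × ↥G) × (↥V × ↥V) //
        (q.2.1 : X) * q.1.1 * (q.2.2 * q.1.2) = q.2.2 * q.1.2 * (q.2.1 * q.1.1)} := by
    symm
    apply Nat.card_congr
    apply Equiv.subtypeEquiv e
    intro q
    rw [he, commute_iff_eq]
  have s2 : Nat.card {q : (↥G × ↥G) × (↥V × ↥V) //
        (q.2.1 : X) * q.1.1 * (q.2.2 * q.1.2) = q.2.2 * q.1.2 * (q.2.1 * q.1.1)} =
      ∑ gh : ↥G × ↥G, Nat.card {vw : ↥V × ↥V //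
        (vw.1 : X) * gh.1 * (vw.2 * gh.2) = vw.2 * gh.2 * (vw.1 * gh.1)} := by
    rw [← Nat.card_sigma]
    exact Nat.card_congr (Equiv.subtypeProdEquivSigmaSubtype
      (fun (gh : ↥G × ↥G) (vw : ↥V × ↥V) =>
        (vw.1 : X) * gh.1 * (vw.2 * gh.2) = vw.2 * gh.2 * (vw.1 * gh.1)))
  have s3 : ∀ gh : ↥G × ↥G, Nat.card {vw : ↥V × ↥V //
        (vw.1 : X) * gh.1 * (vw.2 * gh.2) = vw.2 * gh.2 * (vw.1 * gh.1)} =
      Nat.card V * Nat.card {v : ↥V // (gh.1 : X) * gh.2 = gh.2 * gh.1 ∧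
        (gh.1 : X) * v = v * gh.1 ∧ (gh.2 : X) * v = v * gh.2} := by
    rintro ⟨g, h⟩
    by_cases hc : (g : X) * h = h * g
    · have hgm : (g : X) ^ Nat.card G = 1 := by
        have : (g ^ Nat.card G : ↥G) = 1 := pow_card_eq_one'
        exact congrArg Subtype.val this
      have h1 := kgv_pair_count V hab (Nat.card G) hcop (g : X) (h : X) hgm hc
      refine h1.trans ?_
      congr 1
      apply Nat.card_congr
      apply Equiv.subtypeEquivRight
      intro v
      exact ⟨fun hv => ⟨hc, hv⟩, fun hv => hv.2⟩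
    · have h1 : IsEmpty {vw : ↥V × ↥V //
          (vw.1 : X) * g * (vw.2 * h) = vw.2 * h * (vw.1 * g)} := by
        constructor
        rintro ⟨⟨v, w⟩, hvw⟩
        apply hc
        have hinj : Function.Injective (fun x : ↥V × ↥G => (x.1 : X) * x.2) := hGV.1
        have h2 : (fun x : ↥V × ↥G => (x.1 : X) * x.2)
            (v * MulAut.conjNormal (g : X) w, g * h) =
            (fun x : ↥V × ↥G => (x.1 : X) * x.2) (w * MulAut.conjNormal (h : X) v, h * g) := by
          show (v : X) * ((MulAut.conjNormal (g : X) w : ↥V) : X) * (g * h) =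
            (w : X) * ((MulAut.conjNormal (h : X) v : ↥V) : X) * (h * g)
          rw [MulAut.conjNormal_apply, MulAut.conjNormal_apply]
          have hvw' : (v : X) * g * (w * h) = w * h * (v * g) := hvw
          rw [aux, aux]
          exact hvw'
        have h3 := hinj h2
        exact congrArg Subtype.val (Prod.ext_iff.mp h3).2
      have h2 : IsEmpty {v : ↥V // (g : X) * h = h * g ∧
          (g : X) * v = v * g ∧ (h : X) * v = v * h} := ⟨fun x => hc x.2.1⟩
      exact (@Nat.card_of_isEmpty _ h1).trans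
        ((congrArg (Nat.card ↥V * ·) (@Nat.card_of_isEmpty _ h2)).trans (mul_zero _)).symm
  have s5 : ∑ gh : ↥G × ↥G, Nat.card {v : ↥V // (gh.1 : X) * gh.2 = gh.2 * gh.1 ∧
        (gh.1 : X) * v = v * gh.1 ∧ (gh.2 : X) * v = v * gh.2} =
      ∑ v : ↥V, Nat.card {gh : ↥G × ↥G // (gh.1 : X) * gh.2 = gh.2 * gh.1 ∧
        (gh.1 : X) * v = v * gh.1 ∧ (gh.2 : X) * v = v * gh.2} := by
    rw [← Nat.card_sigma, ← Nat.card_sigma]
    apply Nat.card_congr
    exact ((Equiv.subtypeProdEquivSigmaSubtype (fun (gh : ↥G × ↥G) (v : ↥V) =>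
        (gh.1 : X) * gh.2 = gh.2 * gh.1 ∧
        (gh.1 : X) * v = v * gh.1 ∧ (gh.2 : X) * v = v * gh.2)).symm.trans
      ((Equiv.subtypeEquiv (Equiv.prodComm _ _) (fun _ => Iff.rfl)).trans
        (Equiv.subtypeProdEquivSigmaSubtype (fun (v : ↥V) (gh : ↥G × ↥G) =>
          (gh.1 : X) * gh.2 = gh.2 * gh.1 ∧
          (gh.1 : X) * v = v * gh.1 ∧ (gh.2 : X) * v = v * gh.2))))
  rw [s1, s2, Finset.sum_congr rfl (fun gh _ => s3 gh), ← Finset.mul_sum, s5]

/-- Commuting pairs of `G` centralizing `x` are counted by the class number of `C_G(x)`. -/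
theorem kgv_T_card (x : X) :
    Nat.card {gh : ↥G × ↥G // (gh.1 : X) * gh.2 = gh.2 * gh.1 ∧
        (gh.1 : X) * x = x * gh.1 ∧ (gh.2 : X) * x = x * gh.2} =
      Nat.card (ConjClasses ↥(G ⊓ Subgroup.centralizer ({x} : Set X))) *
        Nat.card ↥(G ⊓ Subgroup.centralizer ({x} : Set X)) := by
  rw [← card_comm_eq_card_conjClasses_mul_card]
  have hmem : ∀ g : X, g ∈ G → g * x = x * g →
      g ∈ G ⊓ Subgroup.centralizer ({x} : Set X) := by
    intro g hg hgx
    refine Subgroup.mem_inf.mpr ⟨hg, Subgroup.mem_centralizer_iff.mpr ?_⟩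
    intro y hy
    rw [Set.mem_singleton_iff.mp hy, hgx]
  have hmem' : ∀ g : X, g ∈ G ⊓ Subgroup.centralizer ({x} : Set X) → g * x = x * g := by
    intro g hg
    exact (Subgroup.mem_centralizer_iff.mp (Subgroup.mem_inf.mp hg).2 x rfl).symm
  apply Nat.card_congr
  exact
    { toFun := fun t => ⟨(⟨t.1.1, hmem _ t.1.1.2 t.2.2.1⟩, ⟨t.1.2, hmem _ t.1.2.2 t.2.2.2⟩),
        (commute_iff_eq _ _).mpr (Subtype.ext t.2.1)⟩
      invFun := fun t => ⟨(⟨t.1.1, (Subgroup.mem_inf.mp t.1.1.2).1⟩,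
          ⟨t.1.2, (Subgroup.mem_inf.mp t.1.2.2).1⟩),
        congrArg Subtype.val t.2.eq, hmem' _ t.1.1.2, hmem' _ t.1.2.2⟩
      left_inv := fun t => rfl
      right_inv := fun t => rfl }

omit [Finite X] in
theorem kgv_conj_aux (a g y : X) :
    (a⁻¹ * g * a) * y = y * (a⁻¹ * g * a) ↔ g * (a * y * a⁻¹) = (a * y * a⁻¹) * g := by
  constructor
  · intro e
    calc g * (a * y * a⁻¹) = a * ((a⁻¹ * g * a) * y) * a⁻¹ := by group
      _ = a * (y * (a⁻¹ * g * a)) * a⁻¹ := by rw [e]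
      _ = (a * y * a⁻¹) * g := by group
  · intro e
    calc (a⁻¹ * g * a) * y = a⁻¹ * (g * (a * y * a⁻¹)) * a := by group
      _ = a⁻¹ * ((a * y * a⁻¹) * g) * a := by rw [e]
      _ = y * (a⁻¹ * g * a) := by group

/-- The count of commuting pairs centralizing `x` is invariant under `G`-conjugation of `x`. -/
theorem kgv_T_conj (x a : X) (ha : a ∈ G) :
    Nat.card {gh : ↥G × ↥G // (gh.1 : X) * gh.2 = gh.2 * gh.1 ∧
        (gh.1 : X) * (a * x * a⁻¹) = (a * x * a⁻¹) * gh.1 ∧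
        (gh.2 : X) * (a * x * a⁻¹) = (a * x * a⁻¹) * gh.2} =
      Nat.card {gh : ↥G × ↥G // (gh.1 : X) * gh.2 = gh.2 * gh.1 ∧
        (gh.1 : X) * x = x * gh.1 ∧ (gh.2 : X) * x = x * gh.2} := by
  let c : ↥G ≃ ↥G := (MulAut.conj (⟨a, ha⟩ : ↥G)⁻¹).toEquiv
  have hc : ∀ g : ↥G, ((c g : ↥G) : X) = a⁻¹ * g * a := by
    intro g
    show ((⟨a, ha⟩ : ↥G)⁻¹ * g * ((⟨a, ha⟩ : ↥G)⁻¹)⁻¹ : ↥G).1 = _
    simp
  apply Nat.card_congr
  apply Equiv.subtypeEquiv (c.prodCongr c)
  rintro ⟨g, h⟩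
  show _ ↔ ((c g : ↥G) : X) * (c h : ↥G) = (c h : ↥G) * (c g : ↥G) ∧
    ((c g : ↥G) : X) * x = x * (c g : ↥G) ∧ ((c h : ↥G) : X) * x = x * (c h : ↥G)
  rw [hc, hc, kgv_conj_aux a g x, kgv_conj_aux a h x, kgv_conj_aux a g (a⁻¹ * h * a)]
  have e1 : a * (a⁻¹ * (h : X) * a) * a⁻¹ = h := by group
  rw [e1]

/-- Orbit–stabilizer for the conjugation action of `G` on `V`. -/
theorem kgv_orbit (s : X) (hs : s ∈ V) :
    Nat.card {v : ↥V // ∃ g ∈ G, g * (v : X) * g⁻¹ = s} *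
      Nat.card ↥(G ⊓ Subgroup.centralizer ({s} : Set X)) = Nat.card G := by
  set H' := (G ⊓ Subgroup.centralizer ({s} : Set X)).subgroupOf G with hH'
  have hmemH : ∀ c : ↥G, c ∈ H' ↔ (c : X) * s = s * c := by
    intro c
    rw [hH', Subgroup.mem_subgroupOf, Subgroup.mem_inf, Subgroup.mem_centralizer_iff]
    constructor
    · intro h; exact (h.2 s rfl).symm
    · intro h; exact ⟨c.2, fun y hy => by rw [Set.mem_singleton_iff.mp hy, h]⟩
  let f : ↥G → {v : ↥V // ∃ g ∈ G, g * (v : X) * g⁻¹ = s} := fun g =>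
    ⟨⟨g * s * (g : X)⁻¹, ‹V.Normal›.conj_mem s hs g⟩, ⟨(g : X)⁻¹, G.inv_mem g.2, by group⟩⟩
  have hfv : ∀ g : ↥G, (((f g).1 : ↥V) : X) = g * s * (g : X)⁻¹ := fun g => rfl
  have hf : ∀ a b : ↥G, (QuotientGroup.leftRel H') a b → f a = f b := by
    intro a b hab
    rw [QuotientGroup.leftRel_apply, hmemH] at hab
    apply Subtype.ext
    apply Subtype.ext
    rw [hfv, hfv]
    have hab' : (a : X)⁻¹ * b * s = s * ((a : X)⁻¹ * b) := hab
    calc (a : X) * s * (a : X)⁻¹ = a * (s * ((a : X)⁻¹ * b)) * (b : X)⁻¹ := by group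
      _ = a * ((a : X)⁻¹ * b * s) * (b : X)⁻¹ := by rw [hab']
      _ = b * s * (b : X)⁻¹ := by group
  let φ : ↥G ⧸ H' → {v : ↥V // ∃ g ∈ G, g * (v : X) * g⁻¹ = s} := Quotient.lift f hf
  have hφ : Function.Bijective φ := by
    constructor
    · intro q₁ q₂
      induction q₁ using QuotientGroup.induction_on with
      | H a =>
        induction q₂ using QuotientGroup.induction_on with
        | H b =>
          intro h
          have h1 : f a = f b := h
          have h2 : (a : X) * s * (a : X)⁻¹ = b * s * (b : X)⁻¹ := by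
            rw [← hfv, ← hfv, h1]
          apply QuotientGroup.eq.mpr
          rw [hmemH]
          show (a : X)⁻¹ * b * s = s * ((a : X)⁻¹ * b)
          calc (a : X)⁻¹ * b * s = (a : X)⁻¹ * (b * s * (b : X)⁻¹) * b := by group
            _ = (a : X)⁻¹ * (a * s * (a : X)⁻¹) * b := by rw [h2]
            _ = s * ((a : X)⁻¹ * b) := by group
    · rintro ⟨v, g, hg, hgv⟩
      refine ⟨((⟨g, hg⟩⁻¹ : ↥G) : ↥G ⧸ H'), ?_⟩
      apply Subtype.ext
      apply Subtype.ext
      show ((⟨g, hg⟩⁻¹ : ↥G) : X) * s * ((⟨g, hg⟩⁻¹ : ↥G) : X)⁻¹ = v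
      rw [← hgv]
      show g⁻¹ * (g * v * g⁻¹) * (g⁻¹)⁻¹ = (v : X)
      group
  have h1 : Nat.card {v : ↥V // ∃ g ∈ G, g * (v : X) * g⁻¹ = s} = H'.index :=
    (Nat.card_congr (Equiv.ofBijective φ hφ)).symm
  rw [h1, ← Nat.card_congr (Subgroup.subgroupOfEquivOfLe
    (inf_le_left : G ⊓ Subgroup.centralizer ({s} : Set X) ≤ G)).toEquiv, mul_comm,
    Subgroup.card_mul_index]

/-- The class number of `X = V ⋊ G` (`V` abelian, coprime orders) is the sum of the class
numbers of the stabilizers `C_G(s)` over orbit representatives `s` of `G` on `V`. -/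
theorem kgv_class_number (hab : ∀ a ∈ V, ∀ b ∈ V, a * b = b * a)
    (hGV : Subgroup.IsComplement' V G) (hcop : (Nat.card V).Coprime (Nat.card G))
    (S : Finset X) (hSV : ∀ s ∈ S, s ∈ V)
    (hrep : ∀ v ∈ V, ∃! s, s ∈ S ∧ ∃ g ∈ G, g * v * g⁻¹ = s) :
    Nat.card (ConjClasses X) =
      ∑ s ∈ S, Nat.card (ConjClasses ↥(G ⊓ Subgroup.centralizer ({s} : Set X))) := by
  classical
  haveI : Fintype ↥V := Fintype.ofFinite _
  have h1 := kgv_comm_pairs V G hab hGV hcop
  rw [card_comm_eq_card_conjClasses_mul_card] at h1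
  have hex : ∀ v : ↥V, ∃ s, s ∈ S ∧ ∃ g ∈ G, g * (v : X) * g⁻¹ = s :=
    fun v => (hrep v v.2).exists
  choose rep hrepS hrepG using hex
  have hrepU : ∀ (v : ↥V) (s : X), s ∈ S → (∃ g ∈ G, g * (v : X) * g⁻¹ = s) → rep v = s := by
    intro v s hs hg
    exact (hrep v v.2).unique ⟨hrepS v, hrepG v⟩ ⟨hs, hg⟩
  let F : X → ℕ := fun x => Nat.card {gh : ↥G × ↥G // (gh.1 : X) * gh.2 = gh.2 * gh.1 ∧
    (gh.1 : X) * x = x * gh.1 ∧ (gh.2 : X) * x = x * gh.2}
  have hFdef : ∀ x, F x = Nat.card {gh : ↥G × ↥G // (gh.1 : X) * gh.2 = gh.2 * gh.1 ∧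
    (gh.1 : X) * x = x * gh.1 ∧ (gh.2 : X) * x = x * gh.2} := fun x => rfl
  have hsum : ∑ v : ↥V, F v = Nat.card G *
      ∑ s ∈ S, Nat.card (ConjClasses ↥(G ⊓ Subgroup.centralizer ({s} : Set X))) := by
    rw [← Finset.sum_fiberwise_of_maps_to (g := rep) (t := S) (fun v _ => hrepS v)
      (fun v : ↥V => F v), Finset.mul_sum]
    apply Finset.sum_congr rfl
    intro s hs
    have hFv : ∀ v ∈ Finset.univ.filter (fun v : ↥V => rep v = s), F v = F s := by
      intro v hv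
      rw [Finset.mem_filter] at hv
      obtain ⟨g, hg, hgv⟩ := hrepG v
      rw [hv.2] at hgv
      rw [← hgv]
      exact (kgv_T_conj G (v : X) g hg).symm
    rw [Finset.sum_congr rfl hFv, Finset.sum_const, smul_eq_mul]
    have hcard : (Finset.univ.filter (fun v : ↥V => rep v = s)).card =
        Nat.card {v : ↥V // ∃ g ∈ G, g * (v : X) * g⁻¹ = s} := by
      refine (Nat.subtype_card (Finset.univ.filter (fun v : ↥V => rep v = s)) ?_).symm
      intro v
      rw [Finset.mem_filter]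
      constructor
      · rintro ⟨-, h⟩; rw [← h]; exact hrepG v
      · intro h; exact ⟨Finset.mem_univ _, hrepU v s hs h⟩
    rw [hcard, hFdef, kgv_T_card G s, ← kgv_orbit V G s (hSV s hs)]
    ring
  have h1' : Nat.card (ConjClasses X) * Nat.card X = Nat.card V * ∑ v : ↥V, F v := h1
  rw [hsum] at h1'
  have hX : Nat.card V * Nat.card G = Nat.card X := hGV.card_mul_card
  have hpos : 0 < Nat.card X := Nat.card_pos
  apply Nat.eq_of_mul_eq_mul_right hpos
  rw [h1', ← hX]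
  ring

end Main

end Cfsg.Agent.Helper24
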