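import Cfsg.Agent.Helper22.Brauer6
import Cfsg.Agent.Helper22.GalIrr2
import Cfsg.Agent.Helper24.BL8

/-!
# Schur's bound for the Sylow subgroups of a group with a `p`-rational faithful character, part 1:
the Galois argument
-/

set_option autoImplicit false

namespace Cfsg.Agent.Helper24

open Cfsg Cfsg.Agent.Helper22
open scoped Classical

universe u

theorem sch_gal_fix (r s : ℕ) [NeZero (r * s)] (hr : 0 < r) (α : CyclotomicField (r * s) ℚ)
    (hα : cycEmb (r * s) α ∈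
      IntermediateField.adjoin ℚ ({Complex.exp (2 * Real.pi * Complex.I / r)} : Set ℂ))
    (k : (ZMod (r * s))ˣ) (hk : (k : ZMod (r * s)).val % r = 1 % r) :
    cycGal (r * s) k α = α := by
  haveI : NeZero r := ⟨hr.ne'⟩
  have hn : 0 < r * s := NeZero.pos _
  have hζ := cycZeta_spec (r * s)
  obtain ⟨ξ, hξdef⟩ : ∃ ξ : CyclotomicField (r * s) ℚ, ξ = cycZeta (r * s) ^ s := ⟨_, rfl⟩
  have hξ : IsPrimitiveRoot ξ r := by
    rw [hξdef]
    exact hζ.pow hn (Nat.mul_comm r s)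
  have hξ' : IsPrimitiveRoot (cycEmb (r * s) ξ) r := hξ.map_of_injective (cycEmb_injective _)
  have he : IsPrimitiveRoot (Complex.exp (2 * Real.pi * Complex.I / r)) r :=
    Complex.isPrimitiveRoot_exp r hr.ne'
  obtain ⟨j, -, hje⟩ := hξ'.eq_pow_of_pow_eq_one he.pow_eq_one
  have h1 : ∀ y ∈ IntermediateField.adjoin ℚ
      ({Complex.exp (2 * Real.pi * Complex.I / r)} : Set ℂ),
      ∃ β ∈ IntermediateField.adjoin ℚ ({ξ} : Set (CyclotomicField (r * s) ℚ)),
        cycEmb (r * s) β = y := by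
    intro y hy
    induction hy using IntermediateField.adjoin_induction with
    | mem x hx =>
      rw [Set.mem_singleton_iff] at hx
      refine ⟨ξ ^ j, pow_mem (IntermediateField.subset_adjoin _ _ (Set.mem_singleton _)) j, ?_⟩
      rw [map_pow, hje, hx]
    | algebraMap q =>
      exact ⟨algebraMap ℚ _ q, IntermediateField.algebraMap_mem _ _, AlgHom.commutes _ _⟩
    | add x y _ _ hx hy =>
      obtain ⟨a, ha, rfl⟩ := hx
      obtain ⟨b, hb, rfl⟩ := hy
      exact ⟨a + b, add_mem ha hb, map_add _ _ _⟩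
    | inv x _ hx =>
      obtain ⟨a, ha, rfl⟩ := hx
      exact ⟨a⁻¹, inv_mem ha, map_inv₀ _ _⟩
    | mul x y _ _ hx hy =>
      obtain ⟨a, ha, rfl⟩ := hx
      obtain ⟨b, hb, rfl⟩ := hy
      exact ⟨a * b, mul_mem ha hb, map_mul _ _ _⟩
  have h2 : cycGal (r * s) k ξ = ξ := by
    have e1 : cycGal (r * s) k ξ = ξ ^ (k : ZMod (r * s)).val := by
      rw [hξdef, map_pow, cycGal_zeta, ← pow_mul, Nat.mul_comm (k : ZMod (r * s)).val s, pow_mul]
    rw [e1, pow_eq_pow_mod _ hξ.pow_eq_one, hk, ← pow_eq_pow_mod _ hξ.pow_eq_one, pow_one]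
  have h3 : ∀ β ∈ IntermediateField.adjoin ℚ ({ξ} : Set (CyclotomicField (r * s) ℚ)),
      cycGal (r * s) k β = β := by
    intro β hβ
    induction hβ using IntermediateField.adjoin_induction with
    | mem x hx => rw [Set.mem_singleton_iff.mp hx]; exact h2
    | algebraMap q => exact AlgEquiv.commutes _ _
    | add x y _ _ hx hy => rw [map_add, hx, hy]
    | inv x _ hx => rw [map_inv₀, hx]
    | mul x y _ _ hx hy => rw [map_mul, hx, hy]
  obtain ⟨β, hβ, hβα⟩ := h1 _ hα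
  have h4 : β = α := cycEmb_injective _ hβα
  rw [← h4]
  exact h3 β hβ

theorem sch_gal_char {G : Type u} [Group G] [Finite G] {χ : G → ℂ} (hχ : IsCharacter G χ)
    (r : ℕ) (hr : 0 < r)
    (hrat : ∀ g : G, χ g ∈
      IntermediateField.adjoin ℚ ({Complex.exp (2 * Real.pi * Complex.I / r)} : Set ℂ))
    (y : G) (k : ℕ) (hk : k.Coprime (r * Nat.card G)) (hk1 : k % r = 1 % r) :
    χ (y ^ k) = χ y := by
  haveI : NeZero (r * Nat.card G) := ⟨(Nat.mul_pos hr Nat.card_pos).ne'⟩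
  have hn : ∀ g : G, g ^ (r * Nat.card G) = 1 := by
    intro g
    rw [Nat.mul_comm, pow_mul, pow_card_eq_one', one_pow]
  obtain ⟨α, -, hf⟩ := isCycFam_char (r * Nat.card G) hn hχ y
  have h1 : cycEmb (r * Nat.card G) α = χ y := by
    have h := hf 1
    rw [cycGal_one] at h
    have h' : cycEmb (r * Nat.card G) α =
        χ (y ^ ((1 : (ZMod (r * Nat.card G))ˣ) : ZMod (r * Nat.card G)).val) := h
    rw [h', pow_one_unit_val hn y]
  have hα : cycEmb (r * Nat.card G) α ∈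
      IntermediateField.adjoin ℚ ({Complex.exp (2 * Real.pi * Complex.I / r)} : Set ℂ) := by
    rw [h1]; exact hrat y
  have hu : ((ZMod.unitOfCoprime k hk : (ZMod (r * Nat.card G))ˣ) : ZMod (r * Nat.card G)).val % r
      = 1 % r := by
    rw [ZMod.coe_unitOfCoprime, ZMod.val_natCast, Nat.mod_mod_of_dvd k (dvd_mul_right r _)]
    exact hk1
  have h2 := sch_gal_fix r (Nat.card G) hr α hα (ZMod.unitOfCoprime k hk) hu
  have h3 : cycEmb (r * Nat.card G) (cycGal (r * Nat.card G) (ZMod.unitOfCoprime k hk) α) =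
      χ (y ^ ((ZMod.unitOfCoprime k hk : (ZMod (r * Nat.card G))ˣ) :
        ZMod (r * Nat.card G)).val) := hf (ZMod.unitOfCoprime k hk)
  rw [h2, h1, pow_unit_val hn k hk y] at h3
  exact h3.symm

theorem sch_pow_inv {G : Type u} [Group G] [Finite G] {χ : G → ℂ} (hχ : IsCharacter G χ)
    (p : ℕ) (hp : p.Prime) (r : ℕ) (hr : 0 < r) (hpr : ¬ p ∣ r)
    (hrat : ∀ g : G, χ g ∈
      IntermediateField.adjoin ℚ ({Complex.exp (2 * Real.pi * Complex.I / r)} : Set ℂ))
    (y : G) (i : ℕ) (hy : y ^ (p ^ i) = 1) (j : ℕ) (hj : ¬ p ∣ j) : χ (y ^ j) = χ y := by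
  have hN0 : Nat.card G ≠ 0 := Nat.card_pos.ne'
  obtain ⟨a, m, hm, hNam⟩ : ∃ a m : ℕ, ¬ p ∣ m ∧ Nat.card G = p ^ a * m :=
    ⟨(Nat.card G).factorization p, Nat.card G / p ^ (Nat.card G).factorization p,
      Nat.not_dvd_ordCompl hp hN0, (Nat.ordProj_mul_ordCompl_eq_self (Nat.card G) p).symm⟩
  have hco : (p ^ (i + 1)).Coprime (r * m) := by
    apply Nat.Coprime.pow_left
    exact Nat.Coprime.mul_right ((Nat.Prime.coprime_iff_not_dvd hp).mpr hpr)
      ((Nat.Prime.coprime_iff_not_dvd hp).mpr hm)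
  obtain ⟨k, hkA, hkB⟩ := Nat.chineseRemainder hco j 1
  have hkp : ¬ p ∣ k := by
    intro h
    have h1 : k ≡ j [MOD p] := hkA.of_dvd (dvd_pow_self p (Nat.succ_ne_zero i))
    exact hj ((Nat.dvd_iff_mod_eq_zero).mpr (by
      have h2 : k % p = j % p := h1
      rw [← h2]; exact Nat.dvd_iff_mod_eq_zero.mp h))
  have hk1 : k.Coprime (r * m) := by
    have h := hkB.gcd_eq
    rw [Nat.gcd_one_left] at h
    exact h
  have hkco : k.Coprime (r * Nat.card G) := by
    rw [hNam]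
    have h1 : k.Coprime (p ^ a) :=
      Nat.Coprime.pow_right a ((Nat.coprime_comm.mp ((Nat.Prime.coprime_iff_not_dvd hp).mpr hkp)))
    have h2 : r * (p ^ a * m) = p ^ a * (r * m) := by ring
    rw [h2]
    exact Nat.Coprime.mul_right h1 hk1
  have hkr : k % r = 1 % r := (hkB.of_mul_right m)
  have hkj : y ^ k = y ^ j := by
    have h1 : k ≡ j [MOD p ^ i] := hkA.of_dvd (pow_dvd_pow p (Nat.le_succ i))
    rw [pow_eq_pow_mod k hy, pow_eq_pow_mod j hy, h1]
  rw [← hkj]
  exact sch_gal_char hχ r hr hrat y k hkco hkr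

end Cfsg.Agent.Helper24
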