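import Cfsg.Agent.Helper24.Schur2

/-!
# Schur's bound for the Sylow subgroups of a group with a `p`-rational faithful character, part 3
-/

set_option autoImplicit false

namespace Cfsg.Agent.Helper24

open Cfsg Cfsg.Agent.Helper22
open scoped Classical

universe u

theorem sch_main {G : Type u} [Group G] [Finite G] (p : ℕ) (hp : p.Prime) (χ : G → ℂ)
    (hχ : IsCharacter G χ) (hfaith : ∀ g : G, χ g = χ 1 → g = 1)
    (hrat : ∃ r : ℕ, 0 < r ∧ ¬ p ∣ r ∧ ∀ g : G, χ g ∈
      IntermediateField.adjoin ℚ ({Complex.exp (2 * Real.pi * Complex.I / r)} : Set ℂ))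
    (n : ℕ) (hn : charDegree χ = n) :
    (Nat.card G).factorization p ≤ ∑ i ∈ Finset.range (n + 1), n / ((p - 1) * p ^ i) := by
  haveI := Fintype.ofFinite G
  haveI : Fact p.Prime := ⟨hp⟩
  obtain ⟨r, hr, hpr, hrat⟩ := hrat
  have hinv : SchInv p χ := fun y i j hy hj => sch_pow_inv hχ p hp r hr hpr hrat y i hy j hj
  have hχ1 : χ 1 = n := by
    obtain ⟨m, ρ, hρ⟩ := hχ
    have h1 : χ 1 = m := by rw [← hρ]; exact char_one_fin ρ
    rw [← hn, charDegree_of_eq h1, h1]
  have hle : ∀ g : G, (χ g).re ≤ n := by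
    intro g
    obtain ⟨m, ρ, hρ⟩ := hχ
    have h1 : χ 1 = m := by rw [← hρ]; exact char_one_fin ρ
    have h2 := norm_char_le ρ g
    rw [hρ] at h2
    have h3 : (Module.finrank ℂ (Fin m → ℂ) : ℝ) = n := by
      have h4 : (n : ℂ) = m := by rw [← hχ1, h1]
      have h5 : n = m := by exact_mod_cast h4
      rw [h5]; simp
    rw [h3] at h2
    exact le_trans (Complex.re_le_norm _) h2
  obtain ⟨P⟩ : Nonempty (Sylow p G) := inferInstance
  have hPcard : Nat.card P = p ^ (Nat.card G).factorization p := Sylow.card_eq_multiplicity P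
  obtain ⟨J, hJ⟩ : ∃ J, J = n / (p - 1) := ⟨_, rfl⟩
  have hp1 : 0 < p - 1 := Nat.sub_pos_of_lt hp.one_lt
  have hval : ∀ u ∈ (P : Subgroup G), u ≠ 1 →
      ∃ j ∈ Finset.range J, χ u = (n : ℂ) - (p : ℂ) * ((j + 1 : ℕ) : ℂ) := by
    intro u hu hu1
    have hupow : u ^ (p ^ (Nat.card G).factorization p) = 1 := by
      have h := pow_card_eq_one' (G := ↥(P : Subgroup G)) (x := ⟨u, hu⟩)
      rw [hPcard] at h
      exact congrArg Subtype.val h
    obtain ⟨z, hz⟩ := sch_int hχ p hp hinv u _ hupow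
    have hdvd := sch_congr hχ p hp u _ hupow z hz n hχ1
    have hlow := sch_lower hχ p hp hinv u _ hupow z hz n hχ1 hle
    have hzn : z ≤ n := by
      have h := hle u
      rw [hz] at h
      have h' : (z : ℝ) ≤ n := by simpa using h
      exact_mod_cast h'
    have hzne : z ≠ n := by
      intro h
      apply hu1
      apply hfaith
      rw [hz, hχ1, h]
      simp
    obtain ⟨w, hw⟩ := hdvd
    have hwneg : w < 0 := by
      by_contra hcon
      push Not at hcon
      have h0 : 0 ≤ (p : ℤ) * w := mul_nonneg (Int.natCast_nonneg p) hcon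
      omega
    obtain ⟨j, hj⟩ : ∃ j : ℕ, (j : ℤ) = -w - 1 := ⟨(-w - 1).toNat, Int.toNat_of_nonneg (by omega)⟩
    have hzj : (z : ℤ) = n - p * ((j + 1 : ℕ) : ℤ) := by
      push_cast
      rw [hj]
      linarith
    have h2 : ((p - 1 : ℕ) : ℤ) = (p : ℤ) - 1 := by
      rw [Nat.cast_sub hp.one_lt.le]; simp
    refine ⟨j, Finset.mem_range.mpr ?_, ?_⟩
    · rw [hJ, Nat.lt_iff_add_one_le, Nat.le_div_iff_mul_le hp1]
      rw [hzj, h2] at hlow
      have h3 : (0 : ℤ) ≤ (p : ℤ) * ((n : ℤ) - ((p : ℤ) - 1) * ((j + 1 : ℕ) : ℤ)) := by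
        linarith
      have h4 : (0 : ℤ) ≤ (n : ℤ) - ((p : ℤ) - 1) * ((j + 1 : ℕ) : ℤ) :=
        nonneg_of_mul_nonneg_right h3 (by exact_mod_cast hp.pos)
      have h5 : (((j + 1) * (p - 1) : ℕ) : ℤ) ≤ n := by
        rw [Nat.cast_mul, h2]; linarith
      exact_mod_cast h5
    · rw [hz, hzj]
      push_cast
      ring
  have hdvd := sch_blichfeldt hχ (P : Subgroup G) p n J hχ1 hval
  rw [hPcard] at hdvd
  have h1 : (Nat.card G).factorization p ≤ (p ^ J * J.factorial).factorization p :=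
    (hp.pow_dvd_iff_le_factorization
      (Nat.mul_ne_zero (pow_ne_zero _ hp.ne_zero) (Nat.factorial_ne_zero _))).mp hdvd
  rw [Nat.factorization_mul (pow_ne_zero _ hp.ne_zero) (Nat.factorial_ne_zero _),
    Finsupp.add_apply, hp.factorization_pow, Finsupp.single_eq_same] at h1
  have hlog : Nat.log p J < n + 1 := by
    have h : J ≤ n := by rw [hJ]; exact Nat.div_le_self _ _
    exact lt_of_le_of_lt (Nat.log_le_self p J) (by omega)
  have h2 : (J.factorial).factorization p = ∑ i ∈ Finset.Ico 1 (n + 1), J / p ^ i := by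
    rw [Nat.factorization_def _ hp]
    exact padicValNat_factorial hlog
  rw [h2] at h1
  have h3 : ∑ i ∈ Finset.range (n + 1), n / ((p - 1) * p ^ i) =
      J + ∑ i ∈ Finset.Ico 1 (n + 1), J / p ^ i := by
    rw [Finset.range_eq_Ico, Finset.sum_eq_sum_Ico_succ_bot (Nat.succ_pos n)]
    rw [pow_zero, mul_one, ← hJ]
    congr 1
    refine Finset.sum_congr rfl (fun i _ => ?_)
    rw [hJ, Nat.div_div_eq_div_mul]
  rw [h3]
  exact h1

end Cfsg.Agent.Helper24
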